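import Mathlib
import Cfsg.Prelude.Def_CaseTheorems
import Cfsg.Prelude.Def_KGroupFacts
import Cfsg.Agent.PGroup.Frattini
import Cfsg.Agent.TwoAut.RadicalAFive
import Cfsg.Agent.TwoGroups.SectionalTwo

/-!
# 2-radicals under a quotient of order 168 of sectional rank four: basic tools

`Rad π Q` : `π` maps `Y` onto a simple group of order 168 with kernel the 2-group `Q`, `Y` has
sectional 2-rank at most 4, and elements of order 7 act nontrivially on `Q`.
-/

set_option autoImplicit false
set_option linter.all false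

namespace Cfsg.Agent.RadLThree

open Cfsg Cfsg.Agent

universe u v w

variable {Y : Type u} [Group Y] [Finite Y] {L : Type v} [Group L]

structure Rad (π : Y →* L) (Q : Subgroup Y) : Prop where
  simple : IsSimpleGroup L
  card : Nat.card L = 168
  surj : Function.Surjective π
  ker : π.ker = Q
  two : IsPGroup 2 Q
  rank : SectionalPRankLE 2 4 Y
  act : ∀ s : Y, s ^ 7 = 1 → (∀ q ∈ Q, s * q = q * s) → s = 1

variable {π : Y →* L} {Q : Subgroup Y}

theorem Rad.normal (h : Rad π Q) : Q.Normal := h.ker ▸ π.normal_ker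

theorem Rad.mem_iff (h : Rad π Q) {y : Y} : y ∈ Q ↔ π y = 1 := by
  rw [← h.ker]; rfl

theorem Rad.finite (h : Rad π Q) : Finite L := Finite.of_surjective π h.surj

theorem Rad.eq_one_of_pow_seven (h : Rad π Q) {q : Y} (hq : q ∈ Q) (h7 : q ^ 7 = 1) : q = 1 := by
  obtain ⟨k, hk⟩ := h.two ⟨q, hq⟩
  have hk' : q ^ 2 ^ k = 1 := congrArg Subtype.val hk
  have := Nat.Coprime.pow_left k (by norm_num : Nat.Coprime 2 7)
  have h1 : q ^ Nat.gcd (2 ^ k) 7 = 1 := pow_gcd_eq_one.2 ⟨hk', h7⟩
  rwa [Nat.Coprime.gcd_eq_one this, pow_one] at h1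

theorem Rad.exists_seven (h : Rad π Q) : ∃ s : Y, s ^ 7 = 1 ∧ s ∉ Q := by
  haveI : Fact (Nat.Prime 7) := ⟨by norm_num⟩
  have hd : 7 ∣ Nat.card Y := by
    refine dvd_trans ?_ (Subgroup.card_dvd_of_surjective π h.surj)
    rw [h.card]; norm_num
  obtain ⟨s, hs⟩ := exists_prime_orderOf_dvd_card' 7 hd
  have h7 : s ^ 7 = 1 := by rw [← hs]; exact pow_orderOf_eq_one s
  refine ⟨s, h7, fun hQ => ?_⟩
  rw [h.eq_one_of_pow_seven hQ h7, orderOf_one] at hs
  norm_num at hs

theorem Rad.ker_eq (h : Rad π Q) {G : Type w} [Group G] (f : Y →* G)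
    (hQ : ∀ q ∈ Q, f q = 1) : (∀ y, f y = 1) ∨ f.ker = Q := by
  have hle : Q ≤ f.ker := fun q hq => hQ q hq
  haveI := h.simple
  have hn : (f.ker.map π).Normal := f.normal_ker.map π h.surj
  rcases hn.eq_bot_or_eq_top with hb | ht
  · exact Or.inr (le_antisymm (fun y hy => h.mem_iff.2 (by
      have : π y ∈ f.ker.map π := ⟨y, hy, rfl⟩
      rw [hb] at this; exact this)) hle)
  · left
    intro y
    have hm : π y ∈ f.ker.map π := ht ▸ Subgroup.mem_top _
    obtain ⟨k, hk, hky⟩ := hm
    have hq : k⁻¹ * y ∈ Q := h.mem_iff.2 (by rw [map_mul, map_inv, hky, inv_mul_cancel])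
    have := hQ _ hq
    rw [map_mul, map_inv, MonoidHom.mem_ker.1 hk, inv_one, one_mul] at this
    exact this

theorem Rad.kill (h : Rad π Q) {G : Type w} [Group G] [Finite G] (f : Y →* G)
    (hQ : ∀ q ∈ Q, f q = 1) (hd : ¬ 168 ∣ Nat.card G) : ∀ y, f y = 1 := by
  rcases h.ker_eq f hQ with h1 | h1
  · exact h1
  · exfalso
    apply hd
    have e : Nat.card f.range = Nat.card L := by
      rw [← Subgroup.index_ker, h1, ← h.ker, Subgroup.index_ker,
        MonoidHom.range_eq_top.2 h.surj, Subgroup.card_top]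
    rw [← h.card, ← e]
    exact f.range.card_subgroup_dvd_card

/-- The restriction of a permutation action to an invariant set. -/
def setHom {α : Type w} (f : Y →* Equiv.Perm α) (S : Set α) (hS : ∀ y, ∀ a ∈ S, f y a ∈ S) :
    Y →* Equiv.Perm S where
  toFun y := (f y).subtypeEquiv fun a => ⟨fun ha => hS y a ha, fun ha => by
    have := hS y⁻¹ _ ha
    simpa using this⟩
  map_one' := by ext a; simp
  map_mul' y z := by ext a; simp [Equiv.subtypeEquiv]

theorem not_dvd_factorial {n : ℕ} (hn : n < 7) : ¬ 168 ∣ n.factorial := by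
  interval_cases n <;> decide

theorem Rad.small_fixed (h : Rad π Q) {α : Type w} (f : Y →* Equiv.Perm α)
    (hQ : ∀ q ∈ Q, f q = 1) (S : Set α) [Finite S] (hS : ∀ y, ∀ a ∈ S, f y a ∈ S)
    (hc : Nat.card S < 7) : ∀ y, ∀ a ∈ S, f y a = a := by
  intro y a ha
  have := h.kill (setHom f S hS) (fun q hq => by ext b; simp [setHom, hQ q hq])
    (by rw [Nat.card_perm]; exact not_dvd_factorial hc) y
  exact congrArg Subtype.val (Equiv.ext_iff.1 this ⟨a, ha⟩)

theorem Rad.orbit_card (h : Rad π Q) {α : Type w} (f : Y →* Equiv.Perm α)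
    (hQ : ∀ q ∈ Q, f q = 1) (a : α) :
    (Set.range fun y => f y a).ncard ∣ 168 := by
  letI : MulAction Y α := MulAction.compHom α f
  have e : (Set.range fun y => f y a) = MulAction.orbit Y a := rfl
  have hle : Q ≤ MulAction.stabilizer Y a := fun q hq => by
    show f q a = a
    rw [hQ q hq]; rfl
  rw [e, ← MulAction.index_stabilizer]
  refine (Subgroup.index_dvd_of_le hle).trans ?_
  rw [← h.ker, Subgroup.index_ker, MonoidHom.range_eq_top.2 h.surj, Subgroup.card_top, h.card]

/-- An action on eight points in which an involution of the quotient fixes a point has a fixed point. -/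
theorem Rad.eight_fixed (h : Rad π Q) {α : Type w} (f : Y →* Equiv.Perm α)
    (hQ : ∀ q ∈ Q, f q = 1) (hc : Nat.card α = 8) {e : Y} (he : e ∉ Q) (he2 : e * e ∈ Q) {a : α}
    (ha : f e a = a) : ∃ b, ∀ y, f y b = b := by
  by_contra hcon
  push Not at hcon
  haveI : Finite α := Nat.finite_of_card_ne_zero (by omega)
  let O := Set.range fun y => f y a
  have hO : ∀ y, ∀ b ∈ O, f y b ∈ O := by
    rintro y _ ⟨z, rfl⟩
    exact ⟨y * z, by simp⟩
  have hC : ∀ y, ∀ b ∈ Oᶜ, f y b ∈ Oᶜ := by
    intro y b hb hy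
    apply hb
    have := hO y⁻¹ _ hy
    simpa using this
  have h7 : 7 ≤ O.ncard := by
    by_contra hlt
    obtain ⟨y, hy⟩ := hcon a
    exact hy (h.small_fixed f hQ O hO (by rw [Nat.card_coe_set_eq]; omega) y a ⟨1, by simp⟩)
  have h0 : Oᶜ = ∅ := by
    by_contra hne
    obtain ⟨b, hb⟩ := Set.nonempty_iff_ne_empty.2 hne
    obtain ⟨y, hy⟩ := hcon b
    refine hy (h.small_fixed f hQ Oᶜ hC ?_ y b hb)
    have := Set.ncard_add_ncard_compl O
    rw [hc] at this
    rw [Nat.card_coe_set_eq]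
    omega
  have hcard : O.ncard = 8 := by
    rw [Set.compl_empty_iff.1 h0, Set.ncard_univ, hc]
  letI : MulAction Y α := MulAction.compHom α f
  have hQle : Q ≤ MulAction.stabilizer Y a := fun q hq => by
    show f q a = a
    rw [hQ q hq]; rfl
  have hidx : (MulAction.stabilizer Y a).index = 8 := by
    rw [MulAction.index_stabilizer]; exact hcard
  have hi : ((MulAction.stabilizer Y a).map π).index = 8 := by
    rw [Subgroup.index_map_eq _ h.surj (by rw [h.ker]; exact hQle)]; exact hidx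
  have hm := ((MulAction.stabilizer Y a).map π).card_mul_index
  rw [hi, h.card] at hm
  haveI := h.finite
  have h2 : orderOf (π e) = 2 := by
    refine orderOf_eq_prime ?_ (fun h1 => he (h.mem_iff.2 h1))
    rw [sq, ← map_mul]; exact h.mem_iff.1 he2
  have hmem : π e ∈ (MulAction.stabilizer Y a).map π := ⟨e, ha, rfl⟩
  have := Subgroup.orderOf_dvd_natCard _ hmem
  rw [h2] at this
  omega

/-- Five generators of an elementary section give a contradiction. -/
theorem Rad.five (h : Rad π Q) (S : Set Y) (N : Subgroup Y)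
    (hNS : N ≤ Subgroup.closure S) (hn : ∀ s ∈ S, ∀ n ∈ N, s * n * s⁻¹ ∈ N)
    (hsq : ∀ s ∈ S, s * s ∈ N) (hcm : ∀ s ∈ S, ∀ t ∈ S, (s * t) * (s * t) ∈ N)
    (hlt : 16 * Nat.card N < Nat.card (Subgroup.closure S)) : False := by
  let NN := Subgroup.normalizer (N : Set Y)
  have hH : Subgroup.closure S ≤ NN := by
    refine (Subgroup.closure_le _).2 fun s hs => ?_
    rw [SetLike.mem_coe, Subgroup.mem_normalizer_iff]
    intro n
    refine ⟨hn s hs n, fun h' => ?_⟩
    have hs' : s⁻¹ * (s * s) ∈ Subgroup.closure ({s} : Set Y) := by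
      simpa using Subgroup.subset_closure (Set.mem_singleton s)
    have h2 : s * (s * n * s⁻¹) * s⁻¹ ∈ N := hn s hs _ h'
    have h3 := N.mul_mem (N.mul_mem (N.inv_mem (hsq s hs)) h2) (hsq s hs)
    simpa [mul_assoc] using h3
  let H : Subgroup Y := Subgroup.closure S
  haveI : (N.subgroupOf H).Normal := Subgroup.normal_subgroupOf_of_le_normalizer hH
  let m := QuotientGroup.mk' (N.subgroupOf H)
  have hS : ∀ s : H, (s : Y) * s ∈ N → m s * m s = 1 := fun s hs => by
    rw [← map_mul]; exact (QuotientGroup.eq_one_iff _).2 hs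
  have hcomm : IsMulCommutative (H ⧸ N.subgroupOf H) := by
    have htop : Subgroup.closure (((↑) : H → Y) ⁻¹' S) = ⊤ := Subgroup.closure_closure_coe_preimage
    have h2 : Subgroup.closure (m '' (((↑) : H → Y) ⁻¹' S)) = ⊤ := by
      rw [← MonoidHom.map_closure, htop]
      exact Subgroup.map_top_of_surjective _ (QuotientGroup.mk'_surjective _)
    have h3 : IsMulCommutative (Subgroup.closure (m '' (((↑) : H → Y) ⁻¹' S))) := by
      refine Subgroup.isMulCommutative_closure ?_
      rintro _ ⟨a, ha, rfl⟩ _ ⟨b, hb, rfl⟩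
      have ha2 := hS a (hsq a ha)
      have hb2 := hS b (hsq b hb)
      have hab2 := hS (a * b) (hcm a ha b hb)
      rw [map_mul] at hab2
      calc m a * m b = (m a * m b)⁻¹ := (inv_eq_of_mul_eq_one_right hab2).symm
        _ = m b * m a := by
          rw [mul_inv_rev, inv_eq_of_mul_eq_one_right ha2, inv_eq_of_mul_eq_one_right hb2]
    rw [h2] at h3
    exact ⟨⟨fun x y => congrArg Subtype.val (h3.is_comm.comm ⟨x, Subgroup.mem_top _⟩ ⟨y, Subgroup.mem_top _⟩)⟩⟩
  have hall : ∀ x : H ⧸ N.subgroupOf H, x * x = 1 := by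
    intro x
    obtain ⟨⟨y, hy⟩, rfl⟩ := QuotientGroup.mk'_surjective _ x
    induction hy using Subgroup.closure_induction with
    | mem z hz => exact hS _ (hsq z hz)
    | one => exact mul_one _
    | mul a b ha hb iha ihb =>
      have : (⟨a * b, Subgroup.mul_mem _ ha hb⟩ : H) = ⟨a, ha⟩ * ⟨b, hb⟩ := rfl
      rw [this, map_mul, Commute.mul_mul_mul_comm (hcomm.is_comm.comm _ _)]
      rw [iha, ihb, one_mul]
    | inv a ha iha =>
      have : (⟨a⁻¹, Subgroup.inv_mem _ ha⟩ : H) = ⟨a, ha⟩⁻¹ := rfl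
      rw [this, map_inv, ← mul_inv_rev, iha, inv_one]
  have hb := h.rank H (N.subgroupOf H) ⊤ ⟨⟨fun a b => Subtype.ext (hcomm.is_comm.comm _ _)⟩⟩
    (fun a _ => by rw [sq]; exact hall a)
  rw [Subgroup.card_top] at hb
  have hc := Subgroup.card_eq_card_quotient_mul_card_subgroup (N.subgroupOf H)
  rw [Nat.card_congr (Subgroup.subgroupOfEquivOfLe hNS).toEquiv] at hc
  have h16 : Nat.card (H ⧸ N.subgroupOf H) ≤ 16 := hb
  have := Nat.mul_le_mul_right (Nat.card N) h16
  have e : Nat.card (Subgroup.closure S) = Nat.card H := rfl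
  omega

/-- An elementary abelian subgroup has at most 16 elements. -/
theorem Rad.card_le (h : Rad π Q) (A : Subgroup Y) (h2 : ∀ a ∈ A, a * a = 1) : Nat.card A ≤ 16 := by
  have := TwoAut.OrderFive.card_quot_le h.rank A ⊥ (fun a ha => h2 a ha)
  rwa [Subgroup.bot_subgroupOf, Nat.card_congr (QuotientGroup.quotientBot (G := A)).toEquiv] at this

/-- An element of order 7 centralizing `Q` modulo a central or Frattini subgroup is trivial. -/
theorem Rad.act_mod (h : Rad π Q) (N : Subgroup Y) (hN : N ≤ Q)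
    (hNc : N ≤ (frattini ↥Q).map Q.subtype ∨ ∀ n ∈ N, ∀ y : Y, y * n = n * y) {s : Y}
    (hs : s ^ 7 = 1) (hmod : ∀ q ∈ Q, q⁻¹ * (s * q * s⁻¹) ∈ N) : s = 1 := by
  haveI := h.normal
  haveI : Fact (Nat.Prime 2) := ⟨Nat.prime_two⟩
  refine h.act s hs ?_
  rcases hNc with hF | hC
  · refine PGroup.commute_of_coprime_of_frattini h.two ?_ ?_ fun x hx => hF (hmod x hx)
    · exact Nat.Coprime.coprime_dvd_left (orderOf_dvd_of_pow_eq_one hs) (by norm_num)
    · rw [Subgroup.normalizer_eq_top]; exact Subgroup.mem_top s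
  · intro q hq
    have hn := hmod q hq
    set n := q⁻¹ * (s * q * s⁻¹) with hndef
    have hsq : s * q * s⁻¹ = q * n := by rw [hndef]; group
    have hk : ∀ k : ℕ, s ^ k * q * (s ^ k)⁻¹ = q * n ^ k := by
      intro k
      induction k with
      | zero => simp
      | succ k ih =>
        have hfix : s * n ^ k * s⁻¹ = n ^ k := by rw [hC _ (N.pow_mem hn k) s, mul_inv_cancel_right]
        calc s ^ (k + 1) * q * (s ^ (k + 1))⁻¹ = s * (s ^ k * q * (s ^ k)⁻¹) * s⁻¹ := by
              rw [pow_succ']; group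
          _ = (s * q * s⁻¹) * (s * n ^ k * s⁻¹) := by rw [ih]; group
          _ = q * n ^ (k + 1) := by rw [hsq, hfix, mul_assoc, ← pow_succ']
    have h7 := hk 7
    rw [hs] at h7
    simp only [one_mul, inv_one, mul_one] at h7
    have := h.eq_one_of_pow_seven (hN hn) (left_eq_mul.1 h7)
    rw [hndef] at this
    rw [inv_mul_eq_one] at this
    calc s * q = (s * q * s⁻¹) * s := by group
      _ = q * s := by rw [← this]

end Cfsg.Agent.RadLThree
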