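import Cfsg.Agent.RadLThreeTwo.Frame

/-!
# The radical cannot be homocyclic of type `(4,4,4)`
-/

set_option autoImplicit false
set_option linter.all false

namespace Cfsg.Agent.RadLThree

open Cfsg Cfsg.Agent Matrix

universe u v w

variable {Y : Type u} [Group Y] [Finite Y] {L : Type v} [Group L] {π : Y →* L} {Q : Subgroup Y}

/-- Lower bound for a subgroup meeting a Klein four-group of the quotient. -/
theorem Rad.four_mul (h : Rad π Q) {H : Subgroup Y} {e f : Y} (he : e ∈ H) (hf : f ∈ H)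
    (heQ : e ∉ Q) (hfQ : f ∉ Q) (hefQ : e * f ∉ Q) (he2 : e * e ∈ Q) (hf2 : f * f ∈ Q)
    {A : Subgroup Y} (hAH : A ≤ H) (hAQ : A ≤ Q) : 4 * Nat.card A ≤ Nat.card H := by
  classical
  have key : ∀ a b : Bool × Bool, a ≠ b →
      π ((if a.1 then e else 1) * (if a.2 then f else 1)) ≠
        π ((if b.1 then e else 1) * (if b.2 then f else 1)) := by
    intro a b hab hp
    have ne1 : π e ≠ 1 := fun h1 => heQ (h.mem_iff.2 h1)
    have nf1 : π f ≠ 1 := fun h1 => hfQ (h.mem_iff.2 h1)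
    have nef : π e * π f ≠ 1 := fun h1 => hefQ (h.mem_iff.2 (by rw [map_mul, h1]))
    have ee : π e * π e = 1 := by rw [← map_mul]; exact h.mem_iff.1 he2
    have neq : π e ≠ π f := fun h1 => nef (by rw [← h1, ee])
    apply hab
    rcases a with ⟨a1, a2⟩
    rcases b with ⟨b1, b2⟩
    cases a1 <;> cases a2 <;> cases b1 <;> cases b2 <;>
      simp only [if_true, if_false, Bool.false_eq_true, mul_one, one_mul, map_mul, map_one] at hp <;>
      first
        | rfl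
        | exact absurd hp ne1
        | exact absurd hp.symm ne1
        | exact absurd hp nf1
        | exact absurd hp.symm nf1
        | exact absurd hp nef
        | exact absurd hp.symm nef
        | exact absurd hp neq
        | exact absurd hp.symm neq
        | exact absurd (left_eq_mul.1 hp) nf1
        | exact absurd (left_eq_mul.1 hp.symm) nf1
        | exact absurd (right_eq_mul.1 hp) ne1
        | exact absurd (right_eq_mul.1 hp.symm) ne1
  let g : A × (Bool × Bool) → H := fun x =>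
    ⟨(if x.2.1 then e else 1) * (if x.2.2 then f else 1) * x.1, H.mul_mem (H.mul_mem
      (by split_ifs <;> [exact he; exact H.one_mem]) (by split_ifs <;> [exact hf; exact H.one_mem]))
      (hAH x.1.2)⟩
  have hg : Function.Injective g := by
    rintro ⟨a, i⟩ ⟨b, j⟩ hab
    have hab' : (if i.1 then e else 1) * (if i.2 then f else 1) * (a : Y) =
        (if j.1 then e else 1) * (if j.2 then f else 1) * b := congrArg Subtype.val hab
    have hij : i = j := by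
      by_contra hne
      refine key i j hne ?_
      have := congrArg π hab'
      rw [map_mul _ _ (a : Y), map_mul _ _ (b : Y), h.mem_iff.1 (hAQ a.2), h.mem_iff.1 (hAQ b.2),
        mul_one, mul_one] at this
      exact this
    subst hij
    rw [mul_right_inj] at hab'
    exact Prod.ext (Subtype.ext hab') rfl
  have := Nat.card_le_card_of_injective g hg
  rw [Nat.card_prod, Nat.card_prod, Nat.card_eq_fintype_card (α := Bool), Fintype.card_bool] at this
  omega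

def gMat (x y z : ZMod 4) : Matrix (Fin 3) (Fin 3) (ZMod 4) := !![1, 0, x; 1, 1, y; 0, 1, z]

theorem mat_cols (A : Matrix (Fin 3) (Fin 3) (ZMod 4)) :
    A = !![(A *ᵥ ![1, 0, 0]) 0, (A *ᵥ ![0, 1, 0]) 0, (A *ᵥ ![0, 0, 1]) 0;
      (A *ᵥ ![1, 0, 0]) 1, (A *ᵥ ![0, 1, 0]) 1, (A *ᵥ ![0, 0, 1]) 1;
      (A *ᵥ ![1, 0, 0]) 2, (A *ᵥ ![0, 1, 0]) 2, (A *ᵥ ![0, 0, 1]) 2] := by
  ext i j
  fin_cases i <;> fin_cases j <;> simp [Matrix.mulVec, dotProduct, Fin.sum_univ_three]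

def gFix : Matrix (Fin 3) (Fin 3) (ZMod 4) := gMat 0 2 3

theorem gMat_unique : ∀ x y z : ZMod 4, red ![x, y, z] = e2 →
    gMat x y z * gMat x y z * (gMat x y z * gMat x y z) = 1 →
    (gMat x y z).det = 1 → x = 0 ∧ y = 2 ∧ z = 3 := by
  simp only [Matrix.det_fin_three]
  decide +kernel

theorem gFix_fixed : ∀ a b c : ZMod 4, gFix *ᵥ ![a, b, c] = ![a, b, c] →
    ∃ t : ZMod 4, ![a, b, c] = ![t, 0, 0] + (gFix * gFix) *ᵥ ![t, 0, 0] := by
  decide +kernel

theorem gFix_sq_neg : ∀ b c : ZMod 4, (gFix * gFix) *ᵥ ![0, b, c] = -![0, b, c] := by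
  decide +kernel

theorem red2_lift : ∀ x : ZMod 2, ∃ y : ZMod 4, red2 y = x := by decide

def swapFun (w : V3) : V3 := (w.2.1, w.1, w.2.2)
def shearFun (w : V3) : V3 := (w.1 + w.2.1, w.2.1, w.2.2)
def fFun (w : V3) : V3 := (w.1, w.2.1, w.2.1 + w.2.2)
def dFun (w : V3) : V3 := (w.1, w.2.1, w.1 + w.2.1 + w.2.2)

def swapAut : V3 ≃+ V3 :=
  involAut swapFun (by decide) (by decide)

def shearAut : V3 ≃+ V3 :=
  involAut shearFun (by decide) (by decide)

theorem Coord.conj_aut {M K : Subgroup Y} (C : Coord M K) (hM : M.Normal) {y e : Y} {σ g : V3 → V3}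
    (hσ : ∀ v, σ (σ v) = v) (hy : ∀ m ∈ M, C.c (y * m * y⁻¹) = σ (C.c m))
    (he : ∀ m ∈ M, C.c (e * m * e⁻¹) = g (C.c m)) :
    ∀ m ∈ M, C.c (y * e * y⁻¹ * m * (y * e * y⁻¹)⁻¹) = σ (g (σ (C.c m))) := by
  intro m hm
  have h1 : y⁻¹ * m * y ∈ M := by simpa using hM.conj_mem m hm y⁻¹
  have h2 : C.c (y⁻¹ * m * y) = σ (C.c m) := by
    have := hy _ h1
    rw [show y * (y⁻¹ * m * y) * y⁻¹ = m by group] at this
    rw [this, hσ]
  rw [show y * e * y⁻¹ * m * (y * e * y⁻¹)⁻¹ = y * (e * (y⁻¹ * m * y) * e⁻¹) * y⁻¹ by group,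
    hy _ (hM.conj_mem _ h1 e), he _ h1, h2]

set_option maxHeartbeats 1000000 in
theorem caseA_false (h : Rad π Q) {K : Subgroup Y} (D : Coord K ⊥) (hD : Natural π Q K ⊥)
    (hKQ : K ≤ Q) (hcomm : ∀ m ∈ Q, ∀ n ∈ Q, m * n = n * m) (hsq : ∀ m ∈ Q, m * m ∈ K)
    (hroot : ∀ m ∈ Q, m * m = 1 ↔ m ∈ K) (hcard : Nat.card Q = 64) (hK8 : Nat.card K = 8) : False := by
  classical
  have hQn := h.normal
  have hKn := hD.mnormal
  obtain ⟨C, hCc, hC⟩ := rootCoord h D hD hQn hKn hKQ hcomm hsq hroot (by rw [hcard, hK8])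
  obtain ⟨r, hr⟩ := C.lift h hC gAut
  obtain ⟨p, hp, hpc⟩ := C.surj e0
  set q := r * p * r⁻¹ * p⁻¹ with hqdef
  have hq : q ∈ Q := Q.mul_mem (hQn.conj_mem p hp r) (Q.inv_mem hp)
  have hqc : C.c q = e1 := by
    rw [hqdef, C.mul (hQn.conj_mem p hp r) (Q.inv_mem hp), C.inv hp, hr p hp, hpc]; decide
  set a := r * q * r⁻¹ * q⁻¹ with hadef
  have ha : a ∈ Q := Q.mul_mem (hQn.conj_mem q hq r) (Q.inv_mem hq)
  have hac : C.c a = e2 := by
    rw [hadef, C.mul (hQn.conj_mem q hq r) (Q.inv_mem hq), C.inv hq, hr q hq, hqc]; decide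
  have hK1 : ∀ k ∈ K, k * k = 1 := fun k hk => (hroot k (hKQ hk)).2 hk
  obtain ⟨F, hFp, hFq, hFa⟩ := exists_frame C D hKQ hcomm hCc hsq hK1 hcard hp hq ha hpc hqc hac
  obtain ⟨ρ, hρ⟩ := F.exists_matrix hQn
  have hρeq : ∀ {y : Y} {A : Matrix (Fin 3) (Fin 3) (ZMod 4)},
      (∀ v, y * F.Φ v * y⁻¹ = F.Φ (A *ᵥ v)) → ρ y = A := fun {y A} hA =>
    Matrix.ext_iff_mulVec.2 fun v => F.inj (by rw [← hρ, hA])
  have hρQ : ∀ m ∈ Q, ρ m = 1 := fun m hm => hρeq fun v => by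
    rw [hcomm m hm _ (F.mem v), mul_inv_cancel_right, Matrix.one_mulVec]
  -- determinant one
  have hdet : (ρ r).det = 1 := by
    have := h.kill (detUnit ρ) (fun m hm => Units.ext (by rw [detUnit_apply, hρQ m hm, Matrix.det_one]; rfl))
      (by rw [Nat.card_eq_fintype_card, ZMod.card_units_eq_totient]; decide) r
    rw [← detUnit_apply, this]; rfl
  have hr4 : r * r * (r * r) ∈ Q := C.mem_of_trivial h hC fun m hm => by
    rw [show r * r * (r * r) * m * (r * r * (r * r))⁻¹ =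
        r * (r * (r * (r * m * r⁻¹) * r⁻¹) * r⁻¹) * r⁻¹ by group,
      hr _ (hQn.conj_mem _ (hQn.conj_mem _ (hQn.conj_mem m hm r) r) r),
      hr _ (hQn.conj_mem _ (hQn.conj_mem m hm r) r), hr _ (hQn.conj_mem m hm r), hr m hm]
    generalize C.c m = v
    revert v; decide
  have hG : ρ r = gFix := by
    have hp' : ρ r *ᵥ ![1, 0, 0] = ![1, 1, 0] := F.inj (by
      rw [← hρ, hFp, show (![1, 1, 0] : Z43) = ![1, 0, 0] + ![0, 1, 0] by decide, F.add, hFp, hFq,
        hqdef, show p * (r * p * r⁻¹ * p⁻¹) = p * (r * p * r⁻¹) * p⁻¹ by group,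
        hcomm p hp _ (hQn.conj_mem p hp r), mul_inv_cancel_right])
    have hq' : ρ r *ᵥ ![0, 1, 0] = ![0, 1, 1] := F.inj (by
      rw [← hρ, hFq, show (![0, 1, 1] : Z43) = ![0, 1, 0] + ![0, 0, 1] by decide, F.add, hFq, hFa,
        hadef, show q * (r * q * r⁻¹ * q⁻¹) = q * (r * q * r⁻¹) * q⁻¹ by group,
        hcomm q hq _ (hQn.conj_mem q hq r), mul_inv_cancel_right])
    have ha' : red (ρ r *ᵥ ![0, 0, 1]) = e2 := by
      rw [← F.red, ← hρ, hFa, hr a ha, hac]; decide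
    have hcols := mat_cols (ρ r)
    rw [hp', hq'] at hcols
    change ρ r = gMat ((ρ r *ᵥ ![0, 0, 1]) 0) ((ρ r *ᵥ ![0, 0, 1]) 1) ((ρ r *ᵥ ![0, 0, 1]) 2) at hcols
    generalize hx : (ρ r *ᵥ ![0, 0, 1]) 0 = x at hcols
    generalize hy : (ρ r *ᵥ ![0, 0, 1]) 1 = y at hcols
    generalize hz : (ρ r *ᵥ ![0, 0, 1]) 2 = z at hcols
    have hred : red ![x, y, z] = e2 := by
      rw [← ha', ← hx, ← hy, ← hz]; rfl
    have h4 : gMat x y z * gMat x y z * (gMat x y z * gMat x y z) = 1 := by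
      rw [← hcols, ← map_mul, ← map_mul]; exact hρQ _ hr4
    obtain ⟨rfl, rfl, rfl⟩ := gMat_unique x y z hred h4 (by rw [← hcols]; exact hdet)
    exact hcols
  -- the involution `e`
  obtain ⟨v, hv⟩ := F.surj _ hr4
  have hvfix : gFix *ᵥ v = v := F.inj (by rw [← hG, ← hρ, hv]; group)
  have hvv : v = ![v 0, v 1, v 2] := by funext i; fin_cases i <;> rfl
  obtain ⟨t, ht⟩ := gFix_fixed (v 0) (v 1) (v 2) (by rw [← hvv]; exact hvfix)
  rw [← hvv] at ht
  set x := F.Φ ![t, 0, 0] with hxdef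
  have hx : x ∈ Q := F.mem _
  set e := r * r * x⁻¹ with hedef
  have hρe : ρ e = gFix * gFix := by
    rw [hedef, map_mul, map_mul, hG, hρQ _ (Q.inv_mem hx), mul_one]
  have he2 : e * e = 1 := by
    have hX : r * r * x⁻¹ * (r * r)⁻¹ = F.Φ ((gFix * gFix) *ᵥ (-![t, 0, 0])) := by
      rw [hxdef, ← F.neg, hρ (r * r), map_mul, hG]
    rw [hedef, show r * r * x⁻¹ * (r * r * x⁻¹) = (r * r * x⁻¹ * (r * r)⁻¹) * (r * r * (r * r)) * x⁻¹ by simp [mul_assoc],
      hX, ← hv, hxdef, ← F.neg, ← F.add, ← F.add, ← F.zero]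
    refine congrArg F.Φ ?_
    rw [ht, Matrix.mulVec_neg]; abel
  have hEc : ∀ m ∈ Q, C.c (e * m * e⁻¹) = eFun (C.c m) := by
    intro m hm
    rw [hedef, show r * r * x⁻¹ * m * (r * r * x⁻¹)⁻¹ = r * (r * (x⁻¹ * m * x) * r⁻¹) * r⁻¹ by group,
      hcomm _ (Q.inv_mem hx) m hm, inv_mul_cancel_right, hr _ (hQn.conj_mem m hm r), hr m hm, gAut_sq]
  have hEneg : ∀ m ∈ Q, (∃ b c, m = F.Φ ![0, b, c]) → e * m * e⁻¹ = m⁻¹ := by
    rintro m hm ⟨b, c, rfl⟩
    rw [hρ, hρe, gFix_sq_neg, F.neg]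
  have hnotQ : ∀ {y : Y} {g : V3 → V3}, (∀ m ∈ Q, C.c (y * m * y⁻¹) = g (C.c m)) → (∃ w, g w ≠ w) → y ∉ Q := by
    rintro y g hg ⟨w, hw⟩ hyQ
    obtain ⟨m, hm, rfl⟩ := C.surj w
    exact hw ((hg m hm).symm.trans (C.triv_c hC hyQ hm))
  obtain ⟨y, hy⟩ := C.lift h hC swapAut
  set f := y * e * y⁻¹ with hfdef
  have hFc : ∀ m ∈ Q, C.c (f * m * f⁻¹) = fFun (C.c m) := by
    intro m hm
    rw [hfdef, C.conj_aut hQn (σ := swapFun) (g := eFun) (by decide) hy hEc m hm]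
    generalize C.c m = w
    revert w; decide
  obtain ⟨y', hy'⟩ := C.lift h hC shearAut
  set d := y' * e * y'⁻¹ with hddef
  have hDc : ∀ m ∈ Q, C.c (d * m * d⁻¹) = dFun (C.c m) := by
    intro m hm
    rw [hddef, C.conj_aut hQn (σ := shearFun) (g := eFun) (by decide) hy' hEc m hm]
    generalize C.c m = w
    revert w; decide
  have hf2 : f * f = 1 := by
    rw [hfdef, show y * e * y⁻¹ * (y * e * y⁻¹) = y * (e * e) * y⁻¹ by group, he2]; group
  have hd2 : d * d = 1 := by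
    rw [hddef, show y' * e * y'⁻¹ * (y' * e * y'⁻¹) = y' * (e * e) * y'⁻¹ by group, he2]; group
  have hm0 : e * f * d ∈ Q := C.mem_of_trivial h hC fun m hm => by
    rw [show e * f * d * m * (e * f * d)⁻¹ = e * (f * (d * m * d⁻¹) * f⁻¹) * e⁻¹ by group,
      hEc _ (hQn.conj_mem _ (hQn.conj_mem m hm d) f), hFc _ (hQn.conj_mem m hm d), hDc m hm]
    generalize C.c m = w
    revert w; decide
  set m0 := e * f * d with hm0def
  obtain ⟨a0, ha0⟩ := red2_lift (C.c m0).1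
  set n := y * F.Φ ![0, a0, 0] * y⁻¹ with hndef
  have hn : n ∈ Q := hQn.conj_mem _ (F.mem _) y
  have hnc : C.c n = ((C.c m0).1, 0, 0) := by
    rw [hndef, hy _ (F.mem _), F.red]
    show swapFun (red ![0, a0, 0]) = _
    rw [← ha0]; rfl
  have hFn : f * n * f⁻¹ = n⁻¹ := by
    rw [hfdef, hndef, show y * e * y⁻¹ * (y * F.Φ ![0, a0, 0] * y⁻¹) * (y * e * y⁻¹)⁻¹ =
      y * (e * F.Φ ![0, a0, 0] * e⁻¹) * y⁻¹ by group, hEneg _ (F.mem _) ⟨a0, 0, rfl⟩]
    group
  set f1 := n * f with hf1def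
  have hf12 : f1 * f1 = 1 := by
    rw [hf1def, show n * f * (n * f) = n * (f * n * f⁻¹) * (f * f) by group, hFn, hf2, mul_inv_cancel, mul_one]
  set m1 := e * n * e⁻¹ * m0 with hm1def
  have hm1 : m1 ∈ Q := Q.mul_mem (hQn.conj_mem n hn e) hm0
  have hm1c : (C.c m1).1 = 0 := by
    rw [hm1def, C.mul (hQn.conj_mem n hn e) hm0, hEc n hn, hnc]
    show (C.c m0).1 + (C.c m0).1 = 0
    generalize (C.c m0).1 = w
    revert w; decide
  obtain ⟨b1, hb1⟩ := red2_lift (C.c m1).2.1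
  obtain ⟨c1, hc1⟩ := red2_lift (C.c m1).2.2
  set j := F.Φ ![0, b1, c1] with hjdef
  have hj : j ∈ Q := F.mem _
  have hjc : C.c j = C.c m1 := by
    rw [hjdef, F.red]
    refine Prod.ext ?_ (Prod.ext hb1 hc1)
    rw [hm1c]; simp [red, red2]
  have hjneg : e * j⁻¹ * e⁻¹ = j := by
    rw [show e * j⁻¹ * e⁻¹ = (e * j * e⁻¹)⁻¹ by group, hEneg j hj ⟨b1, c1, rfl⟩, inv_inv]
  set e1' := j⁻¹ * e with he1def
  have he12 : e1' * e1' = 1 := by
    rw [he1def, show j⁻¹ * e * (j⁻¹ * e) = j⁻¹ * (e * j⁻¹ * e⁻¹) * (e * e) by group, hjneg, he2,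
      inv_mul_cancel, one_mul]
  set m2 := j⁻¹ * m1 with hm2def
  have hm2K : m2 ∈ K := (C.eq_zero (Q.mul_mem (Q.inv_mem hj) hm1)).1 (by
    rw [C.mul (Q.inv_mem hj) hm1, C.inv hj, hjc, V3.self_add])
  have hprod : e1' * f1 = m2 * d := by
    rw [he1def, hf1def, hm2def, hm1def, hm0def]
    simp only [mul_assoc, hd2, mul_one]
    group
  -- conjugation on `K`
  have hKc : ∀ {u : Y} {g : V3 → V3}, (∀ m ∈ Q, C.c (u * m * u⁻¹) = g (C.c m)) →
      ∀ k ∈ K, D.c (u * k * u⁻¹) = g (D.c k) := by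
    intro u g hu k hk
    obtain ⟨m, hm, hmk⟩ := C.surj (D.c k)
    have hk2 : m * m = k := by
      have := (D.eq_iff (hsq m hm) hk).1 ((hCc m hm).symm.trans hmk)
      rw [Subgroup.mem_bot, inv_mul_eq_one] at this
      exact this.symm
    rw [← hk2, show u * (m * m) * u⁻¹ = (u * m * u⁻¹) * (u * m * u⁻¹) by group,
      ← hCc _ (hQn.conj_mem m hm u), hu m hm, hCc m hm]
  let N : Subgroup Y :=
    { carrier := {k | k ∈ K ∧ (D.c k).1 = 0 ∧ (D.c k).2.1 = 0}
      one_mem' := ⟨K.one_mem, by rw [D.one]; exact ⟨rfl, rfl⟩⟩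
      mul_mem' := fun {u w} hu hw => ⟨K.mul_mem hu.1 hw.1, by
        rw [D.mul hu.1 hw.1]; simp [hu.2.1, hu.2.2, hw.2.1, hw.2.2]⟩
      inv_mem' := fun {u} hu => ⟨K.inv_mem hu.1, by rw [D.inv hu.1]; exact hu.2⟩ }
  have toN : ∀ k ∈ K, ∀ v : V3, D.c k = v → v.1 = 0 → v.2.1 = 0 → k ∈ N := fun k hk v hv h1 h2 =>
    ⟨hk, by rw [hv]; exact ⟨h1, h2⟩⟩
  have he1c : ∀ m ∈ Q, e1' * m * e1'⁻¹ = e * m * e⁻¹ := by
    intro m hm
    rw [he1def, show j⁻¹ * e * m * (j⁻¹ * e)⁻¹ = j⁻¹ * (e * m * e⁻¹) * j by group,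
      hcomm _ (Q.inv_mem hj) _ (hQn.conj_mem m hm e), inv_mul_cancel_right]
  have hf1c : ∀ m ∈ Q, f1 * m * f1⁻¹ = f * m * f⁻¹ := by
    intro m hm
    rw [hf1def, show n * f * m * (n * f)⁻¹ = n * (f * m * f⁻¹) * n⁻¹ by group,
      hcomm _ hn _ (hQn.conj_mem m hm f), mul_inv_cancel_right]
  have ha2 : a * a ∈ N := toN _ (hsq a ha) e2 ((hCc a ha).symm.trans hac) rfl rfl
  have hEa : e * a * e⁻¹ = a⁻¹ := hEneg a ha ⟨0, 1, hFa.symm⟩
  -- `a * f a` lies in `N`
  have hFaN : a * (f * a * f⁻¹) ∈ N := by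
    have hk : a⁻¹ * (y * a * y⁻¹) ∈ K :=
      (C.eq_iff (hQn.conj_mem a ha y) ha).1 (by rw [hy a ha, hac]; decide)
    set k := a⁻¹ * (y * a * y⁻¹) with hkdef
    have hfy : f * (a * k) * f⁻¹ = (a * k)⁻¹ := by
      rw [hkdef, mul_inv_cancel_left, hfdef,
        show y * e * y⁻¹ * (y * a * y⁻¹) * (y * e * y⁻¹)⁻¹ = y * (e * a * e⁻¹) * y⁻¹ by group, hEa]
      group
    have hFk := hKn.conj_mem k hk f
    have e3 : a * (f * a * f⁻¹) = k * (f * k * f⁻¹) := by
      have h1 : f * a * f⁻¹ = (a * k)⁻¹ * (f * k * f⁻¹)⁻¹ := by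
        rw [← hfy]; group
      rw [h1, _root_.mul_inv_rev, inv_eq_of_mul_eq_one_right (hK1 k hk),
        inv_eq_of_mul_eq_one_right (hK1 _ hFk), hcomm k (hKQ hk) a⁻¹ (Q.inv_mem ha), mul_assoc a⁻¹,
        mul_inv_cancel_left]
    rw [e3]
    refine toN _ (K.mul_mem hk hFk) _ ((D.mul hk hFk).trans (by rw [hKc hFc k hk])) ?_ ?_
    all_goals
      generalize D.c k = w
      revert w; decide
  have hNK : ∀ k ∈ N, k ∈ Q := fun k hk => hKQ hk.1
  have hNfix : ∀ {u : Y} {g : V3 → V3}, (∀ m ∈ Q, C.c (u * m * u⁻¹) = g (C.c m)) →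
      (∀ w : V3, w.1 = 0 → w.2.1 = 0 → (g w).1 = 0 ∧ (g w).2.1 = 0) → ∀ k ∈ N, u * k * u⁻¹ ∈ N := by
    intro u g hu hg k hk
    exact toN _ (hKn.conj_mem k hk.1 u) _ (hKc hu k hk.1) (hg _ hk.2.1 hk.2.2).1 (hg _ hk.2.1 hk.2.2).2
  have hE1c : ∀ m ∈ Q, C.c (e1' * m * e1'⁻¹) = eFun (C.c m) := fun m hm => by rw [he1c m hm, hEc m hm]
  have hF1c : ∀ m ∈ Q, C.c (f1 * m * f1⁻¹) = fFun (C.c m) := fun m hm => by rw [hf1c m hm, hFc m hm]
  have hef : (e1' * f1) * (e1' * f1) ∈ N := by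
    rw [hprod, show m2 * d * (m2 * d) = m2 * (d * m2 * d⁻¹) * (d * d) by group, hd2, mul_one]
    refine toN _ (K.mul_mem hm2K (hKn.conj_mem _ hm2K d)) _
      ((D.mul hm2K (hKn.conj_mem _ hm2K d)).trans (by rw [hKc hDc _ hm2K])) ?_ ?_
    all_goals
      generalize D.c m2 = w
      revert w; decide
  have hke : ∀ {u : Y} {g : V3 → V3}, (∀ m ∈ Q, C.c (u * m * u⁻¹) = g (C.c m)) → u * u = 1 →
      (∀ w : V3, (w + g w).1 = 0 ∧ (w + g w).2.1 = 0) → ∀ k ∈ K, k * u * (k * u) ∈ N ∧ u * k * (u * k) ∈ N := by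
    intro u g hu hu2 hg k hk
    have hui : u⁻¹ = u := inv_eq_of_mul_eq_one_right hu2
    have hk' := hKn.conj_mem k hk u
    have hN1 : k * (u * k * u⁻¹) ∈ N :=
      toN _ (K.mul_mem hk hk') _ ((D.mul hk hk').trans (by rw [hKc hu k hk])) (hg _).1 (hg _).2
    constructor
    · rw [show k * u * (k * u) = k * (u * k * u⁻¹) * (u * u) by group, hu2, mul_one]; exact hN1
    · rw [show u * k * (u * k) = (u * k * u⁻¹) * (u * u) * k by group, hu2, mul_one,
        hcomm _ (hKQ hk') k (hKQ hk)]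
      exact hN1
  have hKK : ∀ k ∈ K, ∀ l ∈ K, k * l * (k * l) ∈ N := fun k hk l hl => by
    rw [hK1 _ (K.mul_mem hk hl)]; exact N.one_mem
  have hKa : ∀ k ∈ K, k * a * (k * a) ∈ N := fun k hk => by
    rw [show k * a * (k * a) = k * (a * k) * a by group, hcomm a ha k (hKQ hk),
      show k * (k * a) * a = (k * k) * (a * a) by group, hK1 k hk, one_mul]
    exact ha2
  have kE := @hke e1' eFun hE1c he12 (by decide)
  have kF := @hke f1 fFun hF1c hf12 (by decide)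
  have aE : a * e1' * (a * e1') ∈ N ∧ e1' * a * (e1' * a) ∈ N := by
    have h1 : e1' * a * e1'⁻¹ = a⁻¹ := by rw [he1c a ha, hEa]
    constructor
    · rw [show a * e1' * (a * e1') = a * (e1' * a * e1'⁻¹) * (e1' * e1') by group, h1, he12,
        mul_inv_cancel, mul_one]; exact N.one_mem
    · rw [show e1' * a * (e1' * a) = (e1' * a * e1'⁻¹) * (e1' * e1') * a by group, h1, he12,
        mul_one, inv_mul_cancel]; exact N.one_mem
  have aF : a * f1 * (a * f1) ∈ N ∧ f1 * a * (f1 * a) ∈ N := by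
    constructor
    · rw [show a * f1 * (a * f1) = a * (f1 * a * f1⁻¹) * (f1 * f1) by group, hf1c a ha, hf12, mul_one]
      exact hFaN
    · rw [show f1 * a * (f1 * a) = (f1 * a * f1⁻¹) * (f1 * f1) * a by group, hf1c a ha, hf12, mul_one,
        hcomm _ (hQn.conj_mem a ha f) a ha]
      exact hFaN
  let S : Set Y := (K : Set Y) ∪ {a, e1', f1}
  have he1Q : e1' ∉ Q := hnotQ hE1c ⟨e0, by decide⟩
  have hf1Q : f1 ∉ Q := hnotQ hF1c ⟨e1, by decide⟩
  have hefQ : e1' * f1 ∉ Q := hnotQ (g := dFun) (fun m hm => by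
    rw [show e1' * f1 * m * (e1' * f1)⁻¹ = e1' * (f1 * m * f1⁻¹) * e1'⁻¹ by group,
      hE1c _ (hQn.conj_mem m hm f1), hF1c m hm]
    generalize C.c m = w
    revert w; decide) ⟨e0, by decide⟩
  refine h.five S N (fun k hk => Subgroup.subset_closure (Or.inl hk.1)) ?_ ?_ ?_ ?_
  · rintro s (hs | rfl | rfl | rfl) k hk
    · rw [hcomm s (hKQ hs) k (hNK k hk), mul_inv_cancel_right]; exact hk
    · rw [hcomm a ha k (hNK k hk), mul_inv_cancel_right]; exact hk
    · exact hNfix hE1c (by decide) k hk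
    · exact hNfix hF1c (by decide) k hk
  · rintro s (hs | rfl | rfl | rfl)
    · rw [hK1 s hs]; exact N.one_mem
    · exact ha2
    · rw [he12]; exact N.one_mem
    · rw [hf12]; exact N.one_mem
  · rintro s (hs | rfl | rfl | rfl) u (hu | rfl | rfl | rfl)
    · exact hKK s hs u hu
    · exact hKa s hs
    · exact (kE s hs).1
    · exact (kF s hs).1
    · rw [hcomm a ha u (hKQ hu)]; exact hKa u hu
    · rw [show a * a * (a * a) = (a * a) * (a * a) from rfl]; exact N.mul_mem ha2 ha2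
    · exact aE.1
    · exact aF.1
    · exact (kE u hu).2
    · exact aE.2
    · rw [he12, one_mul]; exact N.one_mem
    · exact hef
    · exact (kF u hu).2
    · exact aF.2
    · have h1 : f1 * e1' * (f1 * e1') = f1 * (e1' * f1 * (e1' * f1)) * f1⁻¹ := by group
      rw [h1]
      exact hNfix hF1c (by decide) _ hef
    · rw [hf12, one_mul]; exact N.one_mem
  · have hN2 : Nat.card N ≤ 2 := by
      refine le_trans (Nat.card_le_card_of_injective
        (fun w : N => (⟨D.c w, w.2.2⟩ : {v : V3 // v.1 = 0 ∧ v.2.1 = 0})) ?_) ?_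
      · intro u w huw
        have := (D.eq_iff u.2.1 w.2.1).1 (congrArg Subtype.val huw)
        rw [Subgroup.mem_bot, inv_mul_eq_one] at this
        exact Subtype.ext this.symm
      · rw [Nat.card_eq_fintype_card]; decide
    let H := Subgroup.closure S
    have hA : 16 ≤ Nat.card ↥(H ⊓ Q) := by
      let g : K × Bool → ↥(H ⊓ Q) := fun x => ⟨x.1 * (if x.2 then a else 1), by
        refine ⟨H.mul_mem (Subgroup.subset_closure (Or.inl x.1.2)) ?_, Q.mul_mem (hKQ x.1.2) ?_⟩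
        · split_ifs
          · exact Subgroup.subset_closure (Or.inr (Or.inl rfl))
          · exact H.one_mem
        · split_ifs
          · exact ha
          · exact Q.one_mem⟩
      have haK : a ∉ K := fun hk => absurd (hac.symm.trans ((C.eq_zero ha).2 hk)) (by decide)
      have hg : Function.Injective g := by
        rintro ⟨k, i⟩ ⟨l, i'⟩ hkl
        have hkl' : (k : Y) * (if i then a else 1) = l * (if i' then a else 1) := congrArg Subtype.val hkl
        cases i <;> cases i' <;> simp only [Bool.false_eq_true, if_false, if_true, mul_one] at hkl'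
        · rw [Subtype.ext hkl']
        · exact absurd ((K.mul_mem_cancel_left l.2).1 (hkl' ▸ k.2)) haK
        · exact absurd ((K.mul_mem_cancel_left k.2).1 (hkl'.symm ▸ l.2)) haK
        · rw [Subtype.ext (mul_right_cancel hkl')]
      have := Nat.card_le_card_of_injective g hg
      rw [Nat.card_prod, hK8, Nat.card_eq_fintype_card, Fintype.card_bool] at this
      omega
    have := h.four_mul (H := H) (Subgroup.subset_closure (Or.inr (Or.inr (Or.inl rfl))))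
      (Subgroup.subset_closure (Or.inr (Or.inr (Or.inr rfl)))) he1Q hf1Q hefQ (by rw [he12]; exact Q.one_mem)
      (by rw [hf12]; exact Q.one_mem) (A := H ⊓ Q) inf_le_left inf_le_right
    show 16 * Nat.card N < Nat.card H
    omega

end Cfsg.Agent.RadLThree
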