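import Cfsg.Agent.RadLThreeTwo.Step

/-!
# The case analysis on the quotient by a minimal module
-/

set_option autoImplicit false
set_option linter.all false

namespace Cfsg.Agent.RadLThree

open Cfsg Cfsg.Agent

universe u v w

variable {Y : Type u} [Group Y] [Finite Y] {L : Type v} [Group L] {π : Y →* L} {Q : Subgroup Y}

/-- The type `(4,2,2,2)`. -/
def Shape (Q : Subgroup Y) : Prop :=
  Nat.card Q = 32 ∧ (∀ a ∈ Q, ∀ b ∈ Q, a * b = b * a) ∧
    ∃ M : Subgroup Y, M.Normal ∧ M ≤ Q ∧ Nat.card M = 16 ∧ (∀ m ∈ M, m * m = 1) ∧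
      ∃ z ∈ Q, z ∉ M ∧ z * z ∈ M ∧ z * z ≠ 1

/-- The two possibilities for the radical. -/
def Outcome (Q : Subgroup Y) : Prop :=
  ((∀ q ∈ Q, q * q = 1) ∧ (Nat.card Q = 8 ∨ Nat.card Q = 16)) ∨ Shape Q

/-- All smaller radicals have order at most 32. -/
def Bound (L : Type v) [Group L] (n : ℕ) : Prop :=
  ∀ (Y' : Type u) [Group Y'] [Finite Y'] (π' : Y' →* L) (Q' : Subgroup Y'),
    Rad π' Q' → Nat.card Q' < n → Nat.card Q' ≤ 32

theorem Rad.outcome_of_elem (h : Rad π Q) (hel : ∀ q ∈ Q, q * q = 1) : Outcome Q :=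
  Or.inl ⟨hel, h.elem_card hel⟩

theorem Rad.no_fixed (h : Rad π Q) (hb : Bound.{u} L (Nat.card Q)) (hbig : 128 ≤ Nat.card Q) {t : Y}
    (ht : t ∈ Q) (ht2 : t * t = 1) (ht1 : t ≠ 1) : ∃ y, y * t * y⁻¹ ≠ t := by
  by_contra hcon
  push Not at hcon
  let N := Subgroup.zpowers t
  have hle : N ≤ Q := Subgroup.zpowers_le.2 ht
  have hc : ∀ n ∈ N, ∀ y : Y, y * n = n * y := by
    rintro _ ⟨i, rfl⟩ y
    have h1 : Commute y t := by
      show y * t = t * y
      conv_rhs => rw [← hcon y]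
      group
    exact (h1.zpow_right i).eq
  haveI : N.Normal := ⟨fun n hn y => by rw [hc n hn y, mul_inv_cancel_right]; exact hn⟩
  have hc' := card_map_mk hle
  have hN : Nat.card N = 2 := by
    rw [Nat.card_zpowers]; exact orderOf_eq_prime (by rw [sq]; exact ht2) ht1
  rw [hN] at hc'
  have := hb _ _ _ (h.quot N hle (Or.inr hc)) (by omega)
  omega

/-- The abelian group of order 128 with squares in a natural module. -/
theorem abelian_false (h : Rad π Q) (hb : Bound.{u} L (Nat.card Q)) {K : Subgroup Y} (D : Coord K ⊥)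
    (hD : Natural π Q K ⊥) (hKQ : K ≤ Q) (hK1 : ∀ k ∈ K, k * k = 1) (hK8 : Nat.card K = 8)
    (hcomm : ∀ a ∈ Q, ∀ b ∈ Q, a * b = b * a) (hsq : ∀ q ∈ Q, q * q ∈ K)
    (hsurj : ∀ k ∈ K, ∃ q ∈ Q, q * q = k) (hcard : Nat.card Q = 128) : False := by
  haveI := h.normal
  let ψ : Q →* K := MonoidHom.mk' (fun m => ⟨m * m, hsq m m.2⟩) fun a b => Subtype.ext (by
    show (a * b : Y) * (a * b) = a * a * (b * b)
    calc (a : Y) * b * (a * b) = a * (b * a) * b := by group
      _ = a * a * (b * b) := by rw [hcomm b b.2 a a.2]; group)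
  let R : Subgroup Y :=
    { carrier := {q | q ∈ Q ∧ q * q = 1}
      one_mem' := ⟨Q.one_mem, one_mul 1⟩
      mul_mem' := by
        rintro a b ⟨ha, ha1⟩ ⟨hb, hb1⟩
        refine ⟨Q.mul_mem ha hb, ?_⟩
        rw [show a * b * (a * b) = a * (b * a) * b by group, hcomm b hb a ha,
          show a * (a * b) * b = a * a * (b * b) by group, ha1, hb1, one_mul]
      inv_mem' := by
        rintro a ⟨ha, ha1⟩
        exact ⟨Q.inv_mem ha, by rw [← mul_inv_rev, ha1, inv_one]⟩ }
  have hR : R ≤ Q := fun r hr => hr.1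
  have hRn : R.Normal := ⟨fun r hr y => ⟨h.normal.conj_mem r hr.1 y, by
    rw [show y * r * y⁻¹ * (y * r * y⁻¹) = y * (r * r) * y⁻¹ by group, hr.2, mul_one, mul_inv_cancel]⟩⟩
  have hker : ψ.ker = R.subgroupOf Q := by
    ext m
    rw [MonoidHom.mem_ker, Subgroup.mem_subgroupOf]
    constructor
    · intro h1; exact ⟨m.2, congrArg Subtype.val h1⟩
    · intro h1; exact Subtype.ext h1.2
  have hsur : Function.Surjective ψ := fun k => by
    obtain ⟨q, hq, hk⟩ := hsurj k k.2
    exact ⟨⟨q, hq⟩, Subtype.ext hk⟩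
  have hR16 : Nat.card R = 16 := by
    have := ψ.ker.card_mul_index
    rw [Subgroup.index_ker, hker, Nat.card_congr (Subgroup.subgroupOfEquivOfLe hR).toEquiv,
      MonoidHom.range_eq_top.2 hsur, Subgroup.card_top, hK8, hcard] at this
    omega
  exact homocyclic_false h D hD h.normal hRn (fun k hk => ⟨hKQ hk, hK1 k hk⟩) hR le_rfl hcomm hsq
    (fun m hm => ⟨fun h1 => ⟨hm, h1⟩, fun h1 => h1.2⟩) hR16 hcard
    (fun q hq r hr => by rw [hcomm q hq r hr.1, mul_inv_cancel_right]) (fun q hq hn => absurd hq hn)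
    (fun t ht htK => h.no_fixed hb (by omega) ht.1 ht.2 fun h1 => htK (h1 ▸ K.one_mem))

/-- An element inverting a homocyclic maximal subgroup is impossible. -/
theorem inversion_false (h : Rad π Q) {M K : Subgroup Y} (D : Coord K ⊥) (hD : Natural π Q K ⊥)
    (hMn : M.Normal) (hKM : K ≤ M) (hMQ : M ≤ Q) (hK8 : Nat.card K = 8)
    (hcard : Nat.card M = 64) (hcomm : ∀ m ∈ M, ∀ n ∈ M, m * n = n * m) (hsq : ∀ m ∈ M, m * m ∈ K)
    (hroot : ∀ m ∈ M, m * m = 1 ↔ m ∈ K) {z : Y} (hz : z ∈ Q) (hzM : z ∉ M)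
    (hind : ∀ q ∈ Q, q ∈ M ∨ z⁻¹ * q ∈ M) (hinv : ∀ m ∈ M, z * m * z⁻¹ = m⁻¹) : False := by
  classical
  have hKn := hD.mnormal
  obtain ⟨C, hCc, hC⟩ := rootCoord h D hD hMn hKn hKM hcomm hsq hroot (by rw [hcard, hK8])
  obtain ⟨p, hp, hpc⟩ := C.surj e0
  obtain ⟨q, hq, hqc⟩ := C.surj e1
  obtain ⟨a, ha, hac⟩ := C.surj e2
  have hK1 : ∀ k ∈ K, k * k = 1 := fun k hk => (hroot k (hKM hk)).2 hk
  obtain ⟨F, -, -, -⟩ := exists_frame C D hKM hcomm hCc hsq hK1 hcard hp hq ha hpc hqc hac
  obtain ⟨ρ, hρ⟩ := F.exists_matrix hMn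
  have hρM : ∀ m ∈ M, ρ m = 1 := fun m hm => Matrix.ext_iff_mulVec.2 fun v => F.inj (by
    rw [← hρ, hcomm m hm _ (F.mem v), mul_inv_cancel_right, Matrix.one_mulVec])
  let Y0 := (detUnit ρ).ker
  have hMY : M ≤ Y0 := fun m hm => Units.ext (by rw [detUnit_apply, hρM m hm, Matrix.det_one]; rfl)
  have hzdet : detUnit ρ z = -1 := Units.ext (by
    rw [detUnit_apply, det_inversion F hρ hinv, Units.val_neg, Units.val_one])
  have hzY : z ∉ Y0 := fun hh => by
    have : (-1 : (ZMod 4)ˣ) = 1 := hzdet.symm.trans hh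
    revert this; decide
  have hu : ∀ x : (ZMod 4)ˣ, x = 1 ∨ x = -1 := by decide
  have hπY : ∀ l, ∃ y ∈ Y0, π y = l := by
    intro l
    obtain ⟨y, rfl⟩ := h.surj l
    rcases hu (detUnit ρ y) with h1 | h1
    · exact ⟨y, h1, rfl⟩
    · refine ⟨y * z, ?_, by rw [map_mul, h.mem_iff.1 hz, mul_one]⟩
      show detUnit ρ (y * z) = 1
      rw [map_mul, h1, hzdet, neg_mul_neg, one_mul]
  have hQY : ∀ x, x ∈ Q → x ∈ Y0 → x ∈ M := by
    intro x hx hxY
    refine (hind x hx).resolve_right fun hh => hzY ?_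
    have := Y0.mul_mem hxY (Y0.inv_mem (hMY hh))
    simpa using this
  have hact : ∀ s ∈ Y0, s ^ 7 = 1 → (∀ q ∈ Q ⊓ Y0, s * q = q * s) → s = 1 := by
    intro s _ hs7 hc
    have hcM : ∀ m ∈ M, s * m = m * s := fun m hm => hc m ⟨hMQ hm, hMY hm⟩
    refine h.act s hs7 fun x hx => ?_
    have hsz : s * z = z * s := by
      have hszQ := h.normal.conj_mem z hz s
      have hn : z⁻¹ * (s * z * s⁻¹) ∈ M := by
        refine (hind _ hszQ).resolve_left fun hh => hzM ?_
        have := hMn.conj_mem _ hh s⁻¹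
        simpa [mul_assoc] using this
      exact h.seven_fix hs7 (hMQ hn) (hcM _ hn)
    rcases hind x hx with hh | hh
    · exact hcM x hh
    · have e : x = z * (z⁻¹ * x) := (mul_inv_cancel_left z x).symm
      rw [e, ← mul_assoc, hsz, mul_assoc, hcM _ hh, ← mul_assoc]
  have h0 := h.sub Y0 hπY hact
  have hKY : K ≤ Y0 := hKM.trans hMY
  let D' : Coord (K.subgroupOf Y0) ⊥ :=
    { c := fun x => D.c x
      mul := fun {m n} hm hn => D.mul hm hn
      eq_zero := fun {m} hm => (D.eq_zero hm).trans (by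
        rw [Subgroup.mem_bot, Subgroup.mem_bot]
        exact ⟨fun h1 => Subtype.ext h1, fun h1 => congrArg Subtype.val h1⟩)
      surj := fun v => by
        obtain ⟨k, hk, hkv⟩ := D.surj v
        exact ⟨⟨k, hKY hk⟩, hk, hkv⟩ }
  have hQ0 : Q.subgroupOf Y0 = M.subgroupOf Y0 := by
    ext x
    exact ⟨fun hx => hQY x hx x.2, fun hx => hMQ hx⟩
  have hD' : Natural (π.comp Y0.subtype) (Q.subgroupOf Y0) (K.subgroupOf Y0) ⊥ := by
    refine ⟨hKn.subgroupOf Y0, inferInstance, fun x hx m hm => ?_, ?_⟩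
    · rw [Subgroup.mem_bot]
      exact Subtype.ext (Subgroup.mem_bot.1 (hD.triv x hx m hm))
    · obtain ⟨y, k, hk, hy⟩ := hD.moves
      obtain ⟨y', hy', hπ⟩ := hπY (π y)
      refine ⟨⟨y', hy'⟩, ⟨k, hKY hk⟩, hk, fun hh => hy ?_⟩
      have hh' : k⁻¹ * (y' * k * y'⁻¹) = 1 := congrArg Subtype.val (Subgroup.mem_bot.1 hh)
      have hyq : y'⁻¹ * y ∈ Q := h.mem_iff.2 (by rw [map_mul, map_inv, hπ, inv_mul_cancel])
      have ht : (y'⁻¹ * y) * k * (y'⁻¹ * y)⁻¹ = k :=
        (inv_mul_eq_one.1 (Subgroup.mem_bot.1 (hD.triv _ hyq k hk))).symm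
      rw [Subgroup.mem_bot, show y * k * y⁻¹ = y' * ((y'⁻¹ * y) * k * (y'⁻¹ * y)⁻¹) * y'⁻¹ by group, ht]
      exact hh'
  refine caseA_false h0 D' hD' (fun x hx => hMQ (hKM hx)) ?_ ?_ ?_ ?_ ?_
  · intro m hm n hn
    exact Subtype.ext (hcomm m (hQY m hm m.2) n (hQY n hn n.2))
  · intro m hm
    exact hsq m (hQY m hm m.2)
  · intro m hm
    exact ⟨fun h1 => (hroot m (hQY m hm m.2)).1 (congrArg Subtype.val h1),
      fun h1 => Subtype.ext ((hroot m (hQY m hm m.2)).2 h1)⟩
  · rw [hQ0, Nat.card_congr (Subgroup.subgroupOfEquivOfLe hMY).toEquiv, hcard]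
  · rw [Nat.card_congr (Subgroup.subgroupOfEquivOfLe hKY).toEquiv, hK8]

/-- The quotient by the module is elementary of order 8. -/
theorem case_eight (h : Rad π Q) {K : Subgroup Y} [K.Normal] (hKΦ : K ≤ (frattini ↥Q).map Q.subtype)
    (hKQ : K ≤ Q) (hKc : ∀ k ∈ K, ∀ q ∈ Q, k * q = q * k) (hK1 : ∀ k ∈ K, k * k = 1)
    (halt : (Nat.card K = 2 ∧ ∀ k ∈ K, ∀ y, y * k = k * y) ∨
      (Nat.card K = 8 ∧ ∃ D : Coord K ⊥, Natural π Q K ⊥))
    (hsq : ∀ q ∈ Q, q * q ∈ K) (hcard : Nat.card Q = 8 * Nat.card K) : Outcome Q := by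
  obtain ⟨C⟩ := exists_coord (M := Q) (K := K) inferInstance hKQ hsq hcard
  have hC : Natural π Q Q K := by
    refine ⟨h.normal, inferInstance, fun q hq m hm => ?_, ?_⟩
    · have h1 := hsq _ (Q.mul_mem (Q.inv_mem hm) hq)
      have h2 := hsq _ hm
      have h3 := hsq _ hq
      rw [show m⁻¹ * (q * m * q⁻¹) = (m⁻¹ * q * (m⁻¹ * q)) * (q⁻¹ * (m * m) * q) * (q * q)⁻¹ by group]
      exact K.mul_mem (K.mul_mem h1 (by simpa using (inferInstance : K.Normal).conj_mem _ h2 q⁻¹))
        (K.inv_mem h3)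
    · obtain ⟨s, hs, hne⟩ := h.seven_ne
      by_contra hcon
      push Not at hcon
      exact hne (h.act_mod K hKQ (Or.inl hKΦ) hs fun q hq => hcon s q hq)
  rcases halt with ⟨-, hcen⟩ | ⟨hK8, D, hD⟩
  · exact h.outcome_of_elem (squares_const h C hKQ hK1 hcen hsq
      fun u hu v hv huR hvR => C.trans_mem h hC hu hv huR hvR)
  · rcases squares h C hC D hD hKQ hK1 hKc hsq with h0 | ⟨hab, hroot, -⟩
    · have := h.card_le Q h0
      omega
    · exact (caseA_false h D hD hKQ hab hsq (fun m hm => ⟨hroot m hm, fun hk => hK1 m hk⟩)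
        (by omega) hK8).elim

/-- The quotient by the module is elementary of order 16. -/
theorem case_sixteen (h : Rad π Q) (hb : Bound.{u} L (Nat.card Q)) {K : Subgroup Y} [K.Normal]
    (hKQ : K ≤ Q) (hKc : ∀ k ∈ K, ∀ q ∈ Q, k * q = q * k) (hK1 : ∀ k ∈ K, k * k = 1)
    (halt : (Nat.card K = 2 ∧ ∀ k ∈ K, ∀ y, y * k = k * y) ∨
      (Nat.card K = 8 ∧ ∃ D : Coord K ⊥, Natural π Q K ⊥))
    (h' : Rad (QuotientGroup.lift K π (h.le_ker hKQ)) (Q.map (QuotientGroup.mk' K)))
    (hel : ∀ q ∈ Q.map (QuotientGroup.mk' K), q * q = 1)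
    (h16 : Nat.card (Q.map (QuotientGroup.mk' K)) = 16) : Outcome Q := by
  classical
  set p := QuotientGroup.mk' K with hpdef
  have hcard : Nat.card Q = 16 * Nat.card K := by rw [← card_map_mk hKQ, h16]
  have hsq : ∀ q ∈ Q, q * q ∈ K := fun q hq => mk_eq_one.1 (by
    rw [map_mul]; exact hel _ ⟨q, hq, rfl⟩)
  have hab := comm_of_sq hel
  have htriv : ∀ q ∈ Q, ∀ m ∈ Q, m⁻¹ * (q * m * q⁻¹) ∈ K := fun q hq m hm => mk_eq_mk.1 (by
    rw [map_mul, map_mul, map_inv, hab _ ⟨q, hq, rfl⟩ _ ⟨m, hm, rfl⟩, mul_inv_cancel_right])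
  haveI := h'.normal
  have hmv : ∃ y, ∃ m ∈ Q.map p, y * m * y⁻¹ ≠ m := h'.moved
  rcases sixteen h' (Q.map p) hel h16 (fun q hq m hm => by rw [hab q hq m hm, mul_inv_cancel_right]) hmv with
    ⟨S, hSn, hSQ, hS8, ys, ms, hms, hne⟩ | ⟨zb, hzb, hzb1, hzfix, htr⟩
  · set M := S.comap p with hMdef
    obtain ⟨hKM, hMQ, hMc⟩ := preimage_facts hKQ hSQ
    rw [hS8] at hMc
    change Nat.card M = _ at hMc
    have hMn : M.Normal := hSn.comap p
    obtain ⟨C⟩ := exists_coord (M := M) (K := K) inferInstance hKM (fun m hm => hsq m (hMQ hm)) hMc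
    have hC : Natural π Q M K := by
      refine ⟨hMn, inferInstance, fun q hq m hm => htriv q hq m (hMQ hm), ?_⟩
      obtain ⟨y, rfl⟩ := QuotientGroup.mk'_surjective K ys
      obtain ⟨m, rfl⟩ := QuotientGroup.mk'_surjective K ms
      exact ⟨y, m, hms, fun hh => hne (by rw [← map_inv, ← map_mul, ← map_mul]; exact (mk_eq_mk.2 hh).symm)⟩
    have hidx : (M.subgroupOf Q).index = 2 := by
      have h1 := (M.subgroupOf Q).card_mul_index
      rw [Nat.card_congr (Subgroup.subgroupOfEquivOfLe hMQ).toEquiv] at h1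
      have h2 : 0 < Nat.card K := Nat.card_pos
      change Nat.card M * _ = _ at h1
      rw [hMc, hcard] at h1
      have h3 : 8 * Nat.card K * (M.subgroupOf Q).index = 8 * Nat.card K * 2 := by rw [h1]; ring
      exact Nat.eq_of_mul_eq_mul_left (by omega) h3
    obtain ⟨z, hz, hzM⟩ : ∃ z ∈ Q, z ∉ M := by
      by_contra hcon
      push Not at hcon
      have h2 := Subgroup.card_le_of_le (show Q ≤ M from hcon)
      have h3 : 0 < Nat.card K := Nat.card_pos
      omega
    have hind : ∀ q ∈ Q, q ∈ M ∨ z⁻¹ * q ∈ M := by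
      intro q hq
      by_cases hqM : q ∈ M
      · exact Or.inl hqM
      · refine Or.inr ?_
        exact (Subgroup.mul_mem_iff_of_index_two hidx (a := (⟨z⁻¹, Q.inv_mem hz⟩ : Q)) (b := ⟨q, hq⟩)).2
          ⟨fun hh => absurd (show z ∈ M by simpa using M.inv_mem (show z⁻¹ ∈ M from hh)) hzM,
            fun hh => absurd hh hqM⟩
    have hdz : ∀ y, z⁻¹ * (y * z * y⁻¹) ∈ M := fun y =>
      (hind _ (h.normal.conj_mem z hz y)).resolve_left fun hh => hzM (by
        have := hMn.conj_mem _ hh y⁻¹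
        simpa [mul_assoc] using this)
    rcases halt with ⟨hK2, hcen⟩ | ⟨hK8, D, hD⟩
    · have hM1 := squares_const h C hKM hK1 hcen (fun m hm => hsq m (hMQ hm))
        fun u hu v hv huR hvR => C.trans_mem h hC hu hv huR hvR
      have hMab := comm_of_sq hM1
      have hzc := commute_of_const h C hC hK1 hcen hz fun y m hm => hMab _ (hdz y) m hm
      have hQab : ∀ a ∈ Q, ∀ b ∈ Q, a * b = b * a := by
        have hle : Q ≤ Subgroup.centralizer ({z} ∪ (M : Set Y)) := by
          intro q hq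
          rw [Subgroup.mem_centralizer_iff]
          rintro g (rfl | hg) <;> rcases hind q hq with hh | hh
          · exact hzc q hh
          · calc g * q = g * (g * (g⁻¹ * q)) := by group
              _ = g * ((g⁻¹ * q) * g) := by rw [hzc _ hh]
              _ = q * g := by group
          · exact hMab g hg q hh
          · have e1 := hMab g hg _ hh
            have e2 := hzc g hg
            calc g * q = g * z * (z⁻¹ * q) := by group
              _ = z * (g * (z⁻¹ * q)) := by rw [← e2]; group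
              _ = q * g := by rw [e1]; group
        intro a ha b hb
        rcases hind a ha with hh | hh
        · exact (Subgroup.mem_centralizer_iff.1 (hle hb) a (Or.inr hh))
        · have e1 := Subgroup.mem_centralizer_iff.1 (hle hb) z (Or.inl rfl)
          have e2 := Subgroup.mem_centralizer_iff.1 (hle hb) _ (Or.inr hh)
          calc a * b = z * ((z⁻¹ * a) * b) := by group
            _ = z * b * (z⁻¹ * a) := by rw [e2]; group
            _ = b * a := by rw [e1]; group
      have hz2 : z * z ≠ 1 := by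
        intro h1
        have hall : ∀ q ∈ Q, q * q = 1 := by
          intro q hq
          rcases hind q hq with hh | hh
          · exact hM1 q hh
          · have e := hQab _ (hMQ hh) z hz
            calc q * q = z * (z⁻¹ * q * z) * (z⁻¹ * q) := by group
              _ = (z * z) * ((z⁻¹ * q) * (z⁻¹ * q)) := by rw [e]; group
              _ = 1 := by rw [h1, hM1 _ hh, one_mul]
        have := h.card_le Q hall
        omega
      exact Or.inr ⟨by omega, hQab, M, hMn, hMQ, by rw [hMc, hK2], hM1, z, hz, hzM,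
        hKM (hsq z hz), hz2⟩
    · have hKcM : ∀ k ∈ K, ∀ m ∈ M, k * m = m * k := fun k hk m hm => hKc k hk m (hMQ hm)
      rcases squares h C hC D hD hKM hK1 hKcM (fun m hm => hsq m (hMQ hm)) with h0 | ⟨hMab, hroot, hsurj⟩
      · have := h.card_le M h0
        rw [hMc] at this
        omega
      · have hsqM : ∀ m ∈ M, m * m ∈ K := fun m hm => hsq m (hMQ hm)
        have hroot' : ∀ m ∈ M, m * m = 1 ↔ m ∈ K := fun m hm => ⟨hroot m hm, hK1 m⟩
        obtain ⟨C', hC'c, hC'⟩ := rootCoord h D hD hMn hD.mnormal hKM hMab hsqM hroot' hMc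
        let β : Y → Y := fun m => m⁻¹ * (z * m * z⁻¹)
        have hβK : ∀ m ∈ M, β m ∈ K := fun m hm => htriv z hz m (hMQ hm)
        have hmul : ∀ {m n : Y}, m ∈ M → n ∈ M → β (m * n) = β m * β n := by
          intro m n hm hn
          calc β (m * n) = n⁻¹ * β m * (z * n * z⁻¹) := by simp only [β]; group
            _ = β m * n⁻¹ * (z * n * z⁻¹) := by rw [hKcM _ (hβK m hm) _ (M.inv_mem hn)]
            _ = β m * β n := by simp only [β]; group
        have hconj : ∀ y, ∀ m ∈ M, β (y * m * y⁻¹) = y * β m * y⁻¹ := by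
          intro y m hm
          set c := z⁻¹ * (y⁻¹ * z * y) with hcdef
          have hc : c * m = m * c := hMab c (by simpa using hdz y⁻¹) m hm
          have hq' : y⁻¹ * z * y = z * c := by rw [hcdef]; group
          calc β (y * m * y⁻¹) = y * (m⁻¹ * ((y⁻¹ * z * y) * m * (y⁻¹ * z * y)⁻¹)) * y⁻¹ := by
                simp only [β]; group
            _ = y * β m * y⁻¹ := by
                rw [hq', show z * c * m * (z * c)⁻¹ = z * (c * m * c⁻¹) * z⁻¹ by group, hc,
                  mul_inv_cancel_right]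
        have hβ0 : ∀ m ∈ K, β m = 1 := fun m hk => by
          show m⁻¹ * (z * m * z⁻¹) = 1
          rw [← hKc m hk z hz, mul_inv_cancel_right, inv_mul_cancel]
        let g : V3 → V3 := fun v => D.c (β (C'.sec v))
        have hg : ∀ {m : Y}, m ∈ M → g (C'.c m) = D.c (β m) := by
          intro m hm
          have hk := (C'.eq_iff hm (C'.sec_mem (C'.c m))).1 (C'.c_sec _).symm
          have := hmul (C'.sec_mem (C'.c m)) (M.mul_mem (M.inv_mem (C'.sec_mem (C'.c m))) hm)
          rw [mul_inv_cancel_left, hβ0 _ hk, mul_one] at this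
          show D.c _ = _
          rw [this]
        have hadd : ∀ a b, g (a + b) = g a + g b := by
          intro a b
          obtain ⟨m, hm, rfl⟩ := C'.surj a
          obtain ⟨n, hn, rfl⟩ := C'.surj b
          rw [← C'.mul hm hn, hg (M.mul_mem hm hn), hg hm, hg hn, hmul hm hn, D.mul (hβK m hm) (hβK n hn)]
        have heq : ∀ y v, g (C'.perm hC'.mnormal hC'.knormal y v) = C'.perm hC'.mnormal hC'.knormal y (g v) := by
          intro y v
          obtain ⟨m, hm, rfl⟩ := C'.surj v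
          rw [C'.perm_c _ _ y hm, hg (hC'.mnormal.conj_mem m hm y), hg hm, hconj y m hm]
          obtain ⟨n, hn, hnk⟩ := hsurj _ (hβK m hm)
          rw [← hnk, ← hC'c n hn, C'.perm_c _ _ y hn, hC'c _ (hC'.mnormal.conj_mem n hn y)]
          congr 1; group
        have hinjD : ∀ {a b : Y}, a ∈ K → b ∈ K → D.c a = D.c b → a = b := by
          intro a b ha hb hab
          have := (D.eq_iff ha hb).1 hab
          rw [Subgroup.mem_bot, inv_mul_eq_one] at this
          exact this.symm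
        rcases scalar_of_equivariant h C' hC' g hadd heq with h1 | h1
        · have hzc : ∀ m ∈ M, z * m = m * z := by
            intro m hm
            have e := hinjD (hβK m hm) K.one_mem ((hg hm).symm.trans ((h1 _).trans D.one.symm))
            calc z * m = m * β m * z := by simp only [β]; group
              _ = m * z := by rw [e, mul_one]
          have hQab : ∀ a ∈ Q, ∀ b ∈ Q, a * b = b * a := by
            intro a ha b hb
            rcases hind a ha with ha' | ha' <;> rcases hind b hb with hb' | hb'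
            · exact hMab a ha' b hb'
            · calc a * b = (a * z) * (z⁻¹ * b) := by group
                _ = z * (a * (z⁻¹ * b)) := by rw [← hzc a ha']; group
                _ = b * a := by rw [hMab a ha' _ hb']; group
            · calc a * b = z * ((z⁻¹ * a) * b) := by group
                _ = (z * b) * (z⁻¹ * a) := by rw [hMab _ ha' b hb']; group
                _ = b * a := by rw [hzc b hb']; group
            · calc a * b = z * ((z⁻¹ * a) * z) * (z⁻¹ * b) := by group
                _ = z * z * ((z⁻¹ * a) * (z⁻¹ * b)) := by rw [← hzc _ ha']; group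
                _ = z * z * ((z⁻¹ * b) * (z⁻¹ * a)) := by rw [hMab _ ha' _ hb']
                _ = z * (z * (z⁻¹ * b)) * (z⁻¹ * a) := by group
                _ = b * a := by rw [hzc _ hb']; group
          exact (abelian_false h hb D hD hKQ hK1 hK8 hQab hsq
            (fun k hk => by obtain ⟨m, hm, e⟩ := hsurj k hk; exact ⟨m, hMQ hm, e⟩) (by omega)).elim
        · refine (inversion_false h D hD hMn hKM hMQ hK8 (by rw [hMc, hK8]) hMab hsqM hroot' hz hzM hind
            fun m hm => ?_).elim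
          have e := hinjD (hβK m hm) (hsqM m hm) ((hg hm).symm.trans ((h1 _).trans (hC'c m hm)))
          have h4 : m * m * (m * m) = 1 := hK1 _ (hsqM m hm)
          calc z * m * z⁻¹ = m * β m := by simp only [β]; group
            _ = m⁻¹ * (m * m * (m * m)) := by rw [e]; group
            _ = m⁻¹ := by rw [h4, mul_one]
  · obtain ⟨z, hz, rfl⟩ := hzb
    set Z := Subgroup.zpowers (p z) with hZdef
    have hZle : Z ≤ Q.map p := Subgroup.zpowers_le.2 ⟨z, hz, rfl⟩
    have hZ2 : Nat.card Z = 2 := by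
      rw [Nat.card_zpowers]
      exact orderOf_eq_prime (by rw [sq]; exact hel _ ⟨z, hz, rfl⟩) hzb1
    have hmemZ : ∀ a ∈ Z, a = 1 ∨ a = p z := by
      rintro _ ⟨k, rfl⟩
      show p z ^ k = 1 ∨ p z ^ k = p z
      rw [← zpow_mod_orderOf, show orderOf (p z) = 2 by rw [← Nat.card_zpowers]; exact hZ2]
      rcases Int.emod_two_eq_zero_or_one k with h0 | h0 <;> simp [h0]
    set R := Z.comap p with hRdef
    obtain ⟨hKR, hRQ, hRc⟩ := preimage_facts hKQ hZle
    rw [hZ2] at hRc
    have hRn : R.Normal := by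
      refine Subgroup.Normal.comap ⟨fun a ha y => ?_⟩ p
      rcases hmemZ a ha with rfl | rfl
      · simp
      · rw [hzfix y]; exact ha
    have hzR : z ∈ R := Subgroup.mem_zpowers (p z)
    have hzK : z ∉ K := fun hh => hzb1 (mk_eq_one.2 hh)
    have hRz : ∀ r ∈ R, r ∈ K ∨ z⁻¹ * r ∈ K := fun r hr => (hmemZ _ hr).imp mk_eq_one.1
      fun e => mk_eq_mk.1 e.symm
    have hzf : ∀ y, z⁻¹ * (y * z * y⁻¹) ∈ K := fun y => mk_eq_mk.1 (by
      rw [map_mul, map_mul, map_inv, hzfix])
    have htrans : ∀ u ∈ Q, ∀ v ∈ Q, u ∉ R → v ∉ R → ∃ y, v⁻¹ * (y * u * y⁻¹) ∈ K := by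
      intro u hu v hv huR hvR
      have aux : ∀ {w : Y}, w ∉ R → p w ≠ 1 ∧ p w ≠ p z := fun {w} hw =>
        ⟨fun e => hw (hKR (mk_eq_one.1 e)), fun e => hw (by
          show p w ∈ Z
          rw [e]; exact Subgroup.mem_zpowers _)⟩
      obtain ⟨yb, hy⟩ := htr _ ⟨u, hu, rfl⟩ _ ⟨v, hv, rfl⟩ (aux huR).1 (aux huR).2 (aux hvR).1 (aux hvR).2
      obtain ⟨y, rfl⟩ := QuotientGroup.mk'_surjective K yb
      exact ⟨y, mk_eq_mk.1 (by rw [map_mul, map_mul, map_inv]; exact hy.symm)⟩
    obtain ⟨C⟩ := exists_coord (M := Q) (K := R) hRn hRQ (fun q hq => hKR (hsq q hq))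
      (by rw [hcard, show Nat.card R = 2 * Nat.card K from hRc]; ring)
    rcases halt with ⟨hK2, hcen⟩ | ⟨hK8, D, hD⟩
    · have hall := squares_const h C hRQ hK1 hcen hsq htrans
      have := h.card_le Q hall
      omega
    · have hC : Natural π Q Q R := by
        refine ⟨h.normal, hRn, fun q hq m hm => hKR (htriv q hq m hm), ?_⟩
        obtain ⟨u, hu, huc⟩ := C.surj e0
        obtain ⟨v, hv, hvc⟩ := C.surj e1
        have huR : u ∉ R := fun hh => absurd (huc.symm.trans ((C.eq_zero hu).2 hh)) (by decide)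
        have hvR : v ∉ R := fun hh => absurd (hvc.symm.trans ((C.eq_zero hv).2 hh)) (by decide)
        obtain ⟨y, hy⟩ := htrans u hu v hv huR hvR
        refine ⟨y, u, hu, fun hh => ?_⟩
        have h1 := R.mul_mem hh (R.inv_mem (hKR hy))
        rw [show u⁻¹ * (y * u * y⁻¹) * (v⁻¹ * (y * u * y⁻¹))⁻¹ = u⁻¹ * v by group] at h1
        have h2 := (C.eq_iff hv hu).2 h1
        rw [hvc, huc] at h2
        exact absurd h2 (by decide)
      obtain ⟨hz2, hzc⟩ := fixed_central h C hC D hD hRQ hKR hKc hzR hzK hRz hzf htriv hsq htrans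
      have hR1 : ∀ r ∈ R, r * r = 1 := by
        intro r hr
        rcases hRz r hr with hk | hk
        · exact hK1 r hk
        · have e : r = z * (z⁻¹ * r) := (mul_inv_cancel_left z r).symm
          generalize z⁻¹ * r = k at hk e
          rw [e, show z * k * (z * k) = z * (k * z) * k by group, hKc k hk z hz,
            show z * (z * k) * k = z * z * (k * k) by group, hz2, hK1 k hk, one_mul]
      have hR2 : ∀ r ∈ R, ∀ m ∈ Q, r * m = m * r := by
        intro r hr m hm
        rcases hRz r hr with hk | hk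
        · exact hKc r hk m hm
        · calc r * m = z * ((z⁻¹ * r) * m) := by group
            _ = z * m * (z⁻¹ * r) := by rw [hKc _ hk m hm]; group
            _ = m * r := by rw [hzc m hm]; group
      rcases squares h C hC D hD hRQ hR1 hR2 hsq with h0 | ⟨hQab, hroot, -⟩
      · have := h.card_le Q h0
        omega
      · exact (homocyclic_false h D hD h.normal hRn hKR hRQ le_rfl hQab hsq
          (fun m hm => ⟨hroot m hm, hR1 m⟩) (by rw [show Nat.card R = 2 * Nat.card K from hRc, hK8])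
          (by omega) (fun q hq r hr => by rw [← hR2 r hr q hq, mul_inv_cancel_right])
          (fun q hq hn => absurd hq hn)
          fun t ht htK => h.no_fixed hb (by omega) (hRQ ht) (hR1 t ht) fun h1 => htK (h1 ▸ K.one_mem)).elim

end Cfsg.Agent.RadLThree
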