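import Cfsg.Agent.RadLThreeTwo.Basic

/-!
# Natural sections: coordinates and lifts
-/

set_option autoImplicit false
set_option linter.all false

namespace Cfsg.Agent.RadLThree

open Cfsg Cfsg.Agent

universe u v w

abbrev V3 : Type := ZMod 2 × ZMod 2 × ZMod 2

def e0 : V3 := (1, 0, 0)
def e1 : V3 := (0, 1, 0)
def e2 : V3 := (0, 0, 1)

theorem V3.self_add (v : V3) : v + v = 0 := by revert v; decide

theorem V3.eq_comb (v : V3) : v = v.1.val • e0 + v.2.1.val • e1 + v.2.2.val • e2 := by
  revert v; decide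

theorem card_frames : (Finset.univ.filter fun t : V3 × V3 × V3 =>
    t.1 ≠ 0 ∧ t.2.1 ≠ 0 ∧ t.2.1 ≠ t.1 ∧ t.2.2 ≠ 0 ∧ t.2.2 ≠ t.1 ∧ t.2.2 ≠ t.2.1 ∧
      t.2.2 ≠ t.1 + t.2.1).card = 168 := by decide +kernel

theorem card_autV : Nat.card (V3 ≃+ V3) ≤ 168 := by
  classical
  rw [← card_frames, ← Fintype.card_coe, ← Nat.card_eq_fintype_card]
  refine Nat.card_le_card_of_injective
    (fun σ => ⟨(σ e0, σ e1, σ e2), Finset.mem_filter.2 ⟨Finset.mem_univ _, ?_⟩⟩) ?_
  · have h0 : ∀ v, σ v = 0 ↔ v = 0 := fun v => by simp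
    refine ⟨fun h => absurd ((h0 _).1 h) (by decide), fun h => absurd ((h0 _).1 h) (by decide),
      fun h => absurd (σ.injective h) (by decide), fun h => absurd ((h0 _).1 h) (by decide),
      fun h => absurd (σ.injective h) (by decide), fun h => absurd (σ.injective h) (by decide), ?_⟩
    intro h
    rw [← map_add] at h
    exact absurd (σ.injective h) (by decide)
  · intro σ τ h
    simp only [Subtype.mk.injEq, Prod.mk.injEq] at h
    apply AddEquiv.ext
    intro v
    rw [V3.eq_comb v]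
    simp only [map_add, map_nsmul, h.1, h.2.1, h.2.2]

variable {Y : Type u} [Group Y] [Finite Y] {L : Type v} [Group L] {π : Y →* L} {Q : Subgroup Y}

/-- Coordinates on a section `M/K` of order 8. -/
structure Coord (M K : Subgroup Y) where
  c : Y → V3
  mul : ∀ {m n : Y}, m ∈ M → n ∈ M → c (m * n) = c m + c n
  eq_zero : ∀ {m : Y}, m ∈ M → (c m = 0 ↔ m ∈ K)
  surj : ∀ v : V3, ∃ m ∈ M, c m = v

namespace Coord

variable {M K : Subgroup Y} (C : Coord M K)

theorem one : C.c 1 = 0 := by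
  have := C.mul M.one_mem M.one_mem
  rw [one_mul] at this
  exact left_eq_add.1 this

theorem inv {m : Y} (hm : m ∈ M) : C.c m⁻¹ = C.c m := by
  have := C.mul hm (M.inv_mem hm)
  rw [mul_inv_cancel, C.one] at this
  rw [← add_left_cancel_iff (a := C.c m), ← this, V3.self_add]

theorem eq_iff {m n : Y} (hm : m ∈ M) (hn : n ∈ M) : C.c m = C.c n ↔ n⁻¹ * m ∈ K := by
  rw [← C.eq_zero (M.mul_mem (M.inv_mem hn) hm), C.mul (M.inv_mem hn) hm, C.inv hn]
  constructor
  · intro h; rw [h, V3.self_add]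
  · intro h; rw [← add_left_cancel_iff (a := C.c n), h, V3.self_add]

noncomputable def sec (v : V3) : Y := (C.surj v).choose

theorem sec_mem (v : V3) : C.sec v ∈ M := (C.surj v).choose_spec.1

@[simp] theorem c_sec (v : V3) : C.c (C.sec v) = v := (C.surj v).choose_spec.2

variable (hM : M.Normal) (hK : K.Normal)
include hM hK

theorem conj_congr (y : Y) {m n : Y} (hm : m ∈ M) (hn : n ∈ M) (h : C.c m = C.c n) :
    C.c (y * m * y⁻¹) = C.c (y * n * y⁻¹) := by
  rw [C.eq_iff (hM.conj_mem m hm y) (hM.conj_mem n hn y)]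
  have := hK.conj_mem _ ((C.eq_iff hm hn).1 h) y
  simpa [mul_assoc] using this

noncomputable def actFun (y : Y) (v : V3) : V3 := C.c (y * C.sec v * y⁻¹)

theorem actFun_c (y : Y) {m : Y} (hm : m ∈ M) : C.c (y * m * y⁻¹) = C.actFun y (C.c m) :=
  C.conj_congr hM hK y hm (C.sec_mem _) (by simp)

theorem actFun_add (y : Y) (v w : V3) :
    C.actFun y (v + w) = C.actFun y v + C.actFun y w := by
  have hv := C.sec_mem v
  have hw := C.sec_mem w
  have h1 := C.actFun_c hM hK y (M.mul_mem hv hw)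
  rw [C.mul hv hw, c_sec, c_sec, show y * (C.sec v * C.sec w) * y⁻¹ =
    (y * C.sec v * y⁻¹) * (y * C.sec w * y⁻¹) by group,
    C.mul (hM.conj_mem _ hv y) (hM.conj_mem _ hw y)] at h1
  exact h1.symm

theorem actFun_one (v : V3) : C.actFun 1 v = v := by simp [actFun]

theorem actFun_mul (x y : Y) (v : V3) :
    C.actFun (x * y) v = C.actFun x (C.actFun y v) := by
  show C.actFun (x * y) v = C.actFun x (C.c (y * C.sec v * y⁻¹))
  rw [← C.actFun_c hM hK x (hM.conj_mem _ (C.sec_mem v) y)]
  show C.c _ = _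
  congr 1; group

noncomputable def perm : Y →* Equiv.Perm V3 where
  toFun y :=
    { toFun := C.actFun y
      invFun := C.actFun y⁻¹
      left_inv := fun v => by rw [← C.actFun_mul hM hK, inv_mul_cancel, C.actFun_one hM hK]
      right_inv := fun v => by rw [← C.actFun_mul hM hK, mul_inv_cancel, C.actFun_one hM hK] }
  map_one' := by ext1 v; exact C.actFun_one hM hK v
  map_mul' x y := by ext1 v; exact C.actFun_mul hM hK x y v

theorem perm_c (y : Y) {m : Y} (hm : m ∈ M) : C.perm hM hK y (C.c m) = C.c (y * m * y⁻¹) :=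
  (C.actFun_c hM hK y hm).symm

noncomputable def aut (y : Y) : V3 ≃+ V3 :=
  { C.perm hM hK y with map_add' := C.actFun_add hM hK y }

theorem aut_c (y : Y) {m : Y} (hm : m ∈ M) : C.aut hM hK y (C.c m) = C.c (y * m * y⁻¹) :=
  (C.actFun_c hM hK y hm).symm

end Coord

/-- `Q` centralises the section and some element moves it: the section is natural. -/
structure Natural (π : Y →* L) (Q M K : Subgroup Y) : Prop where
  mnormal : M.Normal
  knormal : K.Normal
  triv : ∀ q ∈ Q, ∀ m ∈ M, m⁻¹ * (q * m * q⁻¹) ∈ K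
  moves : ∃ y, ∃ m ∈ M, m⁻¹ * (y * m * y⁻¹) ∉ K

namespace Coord

variable {M K : Subgroup Y} (C : Coord M K)

theorem perm_ker (h : Rad π Q) (hn : Natural π Q M K) :
    (C.perm hn.mnormal hn.knormal).ker = Q := by
  have hQ : ∀ q ∈ Q, C.perm hn.mnormal hn.knormal q = 1 := by
    intro q hq
    ext1 v
    obtain ⟨m, hm, rfl⟩ := C.surj v
    rw [C.perm_c _ _ q hm, Equiv.Perm.one_apply, C.eq_iff (hn.mnormal.conj_mem m hm q) hm]
    exact hn.triv q hq m hm
  refine (h.ker_eq _ hQ).resolve_left fun hall => ?_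
  obtain ⟨y, m, hm, hy⟩ := hn.moves
  apply hy
  rw [← C.eq_iff (hn.mnormal.conj_mem m hm y) hm, ← C.perm_c hn.mnormal hn.knormal y hm, hall y]
  rfl

/-- Every linear map is induced. -/
theorem lift (h : Rad π Q) (hn : Natural π Q M K) (σ : V3 ≃+ V3) :
    ∃ y : Y, ∀ m ∈ M, C.c (y * m * y⁻¹) = σ (C.c m) := by
  classical
  let f := C.perm hn.mnormal hn.knormal
  haveI := h.finite
  let g : L → (V3 ≃+ V3) := fun l => C.aut hn.mnormal hn.knormal (h.surj l).choose
  have hg : Function.Injective g := by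
    intro a b hab
    rw [← (h.surj a).choose_spec, ← (h.surj b).choose_spec]
    have h1 : f (h.surj a).choose = f (h.surj b).choose := Equiv.ext fun v => DFunLike.congr_fun hab v
    have h2 : (h.surj b).choose⁻¹ * (h.surj a).choose ∈ f.ker := by
      rw [MonoidHom.mem_ker, map_mul, map_inv, h1, inv_mul_cancel]
    rw [C.perm_ker h hn, h.mem_iff, map_mul, map_inv, inv_mul_eq_one] at h2
    exact h2.symm
  haveI : Finite (V3 ≃+ V3) := Finite.of_injective _ DFunLike.coe_injective
  have hb : Function.Bijective g := hg.bijective_of_nat_card_le (by rw [h.card]; exact card_autV)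
  obtain ⟨l, hl⟩ := hb.2 σ
  exact ⟨(h.surj l).choose, fun m hm => by rw [← hl]; exact (C.aut_c _ _ _ hm).symm⟩

/-- An element acting trivially on a natural section lies in `Q`. -/
theorem mem_of_trivial (h : Rad π Q) (hn : Natural π Q M K) {y : Y}
    (hy : ∀ m ∈ M, C.c (y * m * y⁻¹) = C.c m) : y ∈ Q := by
  rw [← C.perm_ker h hn, MonoidHom.mem_ker]
  ext1 v
  obtain ⟨m, hm, rfl⟩ := C.surj v
  rw [C.perm_c _ _ y hm, hy m hm]; rfl

theorem triv_c (hn : Natural π Q M K) {q m : Y} (hq : q ∈ Q) (hm : m ∈ M) :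
    C.c (q * m * q⁻¹) = C.c m :=
  (C.eq_iff (hn.mnormal.conj_mem m hm q) hm).2 (hn.triv q hq m hm)

theorem pow_c (hn : Natural π Q M K) {y : Y} (σ : V3 → V3)
    (hy : ∀ m ∈ M, C.c (y * m * y⁻¹) = σ (C.c m)) (k : ℕ) {m : Y} (hm : m ∈ M) :
    C.c (y ^ k * m * (y ^ k)⁻¹) = σ^[k] (C.c m) := by
  induction k with
  | zero => simp
  | succ k ih =>
    rw [Function.iterate_succ_apply', ← ih, ← hy _ (hn.mnormal.conj_mem m hm _)]
    congr 1; rw [pow_succ']; group

/-- A fixed element of a natural section is trivial. -/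
theorem eq_zero_of_fixed (h : Rad π Q) (hn : Natural π Q M K) {m : Y} (hm : m ∈ M)
    (hfix : ∀ y, C.c (y * m * y⁻¹) = C.c m) : C.c m = 0 := by
  have key : ∀ v : V3, v ≠ 0 → ∃ a b : V3, ∃ σ : V3 ≃+ V3, σ v ≠ v := by
    intro v hv
    let s0 : V3 ≃+ V3 :=
      { toFun := fun w => (w.1, w.1 + w.2.1, w.2.2), invFun := fun w => (w.1, w.1 + w.2.1, w.2.2)
        left_inv := by intro w; revert w; decide
        right_inv := by intro w; revert w; decide
        map_add' := by intro a b; revert a b; decide }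
    let s1 : V3 ≃+ V3 :=
      { toFun := fun w => (w.1, w.2.1, w.2.1 + w.2.2), invFun := fun w => (w.1, w.2.1, w.2.1 + w.2.2)
        left_inv := by intro w; revert w; decide
        right_inv := by intro w; revert w; decide
        map_add' := by intro a b; revert a b; decide }
    let s2 : V3 ≃+ V3 :=
      { toFun := fun w => (w.1 + w.2.2, w.2.1, w.2.2), invFun := fun w => (w.1 + w.2.2, w.2.1, w.2.2)
        left_inv := by intro w; revert w; decide
        right_inv := by intro w; revert w; decide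
        map_add' := by intro a b; revert a b; decide }
    have hd : (v.1, v.1 + v.2.1, v.2.2) ≠ v ∨ (v.1, v.2.1, v.2.1 + v.2.2) ≠ v ∨
        (v.1 + v.2.2, v.2.1, v.2.2) ≠ v := by revert v; decide
    rcases hd with hd | hd | hd
    · exact ⟨0, 0, s0, hd⟩
    · exact ⟨0, 0, s1, hd⟩
    · exact ⟨0, 0, s2, hd⟩
  by_contra hne
  obtain ⟨-, -, σ, hσ⟩ := key _ hne
  obtain ⟨y, hy⟩ := C.lift h hn σ
  exact hσ ((hy m hm).symm.trans (hfix y))

end Coord

/-- An elementary section of order 8 has coordinates. -/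
theorem exists_coord {M K : Subgroup Y} (hK : K.Normal) (hKM : K ≤ M)
    (h2 : ∀ m ∈ M, m * m ∈ K) (hc : Nat.card M = 8 * Nat.card K) : Nonempty (Coord M K) := by
  classical
  haveI : (K.subgroupOf M).Normal := hK.subgroupOf M
  let W := M ⧸ K.subgroupOf M
  have hsq : ∀ w : W, w * w = 1 := fun w => QuotientGroup.induction_on w fun m =>
    (QuotientGroup.eq_one_iff _).2 (h2 m m.2)
  letI : CommGroup W := { (inferInstance : Group W) with
    mul_comm := fun a b => by
      have hi : ∀ a : W, a⁻¹ = a := fun a => inv_eq_of_mul_eq_one_right (hsq a)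
      rw [← hi (a * b), mul_inv_rev, hi, hi] }
  letI : Module (ZMod 2) (Additive W) := AddCommGroup.zmodModule (fun x => by
    rw [two_nsmul]; exact hsq x)
  have hcard : Nat.card (Additive W) = 8 := by
    show Nat.card W = 8
    have := Subgroup.card_eq_card_quotient_mul_card_subgroup (K.subgroupOf M)
    rw [Nat.card_congr (Subgroup.subgroupOfEquivOfLe hKM).toEquiv, hc] at this
    exact Nat.eq_of_mul_eq_mul_right Nat.card_pos this.symm
  have hd : Module.finrank (ZMod 2) (Additive W) = Module.finrank (ZMod 2) V3 := by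
    have h := Module.natCard_eq_pow_finrank (K := ZMod 2) (V := Additive W)
    rw [hcard, Nat.card_zmod] at h
    have h' := Module.natCard_eq_pow_finrank (K := ZMod 2) (V := V3)
    rw [show Nat.card V3 = 8 by simp [Nat.card_prod], Nat.card_zmod] at h'
    exact Nat.pow_right_injective le_rfl (h.symm.trans h')
  let φ : Additive W ≃ₗ[ZMod 2] V3 := LinearEquiv.ofFinrankEq _ _ hd
  refine ⟨⟨fun y => if hy : y ∈ M then φ (Additive.ofMul (QuotientGroup.mk ⟨y, hy⟩ : W)) else 0,
    ?_, ?_, ?_⟩⟩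
  · intro m n hm hn
    rw [dif_pos hm, dif_pos hn, dif_pos (M.mul_mem hm hn), ← map_add]
    rfl
  · intro m hm
    rw [dif_pos hm, LinearEquiv.map_eq_zero_iff]
    exact (QuotientGroup.eq_one_iff (⟨m, hm⟩ : M))
  · intro v
    obtain ⟨w, hw⟩ := QuotientGroup.mk_surjective (Additive.toMul (φ.symm v))
    refine ⟨w, w.2, ?_⟩
    rw [dif_pos w.2]
    show φ (Additive.ofMul (QuotientGroup.mk w : W)) = v
    rw [hw]; simp

end Cfsg.Agent.RadLThree
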