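import Cfsg.Agent.RadLThreeTwo.CaseA

/-!
# The radical cannot be of type `(8,2,2,2)`
-/

set_option autoImplicit false
set_option linter.all false

namespace Cfsg.Agent.RadLThree

open Cfsg Cfsg.Agent

universe u v w

variable {Y : Type u} [Group Y] [Finite Y] {L : Type v} [Group L] {π : Y →* L} {Q : Subgroup Y}

/-- The bound on the multiplier of the quotient. -/
def MultBound (L : Type v) [Group L] : Prop :=
  ∀ (Δ : Type u) [Group Δ] [Finite Δ] (τ : Δ →* L), IsStemExtension τ → Nat.card τ.ker ∣ 2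

theorem Rad.exists_perfect (h : Rad π Q) :
    ∃ Y0 : Subgroup Y, (∀ l, ∃ y ∈ Y0, π y = l) ∧ ⁅Y0, Y0⁆ = Y0 := by
  classical
  haveI := h.simple
  have htop : ⁅(⊤ : Subgroup L), (⊤ : Subgroup L)⁆ = ⊤ := by
    refine (inferInstance : Subgroup.Normal ⁅(⊤ : Subgroup L), (⊤ : Subgroup L)⁆).eq_bot_or_eq_top.resolve_left fun hb => ?_
    letI : CommGroup L := { (inferInstance : Group L) with
      mul_comm := fun a b => (commutatorElement_eq_one_iff_mul_comm.1 (Subgroup.mem_bot.1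
        (hb ▸ Subgroup.commutator_mem_commutator (Subgroup.mem_top a) (Subgroup.mem_top b)))) }
    haveI := h.finite
    have := (IsSimpleGroup.prime_card : (Nat.card L).Prime)
    rw [h.card] at this
    norm_num at this
  let P : Subgroup Y → Prop := fun K => ∀ l, ∃ y ∈ K, π y = l
  obtain ⟨Y0, hY0, hmin⟩ := (Set.toFinite {K : Subgroup Y | P K}).exists_minimal
    ⟨⊤, fun l => by obtain ⟨y, rfl⟩ := h.surj l; exact ⟨y, Subgroup.mem_top y, rfl⟩⟩
  refine ⟨Y0, hY0, le_antisymm (Subgroup.commutator_le_self _) (hmin ?_ (Subgroup.commutator_le_self _))⟩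
  intro l
  have hmap : (⁅Y0, Y0⁆).map π = ⊤ := by
    have hY : Y0.map π = ⊤ := eq_top_iff.2 fun l _ => by
      obtain ⟨y, hy, rfl⟩ := hY0 l; exact ⟨y, hy, rfl⟩
    rw [Subgroup.map_commutator, hY, htop]
  have : l ∈ (⁅Y0, Y0⁆).map π := hmap ▸ Subgroup.mem_top l
  obtain ⟨y, hy, rfl⟩ := this
  exact ⟨y, hy, rfl⟩

/-- A perfect subgroup meets a centralised section in at most two elements. -/
theorem Rad.perfect_sq (h : Rad π Q) (hm : MultBound.{u} L) {Y0 : Subgroup Y}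
    (hY0 : ∀ l, ∃ y ∈ Y0, π y = l) (hperf : ⁅Y0, Y0⁆ = Y0) (V : Subgroup Y) [V.Normal] (hV : V ≤ Q)
    (hcent : ∀ q ∈ Q, ∀ y, q⁻¹ * (y * q * y⁻¹) ∈ V) : ∀ q ∈ Q, q ∈ Y0 → q * q ∈ V := by
  intro q hq hqY
  let p := QuotientGroup.mk' V
  let Δ : Subgroup (Y ⧸ V) := Y0.map p
  let τ : Δ →* L := (QuotientGroup.lift V π (h.le_ker hV)).comp Δ.subtype
  have hst : IsStemExtension τ := by
    refine ⟨?_, ?_, ?_⟩
    · intro l
      obtain ⟨y, hy, rfl⟩ := hY0 l
      exact ⟨⟨p y, y, hy, rfl⟩, rfl⟩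
    · intro x hx
      obtain ⟨y, hy, hyx⟩ := x.2
      have hyQ : y ∈ Q := h.mem_iff.2 (by
        have hx' : QuotientGroup.lift V π (h.le_ker hV) (x : Y ⧸ V) = 1 := hx
        rw [← hyx] at hx'
        exact hx')
      rw [Subgroup.mem_center_iff]
      intro g
      refine Subtype.ext ?_
      obtain ⟨g0, hg0, hgx⟩ := g.2
      show (g : Y ⧸ V) * x = x * g
      rw [← hyx, ← hgx, ← map_mul, ← map_mul]
      refine (QuotientGroup.eq.2 ?_).symm
      have := hcent y hyQ g0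
      have e : (y * g0)⁻¹ * (g0 * y) = g0⁻¹ * (y⁻¹ * (g0 * y * g0⁻¹)) * g0 := by group
      rw [e]
      simpa using (inferInstance : V.Normal).conj_mem _ this g0⁻¹
    · intro x _
      have hmap : (commutator Δ).map Δ.subtype = Δ := by
        rw [commutator_def, Subgroup.map_commutator, ← MonoidHom.range_eq_map, Subgroup.range_subtype,
          ← Subgroup.map_commutator, hperf]
      have hx : (x : Y ⧸ V) ∈ (commutator Δ).map Δ.subtype := hmap.symm ▸ x.2
      obtain ⟨c, hc, hcx⟩ := hx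
      exact Subtype.ext hcx ▸ hc
  have hdvd := hm Δ τ hst
  let k : τ.ker := ⟨⟨p q, q, hqY, rfl⟩, h.mem_iff.1 hq⟩
  have hk : k ^ 2 = 1 := by
    obtain ⟨j, hj⟩ := (orderOf_dvd_natCard k).trans hdvd
    rw [hj, pow_mul, pow_orderOf_eq_one, one_pow]
  have hk' : p q * p q = 1 := by
    have := congrArg (fun x : τ.ker => ((x : Δ) : Y ⧸ V)) hk
    simpa [sq, k] using this
  rw [← map_mul] at hk'
  exact (QuotientGroup.eq_one_iff _).1 hk'

/-- A word in the two generators of the stabiliser of `e2`. -/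
def genFun (t : Fin 4 × Fin 4 × Fin 4 × Fin 4) (v : V3) : V3 :=
  gAut^[t.1.val] (threeAut^[t.2.1.val] (gAut^[t.2.2.1.val] (threeAut^[t.2.2.2.val] v)))

set_option synthInstance.maxSize 4096 in
theorem stab_gen : ∀ u v : V3, u ≠ 0 → v ≠ 0 → u ≠ e2 → v ≠ e2 → u ≠ v → u ≠ v + e2 →
    ∃ t : Fin 4 × Fin 4 × Fin 4 × Fin 4, genFun t e0 = u ∧ genFun t e1 = v := by
  unfold genFun; decide +kernel

theorem iter_fixed : ∀ i : Fin 4, gAut^[i.val] e2 = e2 ∧ threeAut^[i.val] e2 = e2 := by decide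

theorem genFun_e2 : ∀ t, genFun t e2 = e2 := by
  intro t
  simp only [genFun, (iter_fixed _).1, (iter_fixed _).2]

theorem genFun_add (t : Fin 4 × Fin 4 × Fin 4 × Fin 4) (a b : V3) :
    genFun t (a + b) = genFun t a + genFun t b := by
  have hiter : ∀ (σ : V3 ≃+ V3) (n : ℕ) (a b : V3), σ^[n] (a + b) = σ^[n] a + σ^[n] b := by
    intro σ n
    induction n with
    | zero => intro a b; rfl
    | succ n ih => intro a b; rw [Function.iterate_succ_apply, map_add, ih]; rfl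
  simp only [genFun, hiter]

/-- The witness of a sectional rank five. -/
theorem witness_false (h : Rad π Q) {S Z2 Z0 Y1 : Subgroup Y} (C : Coord S Z2) (hC : Natural π Q S Z2)
    (hS2 : ∀ s ∈ S, s * s = 1) (hSQ : S ≤ Q) (hQab : ∀ a ∈ Q, ∀ b ∈ Q, a * b = b * a)
    (hZ2 : Z2 ≤ Z0) (hZ0Q : Z0 ≤ Q) (hZ0c : ∀ u ∈ Z0, ∀ y, y * u * y⁻¹ = u)
    (hZ0S : ∀ u ∈ Z0, u ∈ S → u ∈ Z2) (hY1 : ∀ l, ∃ y ∈ Y1, π y = l)
    (hY1Q : ∀ q ∈ Q, q ∈ Y1 → ∃ s ∈ S, s⁻¹ * q ∈ Z0)
    {w : Y} (hwQ : w ∈ Q) (hw2 : w * w ∈ Z0) (hwfix : ∀ y, w⁻¹ * (y * w * y⁻¹) ∈ Z2)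
    (hwT : ∀ s ∈ S, s⁻¹ * w ∉ Z0) : False := by
  classical
  have hSn := hC.mnormal
  have lift1 : ∀ σ : V3 ≃+ V3, ∃ y ∈ Y1, ∀ m ∈ S, C.c (y * m * y⁻¹) = σ (C.c m) := by
    intro σ
    obtain ⟨y, hy⟩ := C.lift h hC σ
    obtain ⟨y1, hy1, hπ⟩ := hY1 (π y)
    refine ⟨y1, hy1, fun m hm => ?_⟩
    have hq : y⁻¹ * y1 ∈ Q := h.mem_iff.2 (by rw [map_mul, map_inv, hπ, inv_mul_cancel])
    rw [show y1 * m * y1⁻¹ = y * ((y⁻¹ * y1) * m * (y⁻¹ * y1)⁻¹) * y⁻¹ by group,
      hy _ (hSn.conj_mem m hm _), C.triv_c hC hq hm]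
  obtain ⟨r, hrY, hr⟩ := lift1 gAut
  obtain ⟨y, hyY, hy⟩ := lift1 swapAut
  obtain ⟨y', hyY', hy'⟩ := lift1 shearAut
  set e := r * r with hedef
  have hEc : ∀ m ∈ S, C.c (e * m * e⁻¹) = eFun (C.c m) := fun m hm => by
    rw [show e * m * e⁻¹ = r * (r * m * r⁻¹) * r⁻¹ by rw [hedef]; group,
      hr _ (hSn.conj_mem m hm r), hr m hm, gAut_sq]
  set f := y * e * y⁻¹ with hfdef
  have hFc : ∀ m ∈ S, C.c (f * m * f⁻¹) = fFun (C.c m) := by
    intro m hm
    rw [hfdef, C.conj_aut hSn (σ := swapFun) (g := eFun) (by decide) hy hEc m hm]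
    generalize C.c m = w
    revert w; decide
  set d := y' * e * y'⁻¹ with hddef
  have hDc : ∀ m ∈ S, C.c (d * m * d⁻¹) = dFun (C.c m) := by
    intro m hm
    rw [hddef, C.conj_aut hSn (σ := shearFun) (g := eFun) (by decide) hy' hEc m hm]
    generalize C.c m = w
    revert w; decide
  let N : Subgroup Y :=
    { carrier := {n | ∃ s ∈ S, ∃ u ∈ Z0, n = s * u ∧ (C.c s).1 = 0 ∧ (C.c s).2.1 = 0}
      one_mem' := ⟨1, S.one_mem, 1, Z0.one_mem, (mul_one 1).symm, by rw [C.one]; exact ⟨rfl, rfl⟩⟩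
      mul_mem' := by
        rintro _ _ ⟨s, hs, u, hu, rfl, h1, h2⟩ ⟨t, ht, v, hv, rfl, h3, h4⟩
        refine ⟨s * t, S.mul_mem hs ht, u * v, Z0.mul_mem hu hv, ?_, ?_, ?_⟩
        · calc s * u * (t * v) = s * (u * t) * v := by group
            _ = s * (t * u) * v := by rw [hQab u (hZ0Q hu) t (hSQ ht)]
            _ = s * t * (u * v) := by group
        · rw [C.mul hs ht, Prod.fst_add, h1, h3, add_zero]
        · rw [C.mul hs ht, Prod.snd_add, Prod.fst_add, h2, h4, add_zero]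
      inv_mem' := by
        rintro _ ⟨s, hs, u, hu, rfl, h1, h2⟩
        refine ⟨s⁻¹, S.inv_mem hs, u⁻¹, Z0.inv_mem hu, ?_, by rw [C.inv hs]; exact h1, by rw [C.inv hs]; exact h2⟩
        rw [mul_inv_rev, hQab _ (Q.inv_mem (hZ0Q hu)) _ (Q.inv_mem (hSQ hs))] }
  have hZN : ∀ u ∈ Z0, u ∈ N := fun u hu => ⟨1, S.one_mem, u, hu, (one_mul u).symm, by rw [C.one]; exact ⟨rfl, rfl⟩⟩
  have hSN : ∀ s ∈ S, (C.c s).1 = 0 → (C.c s).2.1 = 0 → s ∈ N := fun s hs h1 h2 =>
    ⟨s, hs, 1, Z0.one_mem, (mul_one s).symm, h1, h2⟩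
  have hNQ : ∀ n ∈ N, n ∈ Q := by
    rintro _ ⟨s, hs, u, hu, rfl, -, -⟩
    exact Q.mul_mem (hSQ hs) (hZ0Q hu)
  have hNconj : ∀ {g : Y} {γ : V3 → V3}, (∀ m ∈ S, C.c (g * m * g⁻¹) = γ (C.c m)) →
      (∀ v : V3, v.1 = 0 → v.2.1 = 0 → (γ v).1 = 0 ∧ (γ v).2.1 = 0) → ∀ n ∈ N, g * n * g⁻¹ ∈ N := by
    rintro g γ hg hγ _ ⟨s, hs, u, hu, rfl, h1, h2⟩
    refine ⟨g * s * g⁻¹, hSn.conj_mem s hs g, u, hu, ?_, ?_, ?_⟩
    · rw [show g * (s * u) * g⁻¹ = (g * s * g⁻¹) * (g * u * g⁻¹) by group, hZ0c u hu g]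
    · rw [hg s hs]; exact (hγ _ h1 h2).1
    · rw [hg s hs]; exact (hγ _ h1 h2).2
  have he4 : e * e ∈ Q := C.mem_of_trivial h hC fun m hm => by
    rw [show e * e * m * (e * e)⁻¹ = e * (e * m * e⁻¹) * e⁻¹ by group,
      hEc _ (hSn.conj_mem m hm e), hEc m hm, eFun_eFun]
  have he2 : e * e ∈ N := by
    have heY : e * e ∈ Y1 := Y1.mul_mem (Y1.mul_mem hrY hrY) (Y1.mul_mem hrY hrY)
    obtain ⟨s, hs, hu⟩ := hY1Q _ he4 heY
    have hw : e * e = s * (s⁻¹ * (e * e)) := (mul_inv_cancel_left s _).symm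
    generalize s⁻¹ * (e * e) = u at hu hw
    have hfix : r * s * r⁻¹ = s := by
      have h1 : r * (e * e) * r⁻¹ = e * e := by rw [hedef]; group
      rw [hw, show r * (s * u) * r⁻¹ = (r * s * r⁻¹) * (r * u * r⁻¹) by group, hZ0c u hu r] at h1
      exact mul_right_cancel h1
    have hv := gAut_fix _ ((hr s hs).symm.trans (by rw [hfix]))
    exact ⟨s, hs, u, hu, hw, by rw [hv], by rw [hv]⟩
  have hf2 : f * f ∈ N := by
    rw [hfdef, show y * e * y⁻¹ * (y * e * y⁻¹) = y * (e * e) * y⁻¹ by group]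
    exact hNconj hy (by decide) _ he2
  have hd2 : d * d ∈ N := by
    rw [hddef, show y' * e * y'⁻¹ * (y' * e * y'⁻¹) = y' * (e * e) * y'⁻¹ by group]
    exact hNconj hy' (by decide) _ he2
  have heY1 : e ∈ Y1 := Y1.mul_mem hrY hrY
  have hm0 : e * f * d⁻¹ ∈ Q := C.mem_of_trivial h hC fun m hm => by
    have hd' : C.c (d⁻¹ * m * d) = dFun (C.c m) := by
      have h1 : d⁻¹ * m * d ∈ S := by simpa using hSn.conj_mem m hm d⁻¹
      have := hDc _ h1
      rw [show d * (d⁻¹ * m * d) * d⁻¹ = m by group] at this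
      rw [this]
      generalize C.c (d⁻¹ * m * d) = v
      revert v; decide
    have h1 : d⁻¹ * m * d ∈ S := by simpa using hSn.conj_mem m hm d⁻¹
    rw [show e * f * d⁻¹ * m * (e * f * d⁻¹)⁻¹ = e * (f * (d⁻¹ * m * d) * f⁻¹) * e⁻¹ by group,
      hEc _ (hSn.conj_mem _ h1 f), hFc _ h1, hd']
    generalize C.c m = v
    revert v; decide
  have hef : e * f * (e * f) ∈ N := by
    have hmY : e * f * d⁻¹ ∈ Y1 := Y1.mul_mem (Y1.mul_mem heY1 (Y1.mul_mem (Y1.mul_mem hyY heY1) (Y1.inv_mem hyY)))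
      (Y1.inv_mem (Y1.mul_mem (Y1.mul_mem hyY' heY1) (Y1.inv_mem hyY')))
    obtain ⟨s, hs, hu⟩ := hY1Q _ hm0 hmY
    have hw : e * f = s * (s⁻¹ * (e * f * d⁻¹)) * d := by group
    generalize s⁻¹ * (e * f * d⁻¹) = u at hu hw
    rw [hw]
    have hud : d * u * d⁻¹ = u := hZ0c u hu d
    have hds := hSn.conj_mem s hs d
    rw [show s * u * d * (s * u * d) = s * u * ((d * s * d⁻¹) * (d * u * d⁻¹)) * (d * d) by group, hud]
    refine N.mul_mem ⟨s * (d * s * d⁻¹), S.mul_mem hs hds, u * u, Z0.mul_mem hu hu, ?_, ?_, ?_⟩ hd2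
    · calc s * u * (d * s * d⁻¹ * u) = s * (u * (d * s * d⁻¹)) * u := by group
        _ = s * ((d * s * d⁻¹) * u) * u := by rw [hQab u (hZ0Q hu) _ (hSQ hds)]
        _ = s * (d * s * d⁻¹) * (u * u) := by group
    all_goals
      rw [C.mul hs hds, hDc s hs]
      generalize C.c s = v
      revert v; decide
  have heQ : e ∉ Q := fun hh => by
    obtain ⟨m, hm, hmc⟩ := C.surj e0
    have h1 := C.triv_c hC hh hm
    rw [hEc m hm, hmc] at h1
    exact absurd h1 (by decide)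
  have hfQ : f ∉ Q := fun hh => by
    obtain ⟨m, hm, hmc⟩ := C.surj e1
    have h1 := C.triv_c hC hh hm
    rw [hFc m hm, hmc] at h1
    exact absurd h1 (by decide)
  have hefQ : e * f ∉ Q := fun hh => by
    obtain ⟨m, hm, hmc⟩ := C.surj e0
    have h1 := C.triv_c hC hh hm
    rw [show e * f * m * (e * f)⁻¹ = e * (f * m * f⁻¹) * e⁻¹ by group, hEc _ (hSn.conj_mem m hm f),
      hFc m hm, hmc] at h1
    exact absurd h1 (by decide)
  have hab : ∀ a ∈ Q, ∀ n ∈ N, a * n * a⁻¹ ∈ N := fun a ha n hn => by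
    rw [hQab a ha n (hNQ n hn), mul_inv_cancel_right]; exact hn
  -- mixed products
  have hSg : ∀ {g : Y} {γ : V3 → V3}, (∀ m ∈ S, C.c (g * m * g⁻¹) = γ (C.c m)) → g * g ∈ N →
      (∀ v : V3, (v + γ v).1 = 0 ∧ (v + γ v).2.1 = 0) → ∀ s ∈ S, s * g * (s * g) ∈ N := by
    intro g γ hg hg2 hγ s hs
    rw [show s * g * (s * g) = s * (g * s * g⁻¹) * (g * g) by group]
    refine N.mul_mem (hSN _ (S.mul_mem hs (hSn.conj_mem s hs g)) ?_ ?_) hg2
    all_goals rw [C.mul hs (hSn.conj_mem s hs g), hg s hs]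
    exacts [(hγ _).1, (hγ _).2]
  have hWg : ∀ g : Y, g * g ∈ N → w * g * (w * g) ∈ N := by
    intro g hg2
    rw [show w * g * (w * g) = w * w * (w⁻¹ * (g * w * g⁻¹)) * (g * g) by group]
    exact N.mul_mem (N.mul_mem (hZN _ hw2) (hZN _ (hZ2 (hwfix g)))) hg2
  have hGa : ∀ (g a : Y), (∀ n ∈ N, g * n * g⁻¹ ∈ N) → a * g * (a * g) ∈ N → g * a * (g * a) ∈ N := by
    intro g a hg ha
    rw [show g * a * (g * a) = g * (a * g * (a * g)) * g⁻¹ by group]
    exact hg _ ha
  have cE := @hNconj e eFun hEc (by decide)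
  have cF := @hNconj f fFun hFc (by decide)
  have sE := @hSg e eFun hEc he2 (by decide)
  have sF := @hSg f fFun hFc hf2 (by decide)
  let X : Set Y := ((S : Set Y) ∪ (Z0 : Set Y)) ∪ {w, e, f}
  let H := Subgroup.closure X
  have hSH : ∀ s ∈ S, s ∈ H := fun s hs => Subgroup.subset_closure (Or.inl (Or.inl hs))
  have hZH : ∀ u ∈ Z0, u ∈ H := fun u hu => Subgroup.subset_closure (Or.inl (Or.inr hu))
  have hNH : N ≤ H := by
    rintro _ ⟨s, hs, u, hu, rfl, -, -⟩
    exact H.mul_mem (hSH s hs) (hZH u hu)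
  have hQmem : ∀ a, a ∈ ((S : Set Y) ∪ (Z0 : Set Y)) → a ∈ Q := by
    rintro a (ha | ha)
    exacts [hSQ ha, hZ0Q ha]
  have hbase2 : ∀ a, a ∈ ((S : Set Y) ∪ (Z0 : Set Y)) → a * a ∈ N := by
    rintro a (ha | ha)
    · rw [hS2 a ha]; exact N.one_mem
    · exact hZN _ (Z0.mul_mem ha ha)
  have hsqQ : ∀ a b : Y, a ∈ Q → b ∈ Q → a * a ∈ N → b * b ∈ N → a * b * (a * b) ∈ N := by
    intro a b ha hb h1 h2
    rw [show a * b * (a * b) = a * (b * a) * b by group, hQab b hb a ha,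
      show a * (a * b) * b = a * a * (b * b) by group]
    exact N.mul_mem h1 h2
  have hbE : ∀ a, a ∈ ((S : Set Y) ∪ (Z0 : Set Y)) → a * e * (a * e) ∈ N := by
    rintro a (ha | ha)
    · exact sE a ha
    · rw [show a * e * (a * e) = a * (e * a * e⁻¹) * (e * e) by group, hZ0c a ha e]
      exact N.mul_mem (hZN _ (Z0.mul_mem ha ha)) he2
  have hbF : ∀ a, a ∈ ((S : Set Y) ∪ (Z0 : Set Y)) → a * f * (a * f) ∈ N := by
    rintro a (ha | ha)
    · exact sF a ha
    · rw [show a * f * (a * f) = a * (f * a * f⁻¹) * (f * f) by group, hZ0c a ha f]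
      exact N.mul_mem (hZN _ (Z0.mul_mem ha ha)) hf2
  refine h.five X N hNH ?_ ?_ ?_ ?_
  · rintro a (ha | rfl | rfl | rfl) n hn
    · exact hab a (hQmem a ha) n hn
    · exact hab a hwQ n hn
    · exact cE n hn
    · exact cF n hn
  · rintro a (ha | rfl | rfl | rfl)
    · exact hbase2 a ha
    · exact hZN _ hw2
    · exact he2
    · exact hf2
  · rintro a (ha | rfl | rfl | rfl) b (hb | rfl | rfl | rfl)
    · exact hsqQ a b (hQmem a ha) (hQmem b hb) (hbase2 a ha) (hbase2 b hb)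
    · exact hsqQ a b (hQmem a ha) hwQ (hbase2 a ha) (hZN _ hw2)
    · exact hbE a ha
    · exact hbF a ha
    · exact hsqQ a b hwQ (hQmem b hb) (hZN _ hw2) (hbase2 b hb)
    · exact hsqQ _ _ hwQ hwQ (hZN _ hw2) (hZN _ hw2)
    · exact hWg _ he2
    · exact hWg _ hf2
    · exact hGa _ _ cE (hbE b hb)
    · exact hGa _ _ cE (hWg _ he2)
    · exact N.mul_mem he2 he2
    · exact hef
    · exact hGa _ _ cF (hbF b hb)
    · exact hGa _ _ cF (hWg _ hf2)
    · exact hGa _ _ cF hef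
    · exact N.mul_mem hf2 hf2
  · obtain ⟨p, hp, hpc⟩ := C.surj e0
    obtain ⟨q, hq, hqc⟩ := C.surj e1
    let g : N × (Bool × Bool × Bool) → ↥(H ⊓ Q) := fun x =>
      ⟨(if x.2.1 then w else 1) * ((if x.2.2.1 then p else 1) * (if x.2.2.2 then q else 1)) * x.1, by
        have hwH : w ∈ H := Subgroup.subset_closure (Or.inr (Or.inl rfl))
        refine ⟨H.mul_mem (H.mul_mem ?_ (H.mul_mem ?_ ?_)) (hNH x.1.2),
          Q.mul_mem (Q.mul_mem ?_ (Q.mul_mem ?_ ?_)) (hNQ _ x.1.2)⟩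
        all_goals split_ifs
        all_goals first | exact hwH | exact hwQ | exact hSH p hp | exact hSH q hq | exact hSQ hp | exact hSQ hq | exact H.one_mem | exact Q.one_mem⟩
    have hg : Function.Injective g := by
      rintro ⟨⟨n, s, hs, u, hu, rfl, h1, h2⟩, i, j, k⟩ ⟨⟨n', t, ht, v, hv, rfl, h3, h4⟩, i', j', k'⟩ hxx
      have hxx' : (if i then w else 1) * ((if j then p else 1) * (if k then q else 1)) * (s * u) =
          (if i' then w else 1) * ((if j' then p else 1) * (if k' then q else 1)) * (t * v) :=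
        congrArg Subtype.val hxx
      have hm1 : (if j then p else 1) * (if k then q else 1) ∈ S :=
        S.mul_mem (by split_ifs <;> first | exact hp | exact S.one_mem) (by split_ifs <;> first | exact hq | exact S.one_mem)
      have hm2 : (if j' then p else 1) * (if k' then q else 1) ∈ S :=
        S.mul_mem (by split_ifs <;> first | exact hp | exact S.one_mem) (by split_ifs <;> first | exact hq | exact S.one_mem)
      have hcj : C.c ((if j then p else 1) * (if k then q else 1)) = (if j then e0 else 0) + (if k then e1 else 0) := by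
        cases j <;> cases k <;> simp [C.mul, hp, hq, hpc, hqc, C.one, S.one_mem]
      have hcj' : C.c ((if j' then p else 1) * (if k' then q else 1)) = (if j' then e0 else 0) + (if k' then e1 else 0) := by
        cases j' <;> cases k' <;> simp [C.mul, hp, hq, hpc, hqc, C.one, S.one_mem]
      generalize hM1 : (if j then p else 1) * (if k then q else 1) = m1 at hxx' hm1 hcj
      generalize hM2 : (if j' then p else 1) * (if k' then q else 1) = m2 at hxx' hm2 hcj'
      have hii : i = i' := by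
        rcases Bool.eq_false_or_eq_true i with rfl | rfl <;> rcases Bool.eq_false_or_eq_true i' with rfl | rfl
        all_goals first
          | rfl
          | skip
        · exfalso
          simp only [if_true, if_false, Bool.false_eq_true, one_mul] at hxx'
          refine hwT ((m1 * s)⁻¹ * (m2 * t)) (S.mul_mem (S.inv_mem (S.mul_mem hm1 hs)) (S.mul_mem hm2 ht)) ?_
          have hcomm := hQab w hwQ _ (Q.mul_mem (hSQ hm1) (hSQ hs))
          have e1 : w = (m1 * s)⁻¹ * (m2 * t) * (v * u⁻¹) := by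
            calc w = (m1 * s)⁻¹ * (w * (m1 * s)) := by rw [hcomm, inv_mul_cancel_left]
              _ = (m1 * s)⁻¹ * ((w * m1 * (s * u)) * u⁻¹) := by group
              _ = _ := by rw [hxx']; group
          conv => arg 2; rw [e1]
          rw [inv_mul_cancel_left]
          exact Z0.mul_mem hv (Z0.inv_mem hu)
        · exfalso
          simp only [if_true, if_false, Bool.false_eq_true, one_mul] at hxx'
          refine hwT ((m2 * t)⁻¹ * (m1 * s)) (S.mul_mem (S.inv_mem (S.mul_mem hm2 ht)) (S.mul_mem hm1 hs)) ?_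
          have hcomm := hQab w hwQ _ (Q.mul_mem (hSQ hm2) (hSQ ht))
          have e1 : w = (m2 * t)⁻¹ * (m1 * s) * (u * v⁻¹) := by
            calc w = (m2 * t)⁻¹ * (w * (m2 * t)) := by rw [hcomm, inv_mul_cancel_left]
              _ = (m2 * t)⁻¹ * ((w * m2 * (t * v)) * v⁻¹) := by group
              _ = _ := by rw [← hxx']; group
          conv => arg 2; rw [e1]
          rw [inv_mul_cancel_left]
          exact Z0.mul_mem hu (Z0.inv_mem hv)
      subst hii
      simp only [mul_assoc, mul_right_inj] at hxx'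
      have hz : (m2 * t)⁻¹ * (m1 * s) = v * u⁻¹ := by
        rw [inv_mul_eq_iff_eq_mul]
        calc m1 * s = m1 * (s * u) * u⁻¹ := by group
          _ = _ := by rw [hxx']; group
      have hS12 : (m2 * t)⁻¹ * (m1 * s) ∈ S := S.mul_mem (S.inv_mem (S.mul_mem hm2 ht)) (S.mul_mem hm1 hs)
      have hc0 : C.c ((m2 * t)⁻¹ * (m1 * s)) = 0 :=
        (C.eq_zero hS12).2 (hZ0S _ (hz ▸ Z0.mul_mem hv (Z0.inv_mem hu)) hS12)
      rw [C.mul (S.inv_mem (S.mul_mem hm2 ht)) (S.mul_mem hm1 hs), C.inv (S.mul_mem hm2 ht),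
        C.mul hm2 ht, C.mul hm1 hs, hcj, hcj'] at hc0
      have key : ∀ (j k j' k' : Bool) (a b : V3), a.1 = 0 → a.2.1 = 0 → b.1 = 0 → b.2.1 = 0 →
          (if j' then e0 else 0) + (if k' then e1 else 0) + b + ((if j then e0 else 0) + (if k then e1 else 0) + a) = 0 →
          j = j' ∧ k = k' := by decide
      obtain ⟨rfl, rfl⟩ := key j k j' k' _ _ h1 h2 h3 h4 hc0
      have hm12 : m1 = m2 := hM1.symm.trans hM2
      subst hm12
      exact Prod.ext (Subtype.ext (mul_left_cancel hxx')) rfl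
    have := Nat.card_le_card_of_injective g hg
    rw [Nat.card_prod, Nat.card_prod, Nat.card_prod, Nat.card_eq_fintype_card (α := Bool), Fintype.card_bool] at this
    have h4 := h.four_mul (H := H) (Subgroup.subset_closure (Or.inr (Or.inr (Or.inl rfl))))
      (Subgroup.subset_closure (Or.inr (Or.inr (Or.inr rfl)))) heQ hfQ hefQ he4 (hNQ _ hf2)
      (A := H ⊓ Q) inf_le_left inf_le_right
    have hpos : 0 < Nat.card N := Nat.card_pos
    show 16 * Nat.card N < Nat.card H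
    omega

/-- An invariant subset with fewer than seven elements inside a section centralised by `Q`. -/
theorem Rad.small_image (h : Rad π Q) (V : Subgroup Y) [V.Normal] (T : Set (Y ⧸ V)) (hT : T.ncard < 7)
    (hQT : ∀ q ∈ Q, ∀ t ∈ T, (q : Y ⧸ V) * t * (q : Y ⧸ V)⁻¹ = t)
    (hinv : ∀ y : Y, ∀ t ∈ T, (y : Y ⧸ V) * t * (y : Y ⧸ V)⁻¹ ∈ T) :
    ∀ y : Y, ∀ t ∈ T, (y : Y ⧸ V) * t * (y : Y ⧸ V)⁻¹ = t := by
  intro y t ht
  let f := setHom ((conjPerm (Y ⧸ V)).comp (QuotientGroup.mk' V)) T hinv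
  have := h.small_fixed f (fun q hq => Equiv.ext fun b => Subtype.ext (hQT q hq b b.2)) Set.univ
    (fun _ _ _ => Set.mem_univ _) (by
      rw [Nat.card_congr (Equiv.Set.univ T), Nat.card_coe_set_eq]; exact hT) y ⟨t, ht⟩ (Set.mem_univ _)
  exact congrArg Subtype.val this

/-- The radical is not of type `(8,2,2,2)`. -/
theorem cyclicEight_false (h : Rad π Q) (hm : MultBound.{u} L) {S : Subgroup Y} [hSn : S.Normal]
    (hS2 : ∀ s ∈ S, s * s = 1) (hS16 : Nat.card S = 16) (hSQ : S ≤ Q)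
    (hQab : ∀ a ∈ Q, ∀ b ∈ Q, a * b = b * a) {z : Y} (hz : z ∈ Q)
    (hz2 : z * z ∉ S) (hz4 : z * z * (z * z) ∈ S) (hx1 : z * z * (z * z) ≠ 1)
    (hgen : ∀ q ∈ Q, ∃ i : Fin 4, (z ^ i.val)⁻¹ * q ∈ S)
    (hmove : ∃ y, ∃ s ∈ S, s⁻¹ * (y * s * y⁻¹) ≠ 1 ∧ s⁻¹ * (y * s * y⁻¹) ≠ z * z * (z * z)) : False := by
  classical
  have hQn := h.normal
  set x := z * z with hxdef
  set x2 := x * x with hx2def
  have hxQ : x ∈ Q := Q.mul_mem hz hz
  -- `Q` is central modulo `S`
  have hcent : ∀ q ∈ Q, ∀ y, q⁻¹ * (y * q * y⁻¹) ∈ S := by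
    intro q hq y
    let p := QuotientGroup.mk' S
    have hfix := h.small_image S (p '' (Q : Set Y)) (by
        have hsub : p '' (Q : Set Y) ⊆ Set.range fun i : Fin 4 => p (z ^ i.val) := by
          rintro _ ⟨a, ha, rfl⟩
          obtain ⟨i, hi⟩ := hgen a ha
          exact ⟨i, QuotientGroup.eq.2 hi⟩
        refine lt_of_le_of_lt ((Set.ncard_le_ncard hsub (Set.finite_range _)).trans ?_) (by norm_num : 4 < 7)
        rw [← Set.image_univ]
        refine (Set.ncard_image_le).trans ?_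
        simp)
      (by
        rintro a ha _ ⟨b, hb, rfl⟩
        show p a * p b * (p a)⁻¹ = p b
        rw [← map_inv, ← map_mul, ← map_mul, hQab a ha b hb, mul_inv_cancel_right])
      (by
        rintro y _ ⟨a, ha, rfl⟩
        refine ⟨y * a * y⁻¹, hQn.conj_mem a ha y, ?_⟩
        rw [map_mul, map_mul, map_inv]; rfl) y (p q) ⟨q, hq, rfl⟩
    have h' : p (y * q * y⁻¹) = p q := by
      rw [map_mul, map_mul, map_inv]; exact hfix
    exact QuotientGroup.eq.1 h'.symm
  have hzs : ∀ s ∈ S, (z * s) * (z * s) = x := fun s hs => by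
    rw [show z * s * (z * s) = z * (s * z) * s by group, hQab s (hSQ hs) z hz,
      show z * (z * s) * s = z * z * (s * s) by group, hS2 s hs, mul_one]
  have hxfix : ∀ y, y * x * y⁻¹ = x := by
    intro y
    have hs := hcent z hz y
    conv_rhs => rw [← hzs _ hs]
    rw [mul_inv_cancel_left, hxdef]; group
  have hx2fix : ∀ y, y * x2 * y⁻¹ = x2 := fun y => by
    rw [hx2def, show y * (x * x) * y⁻¹ = (y * x * y⁻¹) * (y * x * y⁻¹) by group, hxfix]
  have hx22 : x2 * x2 = 1 := hS2 _ hz4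
  have hx2ord : orderOf x2 = 2 := orderOf_eq_prime (by rw [sq]; exact hx22) hx1
  let Z2 := Subgroup.zpowers x2
  have hmemZ2 : ∀ n ∈ Z2, n = 1 ∨ n = x2 := by
    rintro n hn
    obtain ⟨k, rfl⟩ := hn
    show x2 ^ k = 1 ∨ x2 ^ k = x2
    rw [← zpow_mod_orderOf, hx2ord]
    rcases Int.emod_two_eq_zero_or_one k with h0 | h0 <;> simp [h0]
  have hx2Z : x2 ∈ Z2 := Subgroup.mem_zpowers x2
  have hZ2S : Z2 ≤ S := Subgroup.zpowers_le.2 hz4
  have hZ2c : ∀ u ∈ Z2, ∀ y, y * u * y⁻¹ = u := by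
    intro u hu y
    rcases hmemZ2 u hu with rfl | rfl
    · group
    · exact hx2fix y
  have hZ2n : Z2.Normal := ⟨fun u hu y => by rw [hZ2c u hu y]; exact hu⟩
  obtain ⟨C⟩ := exists_coord (M := S) hZ2n hZ2S (fun s hs => by rw [hS2 s hs]; exact Z2.one_mem)
    (by rw [hS16, Nat.card_zpowers, hx2ord])
  have hC : Natural π Q S Z2 := by
    refine ⟨hSn, hZ2n, fun q hq s hs => ?_, ?_⟩
    · rw [hQab q hq s (hSQ hs), mul_inv_cancel_right, inv_mul_cancel]; exact Z2.one_mem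
    · obtain ⟨y, s, hs, h1, h2⟩ := hmove
      exact ⟨y, s, hs, fun hh => (hmemZ2 _ hh).elim h1 h2⟩
  have hi : ∀ i : Fin 4, z ^ i.val * z ^ i.val ∈ S → i = 0 ∨ i = 2 := by
    intro i hii
    fin_cases i
    · exact Or.inl rfl
    · exact absurd (by simpa using hii) hz2
    · exact Or.inr rfl
    · exfalso
      refine hz2 ?_
      have h6 : z ^ (3 : ℕ) * z ^ (3 : ℕ) = x2 * x := by
        rw [hx2def, hxdef]; simp [pow_succ, mul_assoc]
      have := S.mul_mem (S.inv_mem hz4) (h6 ▸ hii : x2 * x ∈ S)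
      rwa [inv_mul_cancel_left] at this
  obtain ⟨Y0, hY0, hperf⟩ := h.exists_perfect
  rcases sixteen h S hS2 hS16 (fun q hq m hm => by rw [hQab q hq m (hSQ hm), mul_inv_cancel_right])
      (by
        obtain ⟨y, s, hs, h1, -⟩ := hmove
        exact ⟨y, s, hs, fun hh => h1 (by rw [hh, inv_mul_cancel])⟩) with
    ⟨V, hVn, hVS, hV8, y0, m0, hm0, hm0ne⟩ | ⟨z', hz'S, hz'1, hz'fix, htrans⟩
  · haveI := hVn
    have hm0Z : m0 ∉ Z2 := fun hh => hm0ne (hZ2c m0 hh y0)
    have hx2V : x2 ∉ V := by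
      intro hx
      have hle : S ≤ V := by
        intro s hs
        by_cases hsZ : s ∈ Z2
        · rcases hmemZ2 s hsZ with rfl | rfl
          exacts [V.one_mem, hx]
        · obtain ⟨y, hy⟩ := C.trans_mem h hC (hVS hm0) hs hm0Z hsZ
          have hyV := hVn.conj_mem m0 hm0 y
          have : s⁻¹ * (y * m0 * y⁻¹) ∈ V := by
            rcases hmemZ2 _ hy with h1 | h1 <;> rw [h1]
            exacts [V.one_mem, hx]
          rw [show s = (y * m0 * y⁻¹) * (s⁻¹ * (y * m0 * y⁻¹))⁻¹ by group]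
          exact V.mul_mem hyV (V.inv_mem this)
      have := Subgroup.card_le_of_le hle
      omega
    have hidx : (V.subgroupOf S).index = 2 := by
      have := (V.subgroupOf S).card_mul_index
      rw [Nat.card_congr (Subgroup.subgroupOfEquivOfLe hVS).toEquiv, hV8, hS16] at this
      omega
    have hor : ∀ s ∈ S, s ∈ V ∨ x2 * s ∈ V := by
      intro s hs
      by_cases hsV : s ∈ V
      · exact Or.inl hsV
      · right
        have := (Subgroup.mul_mem_iff_of_index_two hidx (a := (⟨x2, hz4⟩ : S)) (b := ⟨s, hs⟩)).2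
          ⟨fun h' => absurd h' hx2V, fun h' => absurd h' hsV⟩
        exact this
    let p := QuotientGroup.mk' V
    have hcentV : ∀ q ∈ Q, ∀ y, q⁻¹ * (y * q * y⁻¹) ∈ V := by
      intro q hq y
      have hinv : ∀ y, ∀ t ∈ ({p q, p (q * x2)} : Set (Y ⧸ V)), p y * t * (p y)⁻¹ ∈ ({p q, p (q * x2)} : Set (Y ⧸ V)) := by
        intro y t ht
        obtain ⟨a, ha, rfl⟩ : ∃ a, (a = 1 ∨ a = x2) ∧ t = p (q * a) := by
          rcases ht with rfl | rfl
          exacts [⟨1, Or.inl rfl, by rw [mul_one]⟩, ⟨x2, Or.inr rfl, rfl⟩]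
        have hs := hcent q hq y
        have e : p y * p (q * a) * (p y)⁻¹ = p (q * (q⁻¹ * (y * q * y⁻¹) * a)) := by
          rw [← map_inv, ← map_mul, ← map_mul]
          congr 1
          rw [show y * (q * a) * y⁻¹ = (y * q * y⁻¹) * (y * a * y⁻¹) by group]
          rcases ha with rfl | rfl
          · group
          · rw [hx2fix]; group
        rw [e]
        have hsa : q⁻¹ * (y * q * y⁻¹) * a ∈ S := S.mul_mem hs (by
          rcases ha with rfl | rfl
          exacts [S.one_mem, hz4])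
        generalize q⁻¹ * (y * q * y⁻¹) * a = s at hsa
        rcases hor s hsa with h1 | h1
        · left
          exact (QuotientGroup.eq.2 (by rwa [inv_mul_cancel_left] : q⁻¹ * (q * s) ∈ V)).symm
        · right
          refine (QuotientGroup.eq.2 ?_).symm
          rw [mul_inv_rev, mul_assoc, inv_mul_cancel_left, inv_eq_of_mul_eq_one_right hx22]
          exact h1
      have hfix := h.small_image V {p q, p (q * x2)}
        (lt_of_le_of_lt (Set.ncard_insert_le _ _) (by rw [Set.ncard_singleton]; norm_num))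
        (by
          intro a ha t ht
          obtain ⟨b, hb, rfl⟩ : ∃ b ∈ Q, t = p b := by
            rcases ht with rfl | rfl
            exacts [⟨q, hq, rfl⟩, ⟨q * x2, Q.mul_mem hq (hSQ hz4), rfl⟩]
          show p a * p b * (p a)⁻¹ = p b
          rw [← map_inv, ← map_mul, ← map_mul, hQab a ha b hb, mul_inv_cancel_right])
        hinv y (p q) (Or.inl rfl)
      have h' : p (y * q * y⁻¹) = p q := by
        rw [map_mul, map_mul, map_inv]; exact hfix
      exact QuotientGroup.eq.1 h'.symm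
    have hsq := h.perfect_sq hm hY0 hperf V (hVS.trans hSQ) hcentV
    refine witness_false h C hC hS2 hSQ hQab le_rfl (hZ2S.trans hSQ) hZ2c (fun u hu _ => hu) hY0
      (fun q hq hqY => ?_) hxQ hx2Z (fun y => by rw [hxfix, inv_mul_cancel]; exact Z2.one_mem)
      (fun s hs hh => hz2 ?_)
    · obtain ⟨i, hi'⟩ := hgen q hq
      have hqq := hsq q hq hqY
      have hq2 : q * q = z ^ i.val * z ^ i.val := by
        have e : q = z ^ i.val * ((z ^ i.val)⁻¹ * q) := (mul_inv_cancel_left _ _).symm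
        generalize (z ^ i.val)⁻¹ * q = s at hi' e
        rw [e, show z ^ i.val * s * (z ^ i.val * s) = z ^ i.val * (s * z ^ i.val) * s by group,
          hQab s (hSQ hi') _ (Q.pow_mem hz _),
          show z ^ i.val * (z ^ i.val * s) * s = z ^ i.val * z ^ i.val * (s * s) by group, hS2 s hi', mul_one]
      rw [hq2] at hqq
      rcases hi i (hVS hqq) with rfl | rfl
      · refine ⟨q, by simpa using hi', by rw [inv_mul_cancel]; exact Z2.one_mem⟩
      · exact absurd (show x2 ∈ V by simpa [hx2def, hxdef, sq] using hqq) hx2V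
    · simpa using S.mul_mem hs (hZ2S hh)
  · have hz'x : z' = x2 := by
      by_contra hne
      have hv : x2 * z' ≠ 1 := fun h1 => hne (by
        rw [mul_eq_one_iff_inv_eq, inv_eq_of_mul_eq_one_right hx22] at h1; exact h1.symm)
      obtain ⟨y, hy⟩ := htrans x2 hz4 (x2 * z') (S.mul_mem hz4 hz'S) hx1 (Ne.symm hne) hv
        (fun h1 => hx1 (right_eq_mul.1 h1.symm))
      rw [hx2fix] at hy
      exact hz'1 (left_eq_mul.1 hy)
    subst hz'x
    obtain ⟨r, hr⟩ := C.lift h hC gAut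
    set e := r * r with hedef
    have hEc : ∀ m ∈ S, C.c (e * m * e⁻¹) = eFun (C.c m) := fun m hm => by
      rw [show e * m * e⁻¹ = r * (r * m * r⁻¹) * r⁻¹ by rw [hedef]; group,
        hr _ (hSn.conj_mem m hm r), hr m hm, gAut_sq]
    have hmv : ∀ s ∈ S, C.c s = e1 → e * s * e⁻¹ ≠ s := by
      intro s hs hsc he
      set δ := s⁻¹ * (r * s * r⁻¹) with hδdef
      have hrs := hSn.conj_mem s hs r
      have hδS : δ ∈ S := S.mul_mem (S.inv_mem hs) hrs
      have hδc : C.c δ = e2 := by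
        rw [hδdef, C.mul (S.inv_mem hs) hrs, C.inv hs, hr s hs, hsc]; decide
      have hδr : r * δ * r⁻¹ = δ := by
        calc r * δ * r⁻¹ = (r * s * r⁻¹)⁻¹ * (e * s * e⁻¹) := by rw [hδdef, hedef]; group
          _ = δ⁻¹ := by rw [he, hδdef]; group
          _ = δ := inv_eq_of_mul_eq_one_right (hS2 δ hδS)
      obtain ⟨t, ht⟩ := C.lift h hC threeAut
      have hδt : t * δ * t⁻¹ = δ := by
        have hmem := (C.eq_iff (hSn.conj_mem δ hδS t) hδS).1 (by rw [ht δ hδS, hδc]; decide)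
        rcases hmemZ2 _ hmem with h1 | h1
        · exact (inv_mul_eq_one.1 h1).symm
        · exfalso
          have hc : t * δ * t⁻¹ = δ * x2 := by rw [← h1, mul_inv_cancel_left]
          have h3 : t * t * t ∈ Q := C.mem_of_trivial h hC fun n hn => by
            have h2 := hSn.conj_mem n hn t
            rw [show t * t * t * n * (t * t * t)⁻¹ = t * (t * (t * n * t⁻¹) * t⁻¹) * t⁻¹ by group,
              ht _ (hSn.conj_mem _ h2 t), ht _ h2, ht n hn, threeAut_three]
          have h4 := hQab _ h3 δ (hSQ hδS)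
          have h5 : t * t * t * δ * (t * t * t)⁻¹ = δ * x2 := by
            rw [show t * t * t * δ * (t * t * t)⁻¹ = t * (t * (t * δ * t⁻¹) * t⁻¹) * t⁻¹ by group, hc,
              show t * (δ * x2) * t⁻¹ = (t * δ * t⁻¹) * (t * x2 * t⁻¹) by group, hc, hx2fix,
              mul_assoc δ, hx22, mul_one, hc]
          rw [h4, mul_inv_cancel_right] at h5
          exact hx1 (left_eq_mul.1 h5)
      have hδ1 : δ ≠ 1 := fun h1 => absurd (hδc.symm.trans (h1 ▸ C.one)) (by decide)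
      have hδx : δ ≠ x2 := fun h1 => absurd (hδc.symm.trans ((C.eq_zero hδS).2 (h1 ▸ hx2Z))) (by decide)
      obtain ⟨y, hy⟩ := htrans δ hδS (δ * x2) (S.mul_mem hδS hz4) hδ1 hδx
        (fun h1 => hδx (by rw [mul_eq_one_iff_eq_inv, inv_eq_of_mul_eq_one_right hx22] at h1; exact h1))
        (fun h1 => hδ1 (right_eq_mul.1 h1.symm))
      let σ := C.aut hC.mnormal hC.knormal y
      have hσ2 : σ e2 = e2 := by
        rw [← hδc, C.aut_c _ _ y hδS, hy, C.mul hδS hz4, (C.eq_zero hz4).2 hx2Z, add_zero]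
      have hσne : ∀ a b : V3, a ≠ b → σ a ≠ σ b := fun a b hab h' => hab (σ.injective h')
      obtain ⟨w, hw0, hw1⟩ := stab_gen (σ e0) (σ e1)
        (fun h' => hσne e0 0 (by decide) (h'.trans (map_zero σ).symm))
        (fun h' => hσne e1 0 (by decide) (h'.trans (map_zero σ).symm))
        (fun h' => hσne e0 e2 (by decide) (h'.trans hσ2.symm))
        (fun h' => hσne e1 e2 (by decide) (h'.trans hσ2.symm))
        (hσne e0 e1 (by decide))
        (fun h' => hσne e0 (e1 + e2) (by decide) (h'.trans (by rw [map_add, hσ2])))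
      have hgen : ∀ v, σ v = genFun w v := by
        intro v
        have key : ∀ v : V3, v = 0 ∨ v = e0 ∨ v = e1 ∨ v = e2 ∨ v = e0 + e1 ∨ v = e0 + e2 ∨ v = e1 + e2 ∨
            v = e0 + e1 + e2 := by decide
        have hg0 : genFun w 0 = 0 := by
          have := genFun_add w 0 0
          rw [add_zero] at this
          exact left_eq_add.1 this
        rcases key v with rfl | rfl | rfl | rfl | rfl | rfl | rfl | rfl <;>
          simp only [map_add, map_zero, genFun_add, genFun_e2, hσ2, hg0, ← hw0, ← hw1]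
      set g := r ^ w.1.val * (t ^ w.2.1.val * (r ^ w.2.2.1.val * t ^ w.2.2.2.val)) with hgdef
      have hgc : ∀ m ∈ S, C.c (g * m * g⁻¹) = genFun w (C.c m) := by
        intro m hm
        have c1 := hSn.conj_mem m hm (t ^ w.2.2.2.val)
        have c2 := hSn.conj_mem _ c1 (r ^ w.2.2.1.val)
        have c3 := hSn.conj_mem _ c2 (t ^ w.2.1.val)
        rw [hgdef]
        simp only [mul_inv_rev, mul_assoc] at c1 c2 c3 ⊢
        rw [show r ^ w.1.val * (t ^ w.2.1.val * (r ^ w.2.2.1.val * (t ^ w.2.2.2.val * (m * ((t ^ w.2.2.2.val)⁻¹ *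
            ((r ^ w.2.2.1.val)⁻¹ * ((t ^ w.2.1.val)⁻¹ * (r ^ w.1.val)⁻¹))))))) =
          r ^ w.1.val * ((t ^ w.2.1.val * ((r ^ w.2.2.1.val * ((t ^ w.2.2.2.val * m * (t ^ w.2.2.2.val)⁻¹)) *
            (r ^ w.2.2.1.val)⁻¹)) * (t ^ w.2.1.val)⁻¹)) * (r ^ w.1.val)⁻¹ by group]
        rw [C.pow_c hC _ hr _ (hSn.conj_mem _ (hSn.conj_mem _ (hSn.conj_mem m hm _) _) _),
          C.pow_c hC _ ht _ (hSn.conj_mem _ (hSn.conj_mem m hm _) _),
          C.pow_c hC _ hr _ (hSn.conj_mem m hm _), C.pow_c hC _ ht _ hm]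
        rfl
      have hgq : g⁻¹ * y ∈ Q := C.mem_of_trivial h hC fun m hm => by
        have hmem : g⁻¹ * y * m * (g⁻¹ * y)⁻¹ ∈ S := hSn.conj_mem m hm _
        apply (C.aut hC.mnormal hC.knormal g).injective
        rw [C.aut_c _ _ g hmem, C.aut_c _ _ g hm,
          show g * (g⁻¹ * y * m * (g⁻¹ * y)⁻¹) * g⁻¹ = y * m * y⁻¹ by group, hgc m hm,
          ← C.aut_c hC.mnormal hC.knormal y hm]
        exact hgen _
      have hcz : ∀ k ∈ Subgroup.centralizer ({δ} : Set Y), k * δ * k⁻¹ = δ := fun k hk => by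
        rw [Subgroup.mem_centralizer_singleton_iff.1 hk, mul_inv_cancel_right]
      have hr' : r ∈ Subgroup.centralizer ({δ} : Set Y) :=
        Subgroup.mem_centralizer_singleton_iff.2 (mul_inv_eq_iff_eq_mul.1 hδr)
      have ht' : t ∈ Subgroup.centralizer ({δ} : Set Y) :=
        Subgroup.mem_centralizer_singleton_iff.2 (mul_inv_eq_iff_eq_mul.1 hδt)
      have hg' : g ∈ Subgroup.centralizer ({δ} : Set Y) :=
        mul_mem (pow_mem hr' _) (mul_mem (pow_mem ht' _) (mul_mem (pow_mem hr' _) (pow_mem ht' _)))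
      have hq' : g⁻¹ * y ∈ Subgroup.centralizer ({δ} : Set Y) :=
        Subgroup.mem_centralizer_singleton_iff.2 (hQab _ hgq δ (hSQ hδS))
      have := hcz _ (by simpa using mul_mem hg' hq' : y ∈ Subgroup.centralizer ({δ} : Set Y))
      rw [hy] at this
      exact hx1 (mul_eq_left.1 this)
    have he4 : e * e ∈ Q := C.mem_of_trivial h hC fun m hm => by
      rw [show e * e * m * (e * e)⁻¹ = e * (e * m * e⁻¹) * e⁻¹ by group,
        hEc _ (hSn.conj_mem m hm e), hEc m hm, eFun_eFun]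
    have heQ : e ∉ Q := fun hh => by
      obtain ⟨m, hm, hmc⟩ := C.surj e0
      have h1 := C.triv_c hC hh hm
      rw [hEc m hm, hmc] at h1
      exact absurd h1 (by decide)
    set δe := z⁻¹ * (e * z * e⁻¹) with hδedef
    have hδeS : δe ∈ S := hcent z hz e
    have hδefix : e * δe * e⁻¹ = δe := by
      calc e * δe * e⁻¹ = (e * z * e⁻¹)⁻¹ * ((e * e) * z * (e * e)⁻¹) := by rw [hδedef]; group
        _ = δe⁻¹ := by rw [hQab _ he4 z hz, mul_inv_cancel_right, hδedef]; group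
        _ = δe := inv_eq_of_mul_eq_one_right (hS2 δe hδeS)
    have hδec : (C.c δe).1 = 0 ∧ (C.c δe).2.1 = 0 := by
      have h1 := hEc δe hδeS
      rw [hδefix] at h1
      have k1 : ∀ v : V3, v = eFun v → v.1 = 0 := by decide
      refine ⟨k1 _ h1, ?_⟩
      by_contra hb
      obtain ⟨p, hp, hpc⟩ := C.surj ((C.c δe).2.2, 0, 0)
      set a := p⁻¹ * (e * p * e⁻¹) with hadef
      have hep := hSn.conj_mem p hp e
      have haS : a ∈ S := S.mul_mem (S.inv_mem hp) hep
      have hafix : e * a * e⁻¹ = a := by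
        calc e * a * e⁻¹ = (e * p * e⁻¹)⁻¹ * ((e * e) * p * (e * e)⁻¹) := by rw [hadef]; group
          _ = a⁻¹ := by rw [hQab _ he4 p (hSQ hp), mul_inv_cancel_right, hadef]; group
          _ = a := inv_eq_of_mul_eq_one_right (hS2 a haS)
      refine hmv (δe * a) (S.mul_mem hδeS haS) ?_ ?_
      · rw [C.mul hδeS haS, hadef, C.mul (S.inv_mem hp) hep, C.inv hp, hEc p hp, hpc]
        have k2 : ∀ v : V3, v.1 = 0 → v.2.1 ≠ 0 → v + ((v.2.2, 0, 0) + eFun (v.2.2, 0, 0)) = e1 := by decide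
        exact k2 _ (k1 _ h1) hb
      · rw [show e * (δe * a) * e⁻¹ = (e * δe * e⁻¹) * (e * a * e⁻¹) by group, hδefix, hafix]
    obtain ⟨s1, hs1, hs1c⟩ := C.surj ((C.c δe).2.2, 0, 0)
    set z1 := z * s1 with hz1def
    have hz1 : z1 ∈ Q := Q.mul_mem hz (hSQ hs1)
    haveI := hZ2n
    let p2 := QuotientGroup.mk' Z2
    let β : V3 → Y ⧸ Z2 := fun v => p2 (z1 * C.sec v)
    have hβs : ∀ s ∈ S, p2 (z1 * s) = β (C.c s) := by
      intro s hs
      refine QuotientGroup.eq.2 ?_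
      rw [show (z1 * s)⁻¹ * (z1 * C.sec (C.c s)) = s⁻¹ * C.sec (C.c s) by group]
      exact (C.eq_iff (C.sec_mem _) hs).1 (C.c_sec _)
    have hβi : Function.Injective β := by
      intro v w hvw
      have := QuotientGroup.eq.1 hvw
      rw [show (z1 * C.sec v)⁻¹ * (z1 * C.sec w) = (C.sec v)⁻¹ * C.sec w by group] at this
      have := (C.eq_iff (C.sec_mem w) (C.sec_mem v)).2 this
      simpa using this.symm
    have hinv : ∀ y, ∀ t ∈ Set.range β, ((conjPerm (Y ⧸ Z2)).comp p2) y t ∈ Set.range β := by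
      rintro y _ ⟨v, rfl⟩
      have hd := hcent z1 hz1 y
      have hc := hSn.conj_mem _ (C.sec_mem v) y
      refine ⟨_, (hβs _ (S.mul_mem hd hc)).symm.trans ?_⟩
      show p2 _ = p2 y * p2 (z1 * C.sec v) * (p2 y)⁻¹
      rw [← map_inv, ← map_mul, ← map_mul]
      congr 1; group
    have hδ1 : z1⁻¹ * (e * z1 * e⁻¹) ∈ Z2 := by
      have he' := hSn.conj_mem s1 hs1 e
      have e3 : z1⁻¹ * (e * z1 * e⁻¹) = s1⁻¹ * δe * (e * s1 * e⁻¹) := by rw [hz1def, hδedef]; group
      rw [e3, ← C.eq_zero (S.mul_mem (S.mul_mem (S.inv_mem hs1) hδeS) he'),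
        C.mul (S.mul_mem (S.inv_mem hs1) hδeS) he', C.mul (S.inv_mem hs1) hδeS, C.inv hs1, hEc s1 hs1, hs1c]
      have key : ∀ v : V3, v.1 = 0 → v.2.1 = 0 → (v.2.2, 0, 0) + v + eFun (v.2.2, 0, 0) = 0 := by decide
      exact key _ hδec.1 hδec.2
    obtain ⟨⟨b, v, rfl⟩, hbfix⟩ := h.eight_fixed (setHom ((conjPerm (Y ⧸ Z2)).comp p2) (Set.range β) hinv)
      (fun q hq => Equiv.ext fun t => by
        obtain ⟨_, v, rfl⟩ := t
        refine Subtype.ext ?_
        show p2 q * p2 (z1 * C.sec v) * (p2 q)⁻¹ = p2 (z1 * C.sec v)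
        rw [← map_inv, ← map_mul, ← map_mul, hQab q hq _ (Q.mul_mem hz1 (hSQ (C.sec_mem v))), mul_inv_cancel_right])
      (by rw [Nat.card_coe_set_eq, Set.ncard_range_of_injective hβi]; simp [Nat.card_prod])
      heQ he4 (a := ⟨p2 z1, C.c 1, by rw [← hβs 1 S.one_mem, mul_one]⟩)
      (Subtype.ext (by
        show p2 e * p2 z1 * (p2 e)⁻¹ = p2 z1
        rw [← map_inv, ← map_mul, ← map_mul]
        exact (QuotientGroup.eq.2 hδ1).symm))
    set z2 := z1 * C.sec v with hz2def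
    have hz2Q : z2 ∈ Q := Q.mul_mem hz1 (hSQ (C.sec_mem v))
    have hz2fix : ∀ y, z2⁻¹ * (y * z2 * y⁻¹) ∈ Z2 := by
      intro y
      refine QuotientGroup.eq.1 (Eq.symm ?_)
      show p2 (y * z2 * y⁻¹) = p2 z2
      rw [map_mul, map_mul, map_inv]
      exact congrArg Subtype.val (hbfix y)
    have hz22 : z2 * z2 = x := by
      rw [hz2def, hz1def, mul_assoc z s1]
      exact hzs _ (S.mul_mem hs1 (C.sec_mem v))
    let Z0 := Subgroup.zpowers x
    have hsqS := h.perfect_sq hm hY0 hperf S hSQ hcent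
    refine witness_false h C hC hS2 hSQ hQab (Z0 := Z0) ?_ (Subgroup.zpowers_le.2 hxQ) ?_ ?_ hY0
      (fun q hq hqY => ?_) hz2Q ?_ hz2fix ?_
    · exact Subgroup.zpowers_le.2 (Z0.mul_mem (Subgroup.mem_zpowers x) (Subgroup.mem_zpowers x))
    · intro u hu y
      obtain ⟨n, rfl⟩ := hu
      show y * x ^ n * y⁻¹ = x ^ n
      rw [← conj_zpow, hxfix]
    · intro u hu huS
      obtain ⟨n, rfl⟩ := hu
      obtain ⟨j, rfl | rfl⟩ := Int.even_or_odd' n
      · show x ^ (2 * j) ∈ Z2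
        rw [zpow_mul, zpow_two]
        exact Z2.zpow_mem hx2Z j
      · exfalso
        apply hz2
        have h1 : x ^ (2 * j) ∈ S := by rw [zpow_mul, zpow_two]; exact S.zpow_mem hz4 j
        have h2 : x ^ (2 * j + 1) ∈ S := huS
        rw [zpow_add_one] at h2
        simpa using S.mul_mem (S.inv_mem h1) h2
    · obtain ⟨i, hi'⟩ := hgen q hq
      have hqq := hsqS q hq hqY
      have e4 : q = ((z ^ i.val)⁻¹ * q) * z ^ i.val := by
        rw [hQab _ (hSQ hi') _ (Q.pow_mem hz _), mul_inv_cancel_left]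
      refine ⟨_, hi', ?_⟩
      generalize hs : (z ^ i.val)⁻¹ * q = s at hi' e4
      rw [e4, inv_mul_cancel_left]
      have hqq' : z ^ i.val * z ^ i.val ∈ S := by
        rw [e4, show s * z ^ i.val * (s * z ^ i.val) = s * (z ^ i.val * s) * z ^ i.val by group,
          hQab _ (Q.pow_mem hz _) s (hSQ hi'),
          show s * (s * z ^ i.val) * z ^ i.val = (s * s) * (z ^ i.val * z ^ i.val) by group, hS2 s hi', one_mul] at hqq
        exact hqq
      rcases hi i hqq' with rfl | rfl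
      · simpa using Z0.one_mem
      · show z ^ 2 ∈ Z0
        rw [sq]; exact Subgroup.mem_zpowers x
    · rw [hz22]; exact Subgroup.mem_zpowers x
    · intro s hs hh
      obtain ⟨n, hn⟩ := hh
      apply hz2
      have h1 : z2 = s * x ^ n := by
        have hn' : x ^ n = s⁻¹ * z2 := hn
        rw [hn', mul_inv_cancel_left]
      have h2 : x = x2 ^ n := by
        rw [← hz22, h1, show s * x ^ n * (s * x ^ n) = s * (x ^ n * s) * x ^ n by group,
          hQab _ (Q.zpow_mem hxQ n) s (hSQ hs),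
          show s * (s * x ^ n) * x ^ n = (s * s) * (x ^ n * x ^ n) by group, hS2 s hs, one_mul, hx2def,
          (Commute.refl x).mul_zpow]
      rw [h2]
      exact S.zpow_mem hz4 n

end Cfsg.Agent.RadLThree
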