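import Cfsg.Agent.RadLThreeTwo.Homocyclic

/-!
# Homocyclic groups of type `(4,4,4)`: frames, matrices and determinants
-/

set_option autoImplicit false
set_option linter.all false

namespace Cfsg.Agent.RadLThree

open Cfsg Cfsg.Agent Matrix

universe u v w

variable {Y : Type u} [Group Y] [Finite Y] {L : Type v} [Group L] {π : Y →* L} {Q : Subgroup Y}

abbrev Z43 : Type := Fin 3 → ZMod 4

def red2 (x : ZMod 4) : ZMod 2 := ZMod.castHom (show (2 : ℕ) ∣ 4 by norm_num) (ZMod 2) x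

def red (v : Z43) : V3 := (red2 (v 0), red2 (v 1), red2 (v 2))

theorem red_two : ∀ x : ZMod 4, red2 x = 0 → ∃ y, x = y + y := by decide

theorem red2_zero_of_double : ∀ y : ZMod 4, red2 y = 0 → y + y = 0 := by decide

/-- A frame of an abelian group of type `(4,4,4)`. -/
structure Frame {M K : Subgroup Y} (C : Coord M K) where
  Φ : Z43 → Y
  mem : ∀ v, Φ v ∈ M
  add : ∀ v w, Φ (v + w) = Φ v * Φ w
  surj : ∀ m ∈ M, ∃ v, Φ v = m
  inj : Function.Injective Φ
  red : ∀ v, C.c (Φ v) = red v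

theorem Frame.zero {M K : Subgroup Y} {C : Coord M K} (F : Frame C) : F.Φ 0 = 1 := by
  have := F.add 0 0
  rw [add_zero] at this
  exact left_eq_mul.1 this

theorem Frame.neg {M K : Subgroup Y} {C : Coord M K} (F : Frame C) (v : Z43) : F.Φ (-v) = (F.Φ v)⁻¹ :=
  eq_inv_of_mul_eq_one_left (by rw [← F.add, neg_add_cancel, F.zero])

/-- Lifts of a basis form a frame. -/
theorem exists_frame {M K : Subgroup Y} (C : Coord M K) (D : Coord K ⊥) (hKM : K ≤ M)
    (hcomm : ∀ m ∈ M, ∀ n ∈ M, m * n = n * m) (hc : ∀ m ∈ M, C.c m = D.c (m * m))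
    (hsq : ∀ m ∈ M, m * m ∈ K) (hK1 : ∀ k ∈ K, k * k = 1) (hcard : Nat.card M = 64)
    {p q a : Y} (hp : p ∈ M) (hq : q ∈ M) (ha : a ∈ M) (hpc : C.c p = e0) (hqc : C.c q = e1)
    (hac : C.c a = e2) :
    ∃ F : Frame C, F.Φ ![1, 0, 0] = p ∧ F.Φ ![0, 1, 0] = q ∧ F.Φ ![0, 0, 1] = a := by
  classical
  have h4 : ∀ m ∈ M, m ^ 4 = 1 := fun m hm => by
    rw [show 4 = 2 * 2 from rfl, pow_mul, sq, sq]
    exact hK1 _ (hsq m hm)
  let Φ : Z43 → Y := fun v => p ^ (v 0).val * q ^ (v 1).val * a ^ (v 2).val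
  have hmem : ∀ v, Φ v ∈ M := fun v => M.mul_mem (M.mul_mem (M.pow_mem hp _) (M.pow_mem hq _)) (M.pow_mem ha _)
  have hval : ∀ {m : Y}, m ∈ M → ∀ x y : ZMod 4, m ^ (x + y).val = m ^ x.val * m ^ y.val := by
    intro m hm x y
    rw [ZMod.val_add, ← pow_add]
    exact (pow_eq_pow_mod _ (h4 m hm)).symm
  have hadd : ∀ v w, Φ (v + w) = Φ v * Φ w := by
    intro v w
    show p ^ ((v + w) 0).val * q ^ ((v + w) 1).val * a ^ ((v + w) 2).val = _
    rw [Pi.add_apply, Pi.add_apply, Pi.add_apply, hval hp, hval hq, hval ha]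
    have c1 := hcomm _ (M.pow_mem hp (w 0).val) _ (M.pow_mem hq (v 1).val)
    have c2 := hcomm _ (M.mul_mem (M.pow_mem hp (w 0).val) (M.pow_mem hq (w 1).val)) _
      (M.pow_mem ha (v 2).val)
    show _ = p ^ (v 0).val * q ^ (v 1).val * a ^ (v 2).val * (p ^ (w 0).val * q ^ (w 1).val * a ^ (w 2).val)
    calc p ^ (v 0).val * p ^ (w 0).val * (q ^ (v 1).val * q ^ (w 1).val) * (a ^ (v 2).val * a ^ (w 2).val)
        = p ^ (v 0).val * (p ^ (w 0).val * q ^ (v 1).val) * q ^ (w 1).val * a ^ (v 2).val * a ^ (w 2).val := by group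
      _ = p ^ (v 0).val * q ^ (v 1).val * ((p ^ (w 0).val * q ^ (w 1).val) * a ^ (v 2).val) * a ^ (w 2).val := by
          rw [c1]; group
      _ = _ := by rw [c2]; group
  have hred : ∀ v, C.c (Φ v) = red v := by
    intro v
    have hpow : ∀ {m : Y}, m ∈ M → ∀ n : ℕ, C.c (m ^ n) = n • C.c m := by
      intro m hm n
      induction n with
      | zero => rw [pow_zero, C.one, zero_nsmul]
      | succ n ih => rw [pow_succ, C.mul (M.pow_mem hm n) hm, ih, succ_nsmul]
    show C.c (p ^ (v 0).val * q ^ (v 1).val * a ^ (v 2).val) = _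
    rw [C.mul (M.mul_mem (M.pow_mem hp _) (M.pow_mem hq _)) (M.pow_mem ha _),
      C.mul (M.pow_mem hp _) (M.pow_mem hq _), hpow hp, hpow hq, hpow ha, hpc, hqc, hac]
    have key : ∀ x y z : ZMod 4, x.val • e0 + y.val • e1 + z.val • e2 = (red2 x, red2 y, red2 z) := by
      decide
    exact key _ _ _
  have h0 : Φ 0 = 1 := by
    have := hadd 0 0
    rw [add_zero] at this
    exact left_eq_mul.1 this
  have hker : ∀ v, Φ v = 1 → v = 0 := by
    intro v hv
    have h1 := hred v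
    rw [hv, C.one] at h1
    simp only [red, Prod.ext_iff, Prod.fst_zero, Prod.snd_zero] at h1
    obtain ⟨y0, hy0⟩ := red_two _ h1.1.symm
    obtain ⟨y1, hy1⟩ := red_two _ h1.2.1.symm
    obtain ⟨y2, hy2⟩ := red_two _ h1.2.2.symm
    let w : Z43 := ![y0, y1, y2]
    have hvw : v = w + w := by funext i; fin_cases i <;> simpa [w]
    have h2 : C.c (Φ w) = 0 := by
      rw [hc _ (hmem w), ← hadd, ← hvw, hv, D.one]
    rw [hred] at h2
    simp only [red, Prod.ext_iff, Prod.fst_zero, Prod.snd_zero] at h2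
    rw [hvw]
    funext i
    fin_cases i
    · exact red2_zero_of_double _ h2.1
    · exact red2_zero_of_double _ h2.2.1
    · exact red2_zero_of_double _ h2.2.2
  have hinj : Function.Injective Φ := by
    intro v w hvw
    rw [← sub_eq_zero]
    apply hker
    have := hadd (v - w) w
    rw [sub_add_cancel, hvw] at this
    exact right_eq_mul.1 this
  have hbij : Function.Bijective fun v => (⟨Φ v, hmem v⟩ : M) :=
    Function.Injective.bijective_of_nat_card_le (fun v w hvw => hinj (congrArg Subtype.val hvw))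
      (by rw [hcard, Nat.card_eq_fintype_card, Fintype.card_fun, ZMod.card, Fintype.card_fin]; norm_num)
  refine ⟨⟨Φ, hmem, hadd, fun m hm => ?_, hinj, hred⟩, ?_, ?_, ?_⟩
  · obtain ⟨v, hv⟩ := hbij.2 ⟨m, hm⟩
    exact ⟨v, congrArg Subtype.val hv⟩
  all_goals simp [Φ, show (1 : ZMod 4).val = 1 from rfl]

/-- The matrix representation on a frame. -/
theorem Frame.exists_matrix {M K : Subgroup Y} {C : Coord M K} (F : Frame C) (hMn : M.Normal) :
    ∃ ρ : Y →* Matrix (Fin 3) (Fin 3) (ZMod 4), ∀ y v, y * F.Φ v * y⁻¹ = F.Φ (ρ y *ᵥ v) := by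
  classical
  let inv : Y → Z43 → Z43 := fun y v => (F.surj _ (hMn.conj_mem _ (F.mem v) y)).choose
  have hinv : ∀ y v, F.Φ (inv y v) = y * F.Φ v * y⁻¹ := fun y v =>
    (F.surj _ (hMn.conj_mem _ (F.mem v) y)).choose_spec
  let f : Y → (Z43 →+ Z43) := fun y => AddMonoidHom.mk' (inv y) fun v w => F.inj (by
    rw [hinv, F.add, F.add, hinv, hinv]; group)
  let lin : Y → (Z43 →ₗ[ZMod 4] Z43) := fun y => (f y).toZModLinearMap 4
  have hlin : ∀ y v, F.Φ (lin y v) = y * F.Φ v * y⁻¹ := hinv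
  refine ⟨{ toFun := fun y => LinearMap.toMatrix' (lin y), map_one' := ?_, map_mul' := fun x y => ?_ },
    fun y v => ?_⟩
  · rw [← LinearMap.toMatrix'_id]
    congr 1
    refine LinearMap.ext fun v => F.inj ?_
    rw [hlin, LinearMap.id_apply]; group
  · rw [← LinearMap.toMatrix'_comp]
    congr 1
    refine LinearMap.ext fun v => F.inj ?_
    rw [LinearMap.comp_apply, hlin, hlin, hlin]; group
  · show _ = F.Φ (LinearMap.toMatrix' (lin y) *ᵥ v)
    rw [LinearMap.toMatrix'_mulVec, hlin]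

noncomputable def detUnit (ρ : Y →* Matrix (Fin 3) (Fin 3) (ZMod 4)) : Y →* (ZMod 4)ˣ :=
  MonoidHom.toHomUnits
    ((Matrix.detMonoidHom : Matrix (Fin 3) (Fin 3) (ZMod 4) →* ZMod 4).comp ρ)

theorem detUnit_apply (ρ : Y →* Matrix (Fin 3) (Fin 3) (ZMod 4)) (y : Y) :
    ((detUnit ρ y : (ZMod 4)ˣ) : ZMod 4) = (ρ y).det := rfl

/-- Elements acting by inversion have determinant `-1`. -/
theorem det_inversion {M K : Subgroup Y} {C : Coord M K} (F : Frame C)
    {ρ : Y →* Matrix (Fin 3) (Fin 3) (ZMod 4)} (hρ : ∀ y v, y * F.Φ v * y⁻¹ = F.Φ (ρ y *ᵥ v))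
    {z : Y} (hz : ∀ m ∈ M, z * m * z⁻¹ = m⁻¹) : (ρ z).det = -1 := by
  have : ρ z = -1 := by
    refine Matrix.ext_iff_mulVec.2 fun v => F.inj ?_
    rw [← hρ, hz _ (F.mem v), Matrix.neg_mulVec, Matrix.one_mulVec, F.neg]
  rw [this, Matrix.det_neg, Matrix.det_one]
  decide

end Cfsg.Agent.RadLThree
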