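import Cfsg.Agent.RadLThreeTwo.Quad

/-!
# Homocyclic radicals of exponent four are impossible
-/

set_option autoImplicit false
set_option linter.all false

namespace Cfsg.Agent.RadLThree

open Cfsg Cfsg.Agent

universe u v w

variable {Y : Type u} [Group Y] [Finite Y] {L : Type v} [Group L] {π : Y →* L} {Q : Subgroup Y}

def gAut : V3 ≃+ V3 :=
  { toFun := fun w => (w.1, w.1 + w.2.1, w.2.1 + w.2.2)
    invFun := fun w => (w.1, w.1 + w.2.1, w.1 + w.2.1 + w.2.2)
    left_inv := by intro w; revert w; decide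
    right_inv := by intro w; revert w; decide
    map_add' := by intro a b; revert a b; decide }

/-- The square of `gAut`. -/
def eFun (w : V3) : V3 := (w.1, w.2.1, w.1 + w.2.2)

theorem gAut_sq : ∀ w, gAut (gAut w) = eFun w := by decide

theorem eFun_eFun : ∀ w, eFun (eFun w) = w := by decide

theorem gAut_fix : ∀ v : V3, gAut v = v → v = (0, 0, v.2.2) := by decide

/-- Coordinates given by squaring. -/
theorem rootCoord (h : Rad π Q) {M R K : Subgroup Y} (D : Coord K ⊥) (hD : Natural π Q K ⊥)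
    (hMn : M.Normal) (hRn : R.Normal) (hR : R ≤ M)
    (hcomm : ∀ m ∈ M, ∀ n ∈ M, m * n = n * m) (hsq : ∀ m ∈ M, m * m ∈ K)
    (hroot : ∀ m ∈ M, m * m = 1 ↔ m ∈ R) (hcard : Nat.card M = 8 * Nat.card R) :
    ∃ C : Coord M R, (∀ m ∈ M, C.c m = D.c (m * m)) ∧ Natural π Q M R := by
  classical
  have hinj : ∀ {a b : Y}, a ∈ K → b ∈ K → D.c a = D.c b → a = b := by
    intro a b ha hb hab
    have := (D.eq_iff ha hb).1 hab
    rw [Subgroup.mem_bot, inv_mul_eq_one] at this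
    exact this.symm
  let ψ : M →* K := MonoidHom.mk' (fun m => ⟨m * m, hsq m m.2⟩) fun a b => Subtype.ext (by
    show (a * b : Y) * (a * b) = a * a * (b * b)
    calc (a : Y) * b * (a * b) = a * (b * a) * b := by group
      _ = a * a * (b * b) := by rw [hcomm b b.2 a a.2]; group)
  have hker : ψ.ker = R.subgroupOf M := by
    ext m
    rw [MonoidHom.mem_ker, Subgroup.mem_subgroupOf, ← hroot m m.2]
    exact Subtype.ext_iff
  have hrange : ψ.range = ⊤ := by
    refine Subgroup.eq_top_of_le_card _ ?_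
    have hm := ψ.ker.card_mul_index
    rw [Subgroup.index_ker, hker, Nat.card_congr (Subgroup.subgroupOfEquivOfLe hR).toEquiv,
      hcard, mul_comm 8] at hm
    rw [Nat.eq_of_mul_eq_mul_left Nat.card_pos hm]
    have : Nat.card K ≤ Nat.card V3 :=
      Nat.card_le_card_of_injective (fun k : K => D.c k) fun a b hab => Subtype.ext (hinj a.2 b.2 hab)
    simpa [Nat.card_prod] using this
  refine ⟨⟨fun m => D.c (m * m), fun {m n} hm hn => ?_, fun {m} hm => ?_, fun v => ?_⟩, fun m _ => rfl,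
    ⟨hMn, hRn, fun q hq m hm => ?_, ?_⟩⟩
  · rw [← D.mul (hsq m hm) (hsq n hn)]
    exact congrArg (fun k : K => D.c k) (map_mul ψ ⟨m, hm⟩ ⟨n, hn⟩)
  · rw [D.eq_zero (hsq m hm), Subgroup.mem_bot]
    exact hroot m hm
  · obtain ⟨k, hk, rfl⟩ := D.surj v
    have hmem : (⟨k, hk⟩ : K) ∈ ψ.range := hrange ▸ Subgroup.mem_top _
    obtain ⟨m, hm⟩ := hmem
    exact ⟨m, m.2, congrArg (fun k : K => D.c k) hm⟩
  · have h2 := hMn.conj_mem m hm q
    rw [← hroot _ (M.mul_mem (M.inv_mem hm) h2),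
      show m⁻¹ * (q * m * q⁻¹) * (m⁻¹ * (q * m * q⁻¹)) = m⁻¹ * ((q * m * q⁻¹) * m⁻¹) * (q * m * q⁻¹) by group,
      hcomm _ h2 _ (M.inv_mem hm),
      show m⁻¹ * (m⁻¹ * (q * m * q⁻¹)) * (q * m * q⁻¹) = (m * m)⁻¹ * (q * (m * m) * q⁻¹) by group]
    exact Subgroup.mem_bot.1 (hD.triv q hq _ (hsq m hm))
  · obtain ⟨y, k, hk, hy⟩ := hD.moves
    have hmem : (⟨k, hk⟩ : K) ∈ ψ.range := hrange ▸ Subgroup.mem_top _
    obtain ⟨m, hm⟩ := hmem
    have hm' : (m : Y) * m = k := congrArg Subtype.val hm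
    refine ⟨y, m, m.2, fun hR' => hy ?_⟩
    have h1 := (hroot _ (hR hR')).2 hR'
    have h2 := hMn.conj_mem m m.2 y
    rw [Subgroup.mem_bot, ← hm', ← h1,
      show (m : Y)⁻¹ * (y * m * y⁻¹) * ((m : Y)⁻¹ * (y * m * y⁻¹)) = (m : Y)⁻¹ * ((y * m * y⁻¹) * (m : Y)⁻¹) * (y * m * y⁻¹) by group,
      hcomm _ h2 _ (M.inv_mem m.2)]
    group

/-- No homocyclic section of exponent four inside which the involutions form a group of order 16. -/
theorem homocyclic_false (h : Rad π Q) {M R K : Subgroup Y} (D : Coord K ⊥) (hD : Natural π Q K ⊥)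
    (hMn : M.Normal) (hRn : R.Normal) (hKR : K ≤ R) (hR : R ≤ M) (hMQ : M ≤ Q)
    (hcomm : ∀ m ∈ M, ∀ n ∈ M, m * n = n * m) (hsq : ∀ m ∈ M, m * m ∈ K)
    (hroot : ∀ m ∈ M, m * m = 1 ↔ m ∈ R) (hR16 : Nat.card R = 16) (hcard : Nat.card M = 128)
    (hQR : ∀ q ∈ Q, ∀ r ∈ R, q * r * q⁻¹ = r)
    (hout : ∀ q ∈ Q, q ∉ M → q * q ∈ R ∧ q * q ∉ K)
    (hnofix : ∀ t ∈ R, t ∉ K → ∃ y, y * t * y⁻¹ ≠ t) : False := by
  classical
  obtain ⟨C, hCc, hC⟩ := rootCoord h D hD hMn hRn hR hcomm hsq hroot (by rw [hcard, hR16])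
  obtain ⟨r, hr⟩ := C.lift h hC gAut
  have hKn := hD.mnormal
  set e := r * r with he_def
  have hEc : ∀ m ∈ M, C.c (e * m * e⁻¹) = eFun (C.c m) := fun m hm => by
    rw [show e * m * e⁻¹ = r * (r * m * r⁻¹) * r⁻¹ by rw [he_def]; group,
      hr _ (hMn.conj_mem m hm r), hr m hm, gAut_sq]
  have hr4 : e * e ∈ Q := C.mem_of_trivial h hC fun m hm => by
    rw [show e * e * m * (e * e)⁻¹ = e * (e * m * e⁻¹) * e⁻¹ by group,
      hEc _ (hMn.conj_mem m hm e), hEc m hm, eFun_eFun]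
  have heQ : e ∉ Q := by
    intro heQ
    obtain ⟨m, hm, hmc⟩ := C.surj e0
    have h1 := C.triv_c hC heQ hm
    rw [hEc m hm, hmc] at h1
    exact absurd h1 (by decide)
  have hK8 : Nat.card K = 8 := by
    have hb : Function.Bijective (fun k : K => D.c k) := ⟨fun a b hab => Subtype.ext (by
      have := (D.eq_iff a.2 b.2).1 hab
      rw [Subgroup.mem_bot, inv_mul_eq_one] at this
      exact this.symm), fun v => by obtain ⟨k, hk, rfl⟩ := D.surj v; exact ⟨⟨k, hk⟩, rfl⟩⟩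
    rw [Nat.card_eq_of_bijective _ hb]
    simp [Nat.card_prod]
  -- `e` fixes nothing in `R \ K`
  have hnfe : ∀ t ∈ R, e * t * e⁻¹ = t → t ∈ K := by
    intro t ht hte
    by_contra htK
    let S : Set Y := (R : Set Y) \ (K : Set Y)
    have hS : ∀ y, ∀ a ∈ S, conjPerm Y y a ∈ S := fun y a ha =>
      ⟨hRn.conj_mem a ha.1 y, fun hy => ha.2 (by
        have := hKn.conj_mem _ hy y⁻¹
        simpa [mul_assoc] using this)⟩
    obtain ⟨⟨b, hb⟩, hbfix⟩ := h.eight_fixed (setHom (conjPerm Y) S hS)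
      (fun q hq => by ext a; exact hQR q hq a a.2.1)
      (by
        rw [Nat.card_coe_set_eq, Set.ncard_sdiff (fun x hx => hKR hx), ← Nat.card_coe_set_eq,
          ← Nat.card_coe_set_eq]
        show Nat.card R - Nat.card K = 8
        rw [hR16, hK8])
      heQ hr4 (a := ⟨t, ht, htK⟩) (Subtype.ext hte)
    obtain ⟨y, hy⟩ := hnofix b hb.1 hb.2
    exact hy (congrArg Subtype.val (hbfix y))
  have hw : e * e ∈ M := by
    by_contra hn
    obtain ⟨h1, h2⟩ := hout _ hr4 hn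
    apply h2
    refine hnfe _ h1 ?_
    group
  set w := e * e with hwdef
  have hwfix : C.c w = (0, 0, (C.c w).2.2) := gAut_fix _ (by
    rw [← hr w hw]; congr 1; rw [hwdef, he_def]; group)
  obtain ⟨x, hx, hxc⟩ := C.surj ((C.c w).2.2, 0, 0)
  set e' := e * x⁻¹ with he'def
  have he'Q : e' ∉ Q := fun h' => heQ (by simpa [he'def] using Q.mul_mem h' (hMQ hx))
  have hconj' : ∀ m ∈ M, e' * m * e'⁻¹ = e * m * e⁻¹ := by
    intro m hm
    rw [he'def, show e * x⁻¹ * m * (e * x⁻¹)⁻¹ = e * (x⁻¹ * m * x) * e⁻¹ by group,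
      hcomm _ (M.inv_mem hx) m hm, inv_mul_cancel_right]
  -- `N` and `R⁺`
  let N : Subgroup Y :=
    { carrier := {k | k ∈ K ∧ (D.c k).1 = 0}
      one_mem' := ⟨K.one_mem, by rw [D.one]; rfl⟩
      mul_mem' := fun {a b} ha hb => ⟨K.mul_mem ha.1 hb.1, by
        rw [D.mul ha.1 hb.1, Prod.fst_add, ha.2, hb.2, add_zero]⟩
      inv_mem' := fun {a} ha => ⟨K.inv_mem ha.1, by rw [D.inv ha.1]; exact ha.2⟩ }
  let P : Subgroup Y :=
    { carrier := {m | m ∈ M ∧ (C.c m).1 = 0}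
      one_mem' := ⟨M.one_mem, by rw [C.one]; rfl⟩
      mul_mem' := fun {a b} ha hb => ⟨M.mul_mem ha.1 hb.1, by
        rw [C.mul ha.1 hb.1, Prod.fst_add, ha.2, hb.2, add_zero]⟩
      inv_mem' := fun {a} ha => ⟨M.inv_mem ha.1, by rw [C.inv ha.1]; exact ha.2⟩ }
  have hEK : ∀ k ∈ K, D.c (e * k * e⁻¹) = eFun (D.c k) := by
    intro k hk
    obtain ⟨m, hm, hmk⟩ := C.surj (D.c k)
    have hk2 : m * m = k := by
      have h1 : D.c (m * m) = D.c k := (hCc m hm).symm.trans hmk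
      have := (D.eq_iff (hsq m hm) hk).1 h1
      rw [Subgroup.mem_bot, inv_mul_eq_one] at this
      exact this.symm
    rw [← hk2, show e * (m * m) * e⁻¹ = (e * m * e⁻¹) * (e * m * e⁻¹) by group,
      ← hCc _ (hMn.conj_mem m hm e), hEc m hm, hCc m hm]
  have toN : ∀ t ∈ R, e * t * e⁻¹ = t → t ∈ N := by
    intro t ht hte
    have hk := hnfe t ht hte
    refine ⟨hk, ?_⟩
    have h1 := hEK t hk
    rw [hte] at h1
    have key : ∀ v : V3, v = eFun v → v.1 = 0 := by decide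
    exact key _ h1
  have inR : ∀ m ∈ M, C.c m = 0 → m ∈ R := fun m hm h0 => (C.eq_zero hm).1 h0
  have hEE : ∀ m ∈ M, e * (e * m * e⁻¹) * e⁻¹ = m := by
    intro m hm
    rw [show e * (e * m * e⁻¹) * e⁻¹ = w * m * w⁻¹ by rw [hwdef]; group, hcomm w hw m hm,
      mul_inv_cancel_right]
  have hsq' : e' * e' ∈ N := by
    have hxi := M.inv_mem hx
    have hEx := hMn.conj_mem _ hxi e
    have hEq : e' * e' = (e * x⁻¹ * e⁻¹) * w * x⁻¹ := by rw [he'def, hwdef]; group
    refine toN _ (inR _ (by rw [hEq]; exact M.mul_mem (M.mul_mem hEx hw) hxi) ?_) ?_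
    · rw [hEq, C.mul (M.mul_mem hEx hw) hxi, C.mul hEx hw, hEc _ hxi, C.inv hx, hxc]
      conv_lhs => rw [hwfix]
      generalize (C.c w).2.2 = t
      revert t; decide
    · rw [hEq, show e * (e * x⁻¹ * e⁻¹ * w * x⁻¹) * e⁻¹ =
        (e * (e * x⁻¹ * e⁻¹) * e⁻¹) * (e * w * e⁻¹) * (e * x⁻¹ * e⁻¹) by group, hEE _ hxi,
        show e * w * e⁻¹ = w by rw [hwdef]; group,
        hcomm _ (M.mul_mem hxi hw) _ hEx, mul_assoc (e * x⁻¹ * e⁻¹) w x⁻¹, hcomm w hw _ hxi]
  have hPsq : ∀ m ∈ P, m * m ∈ N := fun m hm => ⟨hsq m hm.1, by rw [← hCc m hm.1]; exact hm.2⟩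
  have hPe : ∀ m ∈ P, (m * e') * (m * e') ∈ N := by
    intro m hm
    have hEm := hMn.conj_mem m hm.1 e
    rw [show m * e' * (m * e') = m * (e' * m * e'⁻¹) * (e' * e') by group, hconj' m hm.1]
    refine N.mul_mem (toN _ (inR _ (M.mul_mem hm.1 hEm) ?_) ?_) hsq'
    · rw [C.mul hm.1 hEm, hEc m hm.1]
      have key : ∀ v : V3, v.1 = 0 → v + eFun v = 0 := by decide
      exact key _ hm.2
    · rw [show e * (m * (e * m * e⁻¹)) * e⁻¹ = (e * m * e⁻¹) * (e * (e * m * e⁻¹) * e⁻¹) by group,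
        hEE m hm.1, hcomm _ hEm m hm.1]
  have hNM : ∀ n ∈ N, n ∈ M := fun n hn => hR (hKR hn.1)
  have hNP : N ≤ P := fun n hn => ⟨hNM n hn, by
    rw [hCc n (hNM n hn), (hroot n (hNM n hn)).2 (hKR hn.1), D.one]; rfl⟩
  have hNconj : ∀ n ∈ N, e' * n * e'⁻¹ ∈ N := by
    intro n hn
    rw [hconj' n (hNM n hn)]
    refine ⟨hKn.conj_mem n hn.1 e, ?_⟩
    rw [hEK n hn.1]; exact hn.2
  refine h.five ((P : Set Y) ∪ {e'}) N (fun n hn => Subgroup.subset_closure (Or.inl (hNP hn))) ?_ ?_ ?_ ?_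
  · rintro s (hs | rfl) n hn
    · rw [hcomm s hs.1 n (hNM n hn), mul_inv_cancel_right]; exact hn
    · exact hNconj n hn
  · rintro s (hs | rfl)
    · exact hPsq s hs
    · exact hsq'
  · rintro s (hs | rfl) t (ht | rfl)
    · exact hPsq _ (P.mul_mem hs ht)
    · exact hPe s hs
    · rw [show e' * t * (e' * t) = e' * ((t * e') * (t * e')) * e'⁻¹ by group]
      exact hNconj _ (hPe t ht)
    · exact N.mul_mem hsq' hsq'
  · have hN4 : Nat.card N ≤ 4 := by
      refine le_trans (Nat.card_le_card_of_injective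
        (fun n : N => (⟨D.c n, n.2.2⟩ : {v : V3 // v.1 = 0})) ?_) ?_
      · intro a b hab
        have := (D.eq_iff a.2.1 b.2.1).1 (congrArg Subtype.val hab)
        rw [Subgroup.mem_bot, inv_mul_eq_one] at this
        exact Subtype.ext this.symm
      · rw [Nat.card_eq_fintype_card]; decide
    have hP64 : 128 ≤ 2 * Nat.card P := by
      obtain ⟨a, ha, hac⟩ := C.surj e0
      have key : ∀ v : V3, v.1 ≠ 0 → (e0 + v).1 = 0 := by decide
      let g : M → P × Bool := fun m =>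
        if h0 : (C.c m).1 = 0 then (⟨m, m.2, h0⟩, true)
        else (⟨a * m, M.mul_mem ha m.2, by rw [C.mul ha m.2, hac]; exact key _ h0⟩, false)
      have hg : Function.Injective g := by
        intro m n hmn
        simp only [g] at hmn
        split_ifs at hmn with h1 h2 h2 <;> simp only [Prod.mk.injEq, Subtype.mk.injEq,
          Bool.true_eq_false, Bool.false_eq_true, and_false] at hmn
        · exact Subtype.ext hmn.1
        · exact Subtype.ext (mul_left_cancel hmn.1)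
      have := Nat.card_le_card_of_injective g hg
      rw [hcard, Nat.card_prod, Nat.card_eq_fintype_card (α := Bool), Fintype.card_bool] at this
      omega
    have hle : P ≤ Subgroup.closure ((P : Set Y) ∪ {e'}) := fun m hm => Subgroup.subset_closure (Or.inl hm)
    have hne : P ≠ Subgroup.closure ((P : Set Y) ∪ {e'}) := fun he => he'Q
      (hMQ (he.symm ▸ Subgroup.subset_closure (Or.inr rfl) : e' ∈ P).1)
    have hlt : Nat.card P < Nat.card (Subgroup.closure ((P : Set Y) ∪ {e'})) :=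
      lt_of_le_of_ne (Subgroup.card_le_of_le hle) fun he => hne (Subgroup.eq_of_le_of_card_ge hle he.ge)
    omega

end Cfsg.Agent.RadLThree
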