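import Cfsg.Agent.RadLThreeTwo.Cases

/-!
# The radical is elementary of order 8 or 16, or of type `(4,2,2,2)`
-/

set_option autoImplicit false
set_option linter.all false

namespace Cfsg.Agent.RadLThree

open Cfsg Cfsg.Agent

universe u v w

variable {Y : Type u} [Group Y] [Finite Y] {L : Type v} [Group L] {π : Y →* L} {Q : Subgroup Y}

/-- The quotient by the module has type `(4,2,2,2)`: impossible. -/
theorem case_shape (h : Rad π Q) (hm : MultBound.{u} L) (hb : Bound.{u} L (Nat.card Q)) {K : Subgroup Y}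
    [K.Normal] (hKQ : K ≤ Q) (hKc : ∀ k ∈ K, ∀ q ∈ Q, k * q = q * k) (hK1 : ∀ k ∈ K, k * k = 1)
    (halt : (Nat.card K = 2 ∧ ∀ k ∈ K, ∀ y, y * k = k * y) ∨
      (Nat.card K = 8 ∧ ∃ D : Coord K ⊥, Natural π Q K ⊥))
    (h' : Rad (QuotientGroup.lift K π (h.le_ker hKQ)) (Q.map (QuotientGroup.mk' K)))
    (hs : Shape (Q.map (QuotientGroup.mk' K))) : False := by
  classical
  set p := QuotientGroup.mk' K with hpdef
  obtain ⟨h32, hab, S, hSn, hSQ, hS16, hS1, zb, hzb, hzbS, hz2S, hz21⟩ := hs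
  haveI := hSn
  obtain ⟨z, hz, rfl⟩ := hzb
  have hcard : Nat.card Q = 32 * Nat.card K := by rw [← card_map_mk hKQ, h32]
  set M := S.comap p with hMdef
  obtain ⟨hKM, hMQ, hMc⟩ := preimage_facts hKQ hSQ
  rw [hS16] at hMc
  change Nat.card M = _ at hMc
  have hMn : M.Normal := hSn.comap p
  set x := z * z with hxdef
  have hxM : x ∈ M := by
    show p x ∈ S
    rw [hxdef, map_mul]; exact hz2S
  have hxK : x ∉ K := fun hh => hz21 (by rw [← map_mul]; exact mk_eq_one.2 hh)
  have hzM : z ∉ M := hzbS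
  have hsqM : ∀ m ∈ M, m * m ∈ K := fun m hm => mk_eq_one.1 (by rw [map_mul]; exact hS1 _ hm)
  have htriv : ∀ q ∈ Q, ∀ m ∈ Q, m⁻¹ * (q * m * q⁻¹) ∈ K := fun q hq m hm => mk_eq_mk.1 (by
    rw [map_mul, map_mul, map_inv, hab _ ⟨q, hq, rfl⟩ _ ⟨m, hm, rfl⟩, mul_inv_cancel_right])
  have hidx : (M.subgroupOf Q).index = 2 := by
    have h1 := (M.subgroupOf Q).card_mul_index
    rw [Nat.card_congr (Subgroup.subgroupOfEquivOfLe hMQ).toEquiv] at h1
    have h2 : 0 < Nat.card K := Nat.card_pos
    change Nat.card M * _ = _ at h1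
    rw [hMc, hcard] at h1
    have h3 : 16 * Nat.card K * (M.subgroupOf Q).index = 16 * Nat.card K * 2 := by rw [h1]; ring
    exact Nat.eq_of_mul_eq_mul_left (by omega) h3
  have hind : ∀ q ∈ Q, q ∈ M ∨ z⁻¹ * q ∈ M := by
    intro q hq
    by_cases hqM : q ∈ M
    · exact Or.inl hqM
    · refine Or.inr ?_
      exact (Subgroup.mul_mem_iff_of_index_two hidx (a := (⟨z⁻¹, Q.inv_mem hz⟩ : Q)) (b := ⟨q, hq⟩)).2
        ⟨fun hh => absurd (show z ∈ M by simpa using M.inv_mem (show z⁻¹ ∈ M from hh)) hzM,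
          fun hh => absurd hh hqM⟩
  have hdz : ∀ y, z⁻¹ * (y * z * y⁻¹) ∈ M := fun y =>
    (hind _ (h.normal.conj_mem z hz y)).resolve_left fun hh => hzM (by
      have := hMn.conj_mem _ hh y⁻¹
      simpa [mul_assoc] using this)
  -- `x` is fixed modulo `K`
  have hxbar : ∀ yb, yb * p x * yb⁻¹ = p x := by
    intro yb
    obtain ⟨y, rfl⟩ := QuotientGroup.mk'_surjective K yb
    have e : p y * p z * (p y)⁻¹ = p z * p (z⁻¹ * (y * z * y⁻¹)) := by
      rw [← map_inv, ← map_mul, ← map_mul, ← map_mul, mul_inv_cancel_left]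
    have hc := hab _ ⟨z, hz, rfl⟩ _ (hSQ (hdz y))
    have h1 : p (z⁻¹ * (y * z * y⁻¹)) * p (z⁻¹ * (y * z * y⁻¹)) = 1 := hS1 _ (hdz y)
    generalize p (z⁻¹ * (y * z * y⁻¹)) = d at e hc h1
    rw [hxdef, map_mul,
      show p y * (p z * p z) * (p y)⁻¹ = (p y * p z * (p y)⁻¹) * (p y * p z * (p y)⁻¹) by group, e,
      show p z * d * (p z * d) = p z * (d * p z) * d by group, ← hc,
      show p z * (p z * d) * d = p z * p z * (d * d) by group, h1, mul_one]
  have hxf : ∀ y, x⁻¹ * (y * x * y⁻¹) ∈ K := fun y => mk_eq_mk.1 (by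
    rw [map_mul _ (y * x), map_mul _ y, map_inv]
    exact (hxbar (p y)).symm)
  -- `x` is central in `Q`
  have hxc : ∀ q ∈ Q, x * q = q * x := by
    intro q hq
    have hc := htriv z hz q hq
    have e : z * q * z⁻¹ = q * (q⁻¹ * (z * q * z⁻¹)) := (mul_inv_cancel_left _ _).symm
    generalize q⁻¹ * (z * q * z⁻¹) = c at hc e
    have hcz : z * c * z⁻¹ = c := by rw [← hKc c hc z hz, mul_inv_cancel_right]
    calc x * q = (z * (z * q * z⁻¹) * z⁻¹) * x := by rw [hxdef]; group
      _ = z * (q * c) * z⁻¹ * x := by rw [e]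
      _ = (z * q * z⁻¹) * (z * c * z⁻¹) * x := by group
      _ = q * c * (z * c * z⁻¹) * x := by rw [e]
      _ = q * (c * c) * x := by rw [hcz, mul_assoc q]
      _ = q * x := by rw [hK1 c hc, mul_one]
  set Z := Subgroup.zpowers (p x) with hZdef
  have hpx2 : p x * p x = 1 := hS1 _ hxM
  have hpx1 : p x ≠ 1 := fun e => hxK (mk_eq_one.1 e)
  have hordx : orderOf (p x) = 2 := orderOf_eq_prime (by rw [sq]; exact hpx2) hpx1
  have hmemZ : ∀ a ∈ Z, a = 1 ∨ a = p x := by
    rintro _ ⟨k, rfl⟩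
    show p x ^ k = 1 ∨ p x ^ k = p x
    rw [← zpow_mod_orderOf, hordx]
    rcases Int.emod_two_eq_zero_or_one k with h0 | h0 <;> simp [h0]
  set R := Z.comap p with hRdef
  obtain ⟨hKR, hRQ, hRc⟩ := preimage_facts hKQ (show Z ≤ Q.map p from
    Subgroup.zpowers_le.2 ⟨x, hMQ hxM, rfl⟩)
  change Nat.card R = _ at hRc
  rw [Nat.card_zpowers, hordx] at hRc
  have hRM : R ≤ M := fun r hr => by
    show p r ∈ S
    rcases hmemZ _ hr with e | e <;> rw [e]
    exacts [S.one_mem, hxM]
  have hRn : R.Normal := by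
    refine Subgroup.Normal.comap ⟨fun a ha y => ?_⟩ p
    rcases hmemZ a ha with rfl | rfl
    · simp
    · rw [hxbar y]; exact ha
  have hRx : ∀ r ∈ R, r ∈ K ∨ x⁻¹ * r ∈ K := fun r hr => (hmemZ _ hr).imp mk_eq_one.1
    fun e => mk_eq_mk.1 e.symm
  have hxR : x ∈ R := Subgroup.mem_zpowers (p x)
  have hR2 : ∀ r ∈ R, ∀ q ∈ Q, r * q = q * r := by
    intro r hr q hq
    rcases hRx r hr with hk | hk
    · exact hKc r hk q hq
    · calc r * q = x * ((x⁻¹ * r) * q) := by group
        _ = (x * q) * (x⁻¹ * r) := by rw [hKc _ hk q hq]; group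
        _ = q * r := by rw [hxc q hq]; group
  obtain ⟨C⟩ := exists_coord (M := M) (K := R) hRn hRM (fun m hm => hKR (hsqM m hm)) (by omega)
  have hC : Natural π Q M R := by
    refine ⟨hMn, hRn, fun q hq m hm => hKR (htriv q hq m (hMQ hm)), ?_⟩
    by_contra hcon
    push Not at hcon
    obtain ⟨s, hs7, hne⟩ := h'.seven_ne
    refine hne (h'.act s hs7 fun q hq => ?_)
    -- each two-element coset is fixed
    have hfix : ∀ a ∈ S, s * a = a * s := by
      intro a ha
      have hinv : ∀ y, ∀ t ∈ ({a, a * p x} : Set (Y ⧸ K)), y * t * y⁻¹ ∈ ({a, a * p x} : Set (Y ⧸ K)) := by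
        intro yb t ht
        obtain ⟨y, rfl⟩ := QuotientGroup.mk'_surjective K yb
        obtain ⟨m, rfl⟩ := QuotientGroup.mk'_surjective K a
        obtain ⟨b, hb, rfl⟩ : ∃ b, (b = 1 ∨ b = p x) ∧ t = p m * b := by
          rcases ht with rfl | rfl
          exacts [⟨1, Or.inl rfl, (mul_one _).symm⟩, ⟨_, Or.inr rfl, rfl⟩]
        have hr := hmemZ _ (show p (m⁻¹ * (y * m * y⁻¹)) ∈ Z from hcon y m ha)
        have e : p y * (p m * b) * (p y)⁻¹ = p m * (p (m⁻¹ * (y * m * y⁻¹)) * b) := by
          have hb' : p y * b * (p y)⁻¹ = b := by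
            rcases hb with rfl | rfl
            exacts [by group, hxbar _]
          rw [show p y * (p m * b) * (p y)⁻¹ = (p y * p m * (p y)⁻¹) * (p y * b * (p y)⁻¹) by group, hb',
            map_mul, map_inv, map_mul, map_mul, map_inv]
          group
        rw [e]
        rcases hr with hr | hr <;> rw [hr] <;> rcases hb with rfl | rfl <;>
          simp only [Set.mem_insert_iff, Set.mem_singleton_iff, one_mul, mul_one, hpx2] <;>
          first | exact Or.inl rfl | exact Or.inr rfl
      have := h'.small_set ({a, a * p x} : Set (Y ⧸ K))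
        (fun q hq t ht => by
          have htQ : t ∈ Q.map p := by
            rcases ht with rfl | rfl
            exacts [hSQ ha, Subgroup.mul_mem _ (hSQ ha) (hSQ hxM)]
          rw [hab q hq t htQ, mul_inv_cancel_right])
        hinv (lt_of_le_of_lt (Set.ncard_insert_le _ _) (by rw [Set.ncard_singleton]; norm_num)) s a (Or.inl rfl)
      exact mul_inv_eq_iff_eq_mul.1 this
    obtain ⟨q0, hq0, rfl⟩ := hq
    have hsz : s * p z = p z * s := by
      obtain ⟨s0, rfl⟩ := QuotientGroup.mk'_surjective K s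
      have hd : (p z)⁻¹ * (p s0 * p z * (p s0)⁻¹) ∈ S := by
        rw [← map_inv, ← map_inv, ← map_mul, ← map_mul, ← map_mul]; exact hdz s0
      exact h'.seven_fix hs7 (hSQ hd) (hfix _ hd)
    rcases hind q0 hq0 with hh | hh
    · exact hfix _ hh
    · have e : p q0 = p z * p (z⁻¹ * q0) := by rw [← map_mul, mul_inv_cancel_left]
      rw [e, ← mul_assoc, hsz, mul_assoc, hfix _ hh, ← mul_assoc]
  rcases halt with ⟨hK2, hcen⟩ | ⟨hK8, D, hD⟩
  · -- the module is central
    haveI := h'.normal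
    have hmv : ∃ y, ∃ a ∈ S, y * a * y⁻¹ ≠ a := by
      obtain ⟨y, m, hm', hy⟩ := hC.moves
      exact ⟨p y, p m, hm', fun hh => hy (hKR (mk_eq_mk.1 (by rw [map_mul, map_mul, map_inv]; exact hh.symm)))⟩
    rcases sixteen h' S hS1 hS16 (fun q hq m hm => by rw [hab q hq m (hSQ hm), mul_inv_cancel_right]) hmv with
      ⟨T, hTn, hTS, hT8, ys, ms, hms, hne⟩ | ⟨zf, hzf, hzf1, hzfix, htr⟩
    · set S0 := T.comap p with hS0def
      obtain ⟨hKS, hS0Q, hS0c⟩ := preimage_facts hKQ (hTS.trans hSQ)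
      change Nat.card S0 = _ at hS0c
      rw [hT8, hK2] at hS0c
      haveI : S0.Normal := hTn.comap p
      have hS0M : S0 ≤ M := fun a ha => hTS ha
      obtain ⟨C0⟩ := exists_coord (M := S0) (K := K) inferInstance hKS (fun a ha => hsqM a (hS0M ha))
        (by rw [hS0c, hK2])
      have hC0 : Natural π Q S0 K := by
        refine ⟨inferInstance, inferInstance, fun q hq m hm => htriv q hq m (hS0Q hm), ?_⟩
        obtain ⟨y, rfl⟩ := QuotientGroup.mk'_surjective K ys
        obtain ⟨m, rfl⟩ := QuotientGroup.mk'_surjective K ms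
        exact ⟨y, m, hms, fun hh => hne (by rw [← map_inv, ← map_mul, ← map_mul]; exact (mk_eq_mk.2 hh).symm)⟩
      have hxS : x ∉ S0 := fun hh => hxK ((C0.eq_zero hh).1 (C0.eq_zero_of_fixed h hC0 hh fun y =>
        (C0.eq_iff ((inferInstance : S0.Normal).conj_mem x hh y) hh).2 (hxf y)))
      have hS01 := squares_const h C0 hKS hK1 hcen (fun a ha => hsqM a (hS0M ha))
        fun a ha b hb ha' hb' => C0.trans_mem h hC0 ha hb ha' hb'
      have hS0ab := comm_of_sq hS01
      have hidx0 : (S0.subgroupOf M).index = 2 := by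
        have h1 := (S0.subgroupOf M).card_mul_index
        rw [Nat.card_congr (Subgroup.subgroupOfEquivOfLe hS0M).toEquiv, hS0c, hMc, hK2] at h1
        omega
      have hor : ∀ m ∈ M, m ∈ S0 ∨ x⁻¹ * m ∈ S0 := by
        intro m hm'
        by_cases hmS : m ∈ S0
        · exact Or.inl hmS
        · refine Or.inr ?_
          exact (Subgroup.mul_mem_iff_of_index_two hidx0 (a := (⟨x⁻¹, M.inv_mem hxM⟩ : M)) (b := ⟨m, hm'⟩)).2
            ⟨fun hh => absurd (show x ∈ S0 by simpa using S0.inv_mem (show x⁻¹ ∈ S0 from hh)) hxS,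
              fun hh => absurd hh hmS⟩
      have hMab : ∀ a ∈ M, ∀ b ∈ S0, a * b = b * a := by
        intro a ha b hb'
        rcases hor a ha with hh | hh
        · exact hS0ab a hh b hb'
        · calc a * b = x * ((x⁻¹ * a) * b) := by group
            _ = (x * b) * (x⁻¹ * a) := by rw [hS0ab _ hh b hb']; group
            _ = b * a := by rw [hxc b (hS0Q hb')]; group
      have hx2 : x * x ≠ 1 := by
        intro h1
        have hall : ∀ m ∈ M, m * m = 1 := by
          intro m hm'
          rcases hor m hm' with hh | hh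
          · exact hS01 m hh
          · calc m * m = x * ((x⁻¹ * m) * x) * (x⁻¹ * m) := by group
              _ = x * x * ((x⁻¹ * m) * (x⁻¹ * m)) := by rw [← hxc _ (hS0Q hh)]; group
              _ = 1 := by rw [h1, hS01 _ hh, one_mul]
        have := h.card_le M hall
        omega
      have hzc := commute_of_const h C0 hC0 hK1 hcen hz fun y a ha => hMab _ (hdz y) a ha
      have hgen : ∀ q ∈ Q, ∃ i : Fin 4, (z ^ i.val)⁻¹ * q ∈ S0 := by
        intro q hq
        rcases hind q hq with hh | hh <;> rcases hor _ hh with h1 | h1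
        · exact ⟨0, by simpa using h1⟩
        · exact ⟨2, by simpa [hxdef, sq] using h1⟩
        · exact ⟨1, by simpa using h1⟩
        · exact ⟨3, by simpa [hxdef, pow_succ, mul_assoc] using h1⟩
      have hQab : ∀ a ∈ Q, ∀ b ∈ Q, a * b = b * a := by
        intro a ha b hb'
        obtain ⟨i, hi⟩ := hgen a ha
        obtain ⟨j, hj⟩ := hgen b hb'
        have ci : ∀ s ∈ S0, ∀ k : ℕ, Commute (z ^ k) s := fun s hs k => (show Commute z s from hzc s hs).pow_left k
        have hzz : Commute (z ^ i.val) (z ^ j.val) := (Commute.refl z).pow_pow _ _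
        have ea : a = z ^ i.val * ((z ^ i.val)⁻¹ * a) := (mul_inv_cancel_left _ _).symm
        have eb : b = z ^ j.val * ((z ^ j.val)⁻¹ * b) := (mul_inv_cancel_left _ _).symm
        rw [ea, eb]
        exact ((hzz.mul_right (ci _ hj _)).mul_left (((ci _ hi _).symm).mul_right (hS0ab _ hi _ hj))).eq
      refine cyclicEight_false h hm hS01 hS0c hS0Q hQab hz hxS (hKS (hsqM x hxM)) hx2 hgen ?_
      obtain ⟨y, a, ha, hy⟩ := hC0.moves
      exact ⟨y, a, ha, fun e => hy (e ▸ K.one_mem), fun e => hy (e ▸ hsqM x hxM)⟩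
    · have hzx : zf = p x := by
        by_contra hne
        have hne2 : p x * zf ≠ 1 := fun e => hne (by
          rw [mul_eq_one_iff_inv_eq, inv_eq_of_mul_eq_one_right hpx2] at e; exact e.symm)
        obtain ⟨y, hy⟩ := htr (p x) hxM (p x * zf) (S.mul_mem hxM hzf) hpx1 (Ne.symm hne) hne2
          (fun e => hpx1 (right_eq_mul.1 e.symm))
        rw [hxbar] at hy
        exact hzf1 (left_eq_mul.1 hy)
      subst hzx
      have hall := squares_const h C hRM hK1 hcen hsqM (by
        intro a ha b hb' haR hbR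
        have aux : ∀ {w : Y}, w ∉ R → p w ≠ 1 ∧ p w ≠ p x := fun {w} hw =>
          ⟨fun e => hw (hKR (mk_eq_one.1 e)), fun e => hw (by
            show p w ∈ Z
            rw [e]; exact Subgroup.mem_zpowers _)⟩
        obtain ⟨yb, hy⟩ := htr _ ha _ hb' (aux haR).1 (aux haR).2 (aux hbR).1 (aux hbR).2
        obtain ⟨y, rfl⟩ := QuotientGroup.mk'_surjective K yb
        exact ⟨y, mk_eq_mk.1 (by rw [map_mul, map_mul, map_inv]; exact hy.symm)⟩)
      have := h.card_le M hall
      omega
  · -- the module is natural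
    have hx1 : x * x = 1 := by
      have hfix : ∀ y, y * (x * x) * y⁻¹ = x * x := by
        intro y
        have hk := hxf y
        have e : y * x * y⁻¹ = x * (x⁻¹ * (y * x * y⁻¹)) := (mul_inv_cancel_left _ _).symm
        generalize x⁻¹ * (y * x * y⁻¹) = k at hk e
        rw [show y * (x * x) * y⁻¹ = (y * x * y⁻¹) * (y * x * y⁻¹) by group, e,
          show x * k * (x * k) = x * (k * x) * k by group, hKc k hk x (hMQ hxM),
          show x * (x * k) * k = x * x * (k * k) by group, hK1 k hk, mul_one]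
      have hmem := hsqM x hxM
      have h0 := D.eq_zero_of_fixed h hD hmem fun y => by rw [hfix y]
      exact Subgroup.mem_bot.1 ((D.eq_zero hmem).1 h0)
    have hR1 : ∀ r ∈ R, r * r = 1 := by
      intro r hr
      rcases hRx r hr with hk | hk
      · exact hK1 r hk
      · have e : r = x * (x⁻¹ * r) := (mul_inv_cancel_left x r).symm
        generalize x⁻¹ * r = k at hk e
        rw [e, show x * k * (x * k) = x * (k * x) * k by group, hKc k hk x (hMQ hxM),
          show x * (x * k) * k = x * x * (k * k) by group, hx1, hK1 k hk, one_mul]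
    rcases squares h C hC D hD hRM hR1 (fun r hr m hm' => hR2 r hr m (hMQ hm')) hsqM with
      h0 | ⟨hMab, hroot, -⟩
    · have := h.card_le M h0
      omega
    · refine homocyclic_false h D hD hMn hRn hKR hRM hMQ hMab hsqM
        (fun m hm' => ⟨hroot m hm', hR1 m⟩) (by omega) (by omega)
        (fun q hq r hr => by rw [← hR2 r hr q hq, mul_inv_cancel_right]) ?_
        (fun t ht htK => h.no_fixed hb (by omega) (hRQ ht) (hR1 t ht) fun h1 => htK (h1 ▸ K.one_mem))
      intro q hq hqM
      have hm' := (hind q hq).resolve_left hqM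
      have hx' : p (q * q) = p x := by
        have hc : p (z⁻¹ * q) * p z = p z * p (z⁻¹ * q) := hab _ (hSQ hm') _ ⟨z, hz, rfl⟩
        have h1 : p (z⁻¹ * q) * p (z⁻¹ * q) = 1 := hS1 _ hm'
        have e : p q = p z * p (z⁻¹ * q) := by rw [← map_mul, mul_inv_cancel_left]
        generalize p (z⁻¹ * q) = d at hc h1 e
        rw [map_mul, e, hxdef, map_mul, show p z * d * (p z * d) = p z * (d * p z) * d by group, hc,
          show p z * (p z * d) * d = p z * p z * (d * d) by group, h1, mul_one]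
      exact ⟨by show p (q * q) ∈ Z; rw [hx']; exact Subgroup.mem_zpowers _,
        fun hh => hpx1 (hx'.symm.trans (mk_eq_one.2 hh))⟩

/-- The classification of the radical, by induction on its order. -/
theorem Rad.outcome (hm : MultBound.{u} L) :
    ∀ (n : ℕ) (Y : Type u) [Group Y] [Finite Y] (π : Y →* L) (Q : Subgroup Y),
      Rad π Q → Nat.card Q = n → Outcome Q := by
  intro n
  induction n using Nat.strong_induction_on with
  | _ n ih =>
    intro Y _ _ π Q h hn
    by_cases hel : ∀ q ∈ Q, q * q = 1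
    · exact h.outcome_of_elem hel
    obtain ⟨K, hKn, hKΦ, hKQ, hKc, hK1, halt⟩ := h.exists_module hel
    haveI := hKn
    have h' := h.quot K hKQ (Or.inl hKΦ)
    have hc := card_map_mk hKQ
    have hK2 : 2 ≤ Nat.card K := by
      rcases halt with ⟨e, -⟩ | ⟨e, -⟩ <;> omega
    have hb : Bound.{u} L (Nat.card Q) := fun Y' _ _ π' Q' hr hlt => by
      rcases ih _ (hn ▸ hlt) Y' π' Q' hr rfl with ⟨-, e | e⟩ | ⟨e, -⟩ <;> omega
    have hpos : 0 < Nat.card (Q.map (QuotientGroup.mk' K)) := Nat.card_pos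
    have hlt : Nat.card (Q.map (QuotientGroup.mk' K)) < n := by
      rw [← hn, ← hc]; nlinarith
    rcases ih _ hlt _ _ _ h' rfl with ⟨h1, h8 | h16⟩ | hs
    · refine case_eight h hKΦ hKQ hKc hK1 halt (fun q hq => mk_eq_one.1 ?_) (by rw [← hc, h8])
      rw [map_mul]; exact h1 _ ⟨q, hq, rfl⟩
    · exact case_sixteen h hb hKQ hKc hK1 halt h' h1 h16
    · exact (case_shape h hm hb hKQ hKc hK1 halt h' hs).elim

end Cfsg.Agent.RadLThree
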