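import Cfsg.Agent.RadLThreeTwo.Sixteen

/-!
# Squaring on natural sections
-/

set_option autoImplicit false
set_option linter.all false

namespace Cfsg.Agent.RadLThree

open Cfsg Cfsg.Agent

universe u v w

variable {Y : Type u} [Group Y] [Finite Y] {L : Type v} [Group L] {π : Y →* L} {Q : Subgroup Y}

/-- An involutive linear map written as a function. -/
def involAut (f : V3 → V3) (h1 : ∀ v, f (f v) = v) (h2 : ∀ a b, f (a + b) = f a + f b) : V3 ≃+ V3 :=
  { toFun := f, invFun := f, left_inv := h1, right_inv := h1, map_add' := h2 }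

def cross (u v w : V3) : ZMod 2 :=
  w.1 * (u.2.1 * v.2.2 - u.2.2 * v.2.1) + w.2.1 * (u.2.2 * v.1 - u.1 * v.2.2) +
    w.2.2 * (u.1 * v.2.1 - u.2.1 * v.1)

theorem cross_add (u v a b : V3) : cross u v (a + b) = cross u v a + cross u v b := by
  simp only [cross, Prod.fst_add, Prod.snd_add]; ring

theorem cross_left (u v : V3) : cross u v u = 0 := by
  simp only [cross]; ring

theorem cross_right (u v : V3) : cross u v v = 0 := by
  simp only [cross]; ring

def transv (u v : V3) (w : V3) : V3 := w + (cross u v w).val • u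

theorem transv_transv (u v w : V3) : transv u v (transv u v w) = w := by
  revert u v w; decide +kernel

theorem transv_add (u v a b : V3) : transv u v (a + b) = transv u v a + transv u v b := by
  simp only [transv, cross_add]
  rw [show ((cross u v a + cross u v b).val • u) = (cross u v a).val • u + (cross u v b).val • u by
    generalize cross u v a = x
    generalize cross u v b = y
    revert x y u; decide]
  abel

theorem transv_spec : ∀ u v : V3, u ≠ 0 → v ≠ 0 → u ≠ v →
    transv u v u = u ∧ transv u v v = v ∧ ∃ w, transv u v w ≠ w := by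
  unfold transv cross; decide +kernel

set_option synthInstance.maxSize 4096 in
theorem three_span : ∀ a b d x : V3, a ≠ 0 → b ≠ 0 → d ≠ 0 → a ≠ b → a ≠ d → b ≠ d → d ≠ a + b →
    x = 0 ∨ x = a ∨ x = b ∨ x = d ∨ x = a + b ∨ x = a + d ∨ x = b + d ∨ x = a + b + d := by
  decide +kernel

namespace Coord

variable {M K : Subgroup Y} (C : Coord M K)

/-- Nonzero vectors of a natural section form one orbit. -/
theorem trans (h : Rad π Q) (hn : Natural π Q M K) {a b : V3} (ha : a ≠ 0) (hb : b ≠ 0) :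
    ∃ y, C.perm hn.mnormal hn.knormal y a = b := by
  classical
  let f := C.perm hn.mnormal hn.knormal
  have hQ : ∀ q ∈ Q, f q = 1 := fun q hq => by
    have := C.perm_ker h hn
    exact MonoidHom.mem_ker.1 (this.symm ▸ hq)
  let O := Set.range fun y => f y a
  have h0 : (0 : V3) ∉ O := by
    rintro ⟨y, hy⟩
    apply ha
    have hf0 : f y 0 = 0 := by
      have := C.actFun_add hn.mnormal hn.knormal y 0 0
      rw [add_zero] at this
      exact left_eq_add.1 this
    exact (f y).injective (hy.trans hf0.symm)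
  have hO : ∀ y, ∀ x ∈ O, f y x ∈ O := by
    rintro y _ ⟨z, rfl⟩
    exact ⟨y * z, by simp⟩
  have hle : O.ncard ≤ 7 := by
    have : O ⊆ ({0}ᶜ : Set V3) := fun x hx h' => h0 (Set.mem_singleton_iff.1 h' ▸ hx)
    refine (Set.ncard_le_ncard this).trans (le_of_eq ?_)
    rw [Set.ncard_compl, Set.ncard_singleton]
    simp [Nat.card_prod]
  have h7 : O.ncard = 7 := by
    by_contra hne
    have hfix := h.small_fixed f hQ O hO (by rw [Nat.card_coe_set_eq]; omega)
    obtain ⟨m, hm, hma⟩ := C.surj a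
    apply ha
    rw [← hma]
    refine C.eq_zero_of_fixed h hn hm fun y => ?_
    rw [← C.perm_c hn.mnormal hn.knormal y hm, hma]
    exact hfix y a ⟨1, by simp⟩
  have : O = ({0}ᶜ : Set V3) := by
    refine Set.eq_of_subset_of_ncard_le (fun x hx h' => h0 (Set.mem_singleton_iff.1 h' ▸ hx)) ?_
    rw [h7, Set.ncard_compl, Set.ncard_singleton]
    simp [Nat.card_prod]
  have hb' : b ∈ O := this ▸ hb
  exact hb'

include C in
theorem trans_mem (h : Rad π Q) (hn : Natural π Q M K) {m n : Y} (hm : m ∈ M) (hn' : n ∈ M)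
    (hm0 : m ∉ K) (hn0 : n ∉ K) : ∃ y, n⁻¹ * (y * m * y⁻¹) ∈ K := by
  obtain ⟨y, hy⟩ := C.trans h hn (fun h0 => hm0 ((C.eq_zero hm).1 h0))
    (fun h0 => hn0 ((C.eq_zero hn').1 h0))
  exact ⟨y, (C.eq_iff (hn.mnormal.conj_mem m hm y) hn').1 ((C.perm_c _ _ y hm).symm.trans hy)⟩

end Coord

/-- The squaring map from a natural section to a natural elementary subgroup. -/
theorem squares (h : Rad π Q) {M R K : Subgroup Y} (C : Coord M R) (hC : Natural π Q M R)
    (D : Coord K ⊥) (hD : Natural π Q K ⊥) (hR : R ≤ M)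
    (hR1 : ∀ r ∈ R, r * r = 1) (hR2 : ∀ r ∈ R, ∀ m ∈ M, r * m = m * r)
    (hsq : ∀ m ∈ M, m * m ∈ K) :
    (∀ m ∈ M, m * m = 1) ∨
      ((∀ m ∈ M, ∀ n ∈ M, m * n = n * m) ∧ (∀ m ∈ M, m * m = 1 → m ∈ R) ∧
        ∀ k ∈ K, ∃ m ∈ M, m * m = k) := by
  classical
  let q : V3 → V3 := fun v => D.c (C.sec v * C.sec v)
  have hq : ∀ {m : Y}, m ∈ M → q (C.c m) = D.c (m * m) := by
    intro m hm
    have hr := (C.eq_iff hm (C.sec_mem (C.c m))).1 (C.c_sec _).symm
    set r := (C.sec (C.c m))⁻¹ * m with hrdef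
    have hm' : m = C.sec (C.c m) * r := by rw [hrdef, mul_inv_cancel_left]
    show D.c _ = _
    congr 1
    conv_rhs => rw [hm']
    have hc := hR2 r hr _ (C.sec_mem (C.c m))
    calc C.sec (C.c m) * C.sec (C.c m) = C.sec (C.c m) * C.sec (C.c m) * (r * r) := by
          rw [hR1 r hr, mul_one]
      _ = C.sec (C.c m) * (r * C.sec (C.c m)) * r := by rw [hc]; group
      _ = _ := by group
  have hinj : ∀ {a b : Y}, a ∈ K → b ∈ K → D.c a = D.c b → a = b := by
    intro a b ha hb hab
    have := (D.eq_iff ha hb).1 hab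
    rw [Subgroup.mem_bot, inv_mul_eq_one] at this
    exact this.symm
  let fC := C.perm hC.mnormal hC.knormal
  let fD := D.perm hD.mnormal hD.knormal
  have heq : ∀ y v, q (fC y v) = fD y (q v) := by
    intro y v
    obtain ⟨m, hm, rfl⟩ := C.surj v
    rw [C.perm_c _ _ y hm, hq (hC.mnormal.conj_mem m hm y), hq hm, D.perm_c _ _ y (hsq m hm)]
    congr 1; group
  have hq0 : q 0 = 0 := by
    have h0 := hq M.one_mem
    rwa [C.one, one_mul, D.one] at h0
  by_cases hz : ∃ v, v ≠ 0 ∧ q v = 0
  · left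
    obtain ⟨v, hv, hv0⟩ := hz
    intro m hm
    refine hinj (hsq m hm) K.one_mem ?_
    rw [D.one, ← hq hm]
    by_cases hm0 : C.c m = 0
    · rw [hm0, hq0]
    · obtain ⟨y, hy⟩ := C.trans h hC hv hm0
      rw [← hy, heq, hv0]
      have := D.actFun_add hD.mnormal hD.knormal y 0 0
      rw [add_zero] at this
      exact left_eq_add.1 this
  · right
    push Not at hz
    have hsurj : Function.Surjective q := by
      intro w
      by_cases hw : w = 0
      · exact ⟨0, hw ▸ hq0⟩
      · obtain ⟨y, hy⟩ := D.trans h hD (hz e0 (by decide)) hw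
        exact ⟨fC y e0, by rw [heq]; exact hy⟩
    have hqi : Function.Injective q := Finite.injective_iff_surjective.2 hsurj
    have hlin : ∀ a b : V3, q (a + b) = q a + q b := by
      intro a b
      by_cases ha : a = 0
      · rw [ha, zero_add, hq0, zero_add]
      by_cases hb : b = 0
      · rw [hb, add_zero, hq0, add_zero]
      by_cases hab : a = b
      · rw [hab, V3.self_add, hq0, V3.self_add]
      by_contra hne
      obtain ⟨hta, htb, w, hw⟩ := transv_spec a b ha hb hab
      obtain ⟨y, hy⟩ := C.lift h hC (involAut _ (transv_transv a b) (transv_add a b))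
      have hfy : ∀ v, fC y v = transv a b v := by
        intro v
        obtain ⟨m, hm, rfl⟩ := C.surj v
        rw [C.perm_c _ _ y hm, hy m hm]; rfl
      apply hw
      apply hqi
      rw [← hfy, heq]
      have fa : fD y (q a) = q a := by rw [← heq, hfy, hta]
      have fb : fD y (q b) = q b := by rw [← heq, hfy, htb]
      have fab : fD y (q (a + b)) = q (a + b) := by rw [← heq, hfy, transv_add, hta, htb]
      have hx := three_span (q a) (q b) (q (a + b)) (q w) (hz a ha) (hz b hb)
        (hz _ fun h0 => hab (add_right_cancel (h0.trans (V3.self_add b).symm)))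
        (fun h' => hab (hqi h')) (fun h' => hb (left_eq_add.1 (hqi h')))
        (fun h' => ha (right_eq_add.1 (hqi h'))) hne
      let τ : V3 ≃+ V3 := D.aut hD.mnormal hD.knormal y
      have e : ∀ v, fD y v = τ v := fun _ => rfl
      rw [e] at fa fb fab ⊢
      rcases hx with hx | hx | hx | hx | hx | hx | hx | hx <;>
        simp only [hx, map_zero, map_add, fa, fb, fab]
    refine ⟨fun m hm n hn => ?_, fun m hm h1 => ?_, fun k hk => ?_⟩
    · have h1 := hlin (C.c m) (C.c n)
      rw [← C.mul hm hn, hq (M.mul_mem hm hn), hq hm, hq hn, ← D.mul (hsq m hm) (hsq n hn)] at h1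
      have h2 := hinj (hsq _ (M.mul_mem hm hn)) (K.mul_mem (hsq m hm) (hsq n hn)) h1
      rw [mul_assoc, mul_assoc m m] at h2
      have h3 := mul_left_cancel h2
      rw [← mul_assoc, ← mul_assoc] at h3
      exact (mul_right_cancel h3).symm
    · rw [← C.eq_zero hm]
      apply hqi
      rw [hq hm, h1, D.one, hq0]
    · obtain ⟨v, hv⟩ := hsurj (D.c k)
      refine ⟨C.sec v, C.sec_mem v, hinj (hsq _ (C.sec_mem v)) hk hv⟩

/-- A constant central square outside a subgroup is trivial. -/
theorem elementary_of_const {M R : Subgroup Y} (C : Coord M R) (hR : R ≤ M) {c : Y} (hc2 : c * c = 1)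
    (hcM : ∀ m ∈ M, m * c = c * m)
    (hsq : ∀ m ∈ M, m ∉ R → m * m = c) : ∀ m ∈ M, m * m = 1 := by
  have hout : ∀ {m : Y} {v : V3}, m ∈ M → C.c m = v → v ≠ 0 → m * m = c := fun {m v} hm hv hv0 =>
    hsq m hm fun hr => hv0 (hv.symm.trans ((C.eq_zero hm).2 hr))
  obtain ⟨u, hu, hu'⟩ := C.surj e0
  obtain ⟨v, hv, hv'⟩ := C.surj e1
  obtain ⟨r, hr, hr'⟩ := C.surj e2
  have anti : ∀ {a b : Y} {x y : V3}, a ∈ M → b ∈ M → C.c a = x → C.c b = y → x ≠ 0 → y ≠ 0 →
      x + y ≠ 0 → b * a = a * b * c := by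
    intro a b x y ha hb hx hy hx0 hy0 hxy
    have h1 := hout (M.mul_mem ha hb) ((C.mul ha hb).trans (by rw [hx, hy])) hxy
    have ha2 := hout ha hx hx0
    have hb2 := hout hb hy hy0
    have haI : a⁻¹ = a * c := inv_eq_of_mul_eq_one_right (by rw [← mul_assoc, ha2, hc2])
    have hbI : b⁻¹ = b * c := inv_eq_of_mul_eq_one_right (by rw [← mul_assoc, hb2, hc2])
    calc b * a = a⁻¹ * ((a * b) * (a * b)) * b⁻¹ := by group
      _ = a * b * c := by
        rw [h1, haI, hbI, mul_assoc a c c, hc2, mul_one, ← mul_assoc]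
  have h1 : c = 1 := by
    have a1 := anti hu hv hu' hv' (by decide) (by decide) (by decide)
    have a2 := anti hu hr hu' hr' (by decide) (by decide) (by decide)
    have a3 := anti hu (M.mul_mem hv hr) hu' ((C.mul hv hr).trans (by rw [hv', hr'])) (by decide)
      (by decide) (by decide)
    have hcr : c * r = r * c := (hcM r hr).symm
    have a4 : v * r * u = u * (v * r) := by
      calc v * r * u = v * (r * u) := mul_assoc _ _ _
        _ = v * u * (r * c) := by rw [a2]; group
        _ = u * v * (c * r) * c := by rw [a1]; group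
        _ = u * (v * r) * (c * c) := by rw [hcr]; group
        _ = u * (v * r) := by rw [hc2, mul_one]
    rw [a4] at a3
    exact left_eq_mul.1 a3
  intro m hm
  by_cases hmR : m ∈ R
  · have i1 : u * u = 1 := (hout hu hu' (by decide)).trans h1
    have hum : C.c (u * m) = e0 := by rw [C.mul hu hm, hu', (C.eq_zero hm).2 hmR, add_zero]
    have hvm : C.c (v * m) = e1 := by rw [C.mul hv hm, hv', (C.eq_zero hm).2 hmR, add_zero]
    have i2 : (u * m) * (u * m) = 1 := (hout (M.mul_mem hu hm) hum (by decide)).trans h1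
    have c1 : v * u = u * v := by rw [anti hu hv hu' hv' (by decide) (by decide) (by decide), h1, mul_one]
    have c2 : v * m * u = u * (v * m) := by
      rw [anti hu (M.mul_mem hv hm) hu' hvm (by decide) (by decide) (by decide), h1, mul_one]
    have c3 : m * u = u * m := by
      rw [← mul_assoc u v m, ← c1, mul_assoc, mul_assoc] at c2
      exact mul_left_cancel c2
    calc m * m = (u * u) * (m * m) := by rw [i1, one_mul]
      _ = u * (m * u) * m := by rw [c3]; group
      _ = (u * m) * (u * m) := by group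
      _ = 1 := i2
  · rw [hsq m hm hmR, h1]

/-- An automorphism of order three with a single fixed line. -/
def threeAut : V3 ≃+ V3 :=
  { toFun := fun w => (w.2.1, w.1 + w.2.1, w.2.2)
    invFun := fun w => (w.1 + w.2.1, w.1, w.2.2)
    left_inv := by intro w; revert w; decide
    right_inv := by intro w; revert w; decide
    map_add' := by intro a b; revert a b; decide }

theorem threeAut_fix : ∀ w : V3, threeAut w = w → w = 0 ∨ w = e2 := by decide

theorem threeAut_three : ∀ w : V3, threeAut (threeAut (threeAut w)) = w := by decide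

/-- In a nonsplit section the fixed element is central and squares to one. -/
theorem fixed_central (h : Rad π Q) {M R K : Subgroup Y} [K.Normal] (C : Coord M R) (hC : Natural π Q M R)
    (D : Coord K ⊥) (hD : Natural π Q K ⊥) (hR : R ≤ M) (hKR : K ≤ R)
    (hK2 : ∀ k ∈ K, ∀ m ∈ M, k * m = m * k) {z : Y} (hzR : z ∈ R) (hzK : z ∉ K)
    (hRz : ∀ r ∈ R, r ∈ K ∨ z⁻¹ * r ∈ K) (hzfix : ∀ y, z⁻¹ * (y * z * y⁻¹) ∈ K)
    (htriv : ∀ q ∈ Q, ∀ m ∈ M, m⁻¹ * (q * m * q⁻¹) ∈ K)
    (hsq : ∀ m ∈ M, m * m ∈ K)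
    (htrans : ∀ u ∈ M, ∀ v ∈ M, u ∉ R → v ∉ R → ∃ y, v⁻¹ * (y * u * y⁻¹) ∈ K) :
    z * z = 1 ∧ ∀ m ∈ M, z * m = m * z := by
  classical
  have hzM := hR hzR
  have hinj : ∀ {a b : Y}, a ∈ K → b ∈ K → D.c a = D.c b → a = b := by
    intro a b ha hb hab
    have := (D.eq_iff ha hb).1 hab
    rw [Subgroup.mem_bot, inv_mul_eq_one] at this
    exact this.symm
  have hk2 : ∀ k ∈ K, k * k = 1 := fun k hk => hinj (K.mul_mem hk hk) K.one_mem (by
    rw [D.mul hk hk, V3.self_add, D.one])
  -- squares depend only on the class modulo `K`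
  have sqK : ∀ {a b : Y}, a ∈ M → b⁻¹ * a ∈ K → b ∈ M → a * a = b * b := by
    intro a b ha hab hb
    have e : a = b * (b⁻¹ * a) := (mul_inv_cancel_left b a).symm
    generalize b⁻¹ * a = k at hab e
    subst e
    calc b * k * (b * k) = b * (k * b) * k := by group
      _ = b * b * (k * k) := by rw [hK2 k hab b hb]; group
      _ = b * b := by rw [hk2 k hab, mul_one]
  have hz2 : z * z = 1 := by
    refine hinj (hsq z hzM) K.one_mem ?_
    rw [D.one]
    refine D.eq_zero_of_fixed h hD (hsq z hzM) fun y => ?_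
    rw [show y * (z * z) * y⁻¹ = (y * z * y⁻¹) * (y * z * y⁻¹) by group,
      sqK (hC.mnormal.conj_mem z hzM y) (hzfix y) hzM]
  refine ⟨hz2, ?_⟩
  -- the commutator with `z`
  let b : Y → V3 := fun m => D.c (z⁻¹ * (m * z * m⁻¹))
  have hbK : ∀ m, z⁻¹ * (m * z * m⁻¹) ∈ K := hzfix
  have hb_mul : ∀ {m n : Y}, m ∈ M → n ∈ M → b (m * n) = b m + b n := by
    intro m n hm hn
    show D.c _ = D.c _ + D.c _
    rw [← D.mul (hbK m) (hbK n)]
    congr 1
    have hc := hK2 _ (hbK n) m hm
    calc z⁻¹ * (m * n * z * (m * n)⁻¹) = z⁻¹ * (m * z * (z⁻¹ * (n * z * n⁻¹)) * m⁻¹) := by group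
      _ = z⁻¹ * (m * z * ((z⁻¹ * (n * z * n⁻¹)) * m⁻¹)) := by group
      _ = z⁻¹ * (m * z * (m⁻¹ * (z⁻¹ * (n * z * n⁻¹)))) := by
        rw [hK2 _ (hbK n) m⁻¹ (M.inv_mem hm)]
      _ = _ := by group
  have hbR : ∀ r ∈ R, b r = 0 := by
    intro r hr
    show D.c _ = 0
    rcases hRz r hr with hk | hk
    · rw [hK2 r hk z hzM, mul_inv_cancel_right, inv_mul_cancel, D.one]
    · have e : r = z * (z⁻¹ * r) := (mul_inv_cancel_left z r).symm
      generalize z⁻¹ * r = k at hk e
      subst e
      rw [show z * k * z * (z * k)⁻¹ = z * (k * z) * k⁻¹ * z⁻¹ by group, hK2 k hk z hzM,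
        show z * (z * k) * k⁻¹ * z⁻¹ = z by group, inv_mul_cancel, D.one]
  have hbc : ∀ {m n : Y}, m ∈ M → n ∈ M → C.c m = C.c n → b m = b n := by
    intro m n hm hn hmn
    have hr := (C.eq_iff hm hn).1 hmn
    conv_lhs => rw [(mul_inv_cancel_left n m).symm]
    rw [hb_mul hn (hR hr), hbR _ hr, add_zero]
  let φ : V3 → V3 := fun v => b (C.sec v)
  have hφ : ∀ {m : Y}, m ∈ M → φ (C.c m) = b m := fun {m} hm => hbc (C.sec_mem _) hm (C.c_sec _)
  have hφ_add : ∀ v w, φ (v + w) = φ v + φ w := by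
    intro v w
    obtain ⟨m, hm, rfl⟩ := C.surj v
    obtain ⟨n, hn, rfl⟩ := C.surj w
    rw [← C.mul hm hn, hφ (M.mul_mem hm hn), hφ hm, hφ hn, hb_mul hm hn]
  let fC := C.perm hC.mnormal hC.knormal
  let fD := D.perm hD.mnormal hD.knormal
  have heq : ∀ y v, φ (fC y v) = fD y (φ v) := by
    intro y v
    obtain ⟨m, hm, rfl⟩ := C.surj v
    rw [C.perm_c _ _ y hm, hφ (hC.mnormal.conj_mem m hm y), hφ hm]
    show _ = fD y (D.c _)
    rw [D.perm_c _ _ y (hbK m)]
    show D.c _ = D.c _
    congr 1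
    have hk := hzfix y
    have hymM := hC.mnormal.conj_mem m hm y
    have e : y * z * y⁻¹ = z * (z⁻¹ * (y * z * y⁻¹)) := (mul_inv_cancel_left _ _).symm
    generalize z⁻¹ * (y * z * y⁻¹) = k at hk e
    generalize hw : y * m * y⁻¹ = w at hymM
    have hkw := hK2 k hk w⁻¹ (M.inv_mem hymM)
    calc z⁻¹ * (w * z * w⁻¹) = k * (z * k)⁻¹ * (w * (z * k) * w⁻¹ * k⁻¹) := by
          rw [show w * (z * k) * w⁻¹ = w * z * (k * w⁻¹) by group, hkw]
          group
      _ = (z * k)⁻¹ * (w * (z * k) * w⁻¹) * (k * k⁻¹) := by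
          have h1 : k * (z * k)⁻¹ = (z * k)⁻¹ * k := by
            rw [mul_inv_rev, ← mul_assoc, mul_inv_cancel, one_mul, mul_assoc,
              ← hK2 k hk z⁻¹ (M.inv_mem hzM), inv_mul_cancel_left]
          rw [h1]
          have hwk : k * (w * (z * k) * w⁻¹) = (w * (z * k) * w⁻¹) * k :=
            hK2 k hk _ (M.mul_mem (M.mul_mem hymM (M.mul_mem hzM (hR (hKR hk)))) (M.inv_mem hymM))
          calc (z * k)⁻¹ * k * (w * (z * k) * w⁻¹ * k⁻¹)
              = (z * k)⁻¹ * (k * (w * (z * k) * w⁻¹)) * k⁻¹ := by group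
            _ = _ := by rw [hwk]; group
      _ = y * (z⁻¹ * (m * z * m⁻¹)) * y⁻¹ := by
          rw [← hw, ← e]; group
  by_cases hzero : ∀ v, φ v = 0
  · intro m hm
    have := hinj (hbK m) K.one_mem ((hφ hm).symm.trans ((hzero _).trans D.one.symm))
    rw [inv_mul_eq_one] at this
    calc z * m = (m * z * m⁻¹) * m := by rw [← this]
      _ = m * z := by group
  · exfalso
    push Not at hzero
    obtain ⟨v0, hv0⟩ := hzero
    have hφ0 : φ 0 = 0 := by
      have h0 := hφ_add 0 0
      rw [add_zero] at h0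
      exact left_eq_add.1 h0
    have hzne : ∀ v, v ≠ 0 → φ v ≠ 0 := by
      intro v hv hv'
      have hv0' : v0 ≠ 0 := fun h0 => hv0 (h0 ▸ hφ0)
      obtain ⟨y, hy⟩ := C.trans h hC hv hv0'
      apply hv0
      rw [← hy, heq, hv']
      have := D.actFun_add hD.mnormal hD.knormal y 0 0
      rw [add_zero] at this
      exact left_eq_add.1 this
    have hφi : Function.Injective φ := by
      intro a b hab
      by_contra hne
      refine hzne (a + b) (fun h0 => hne (add_right_cancel (h0.trans (V3.self_add b).symm))) ?_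
      rw [hφ_add, hab, V3.self_add]
    obtain ⟨m, hm, hmc⟩ := C.surj e2
    have hmR : m ∉ R := fun hr => absurd (hmc.symm.trans ((C.eq_zero hm).2 hr)) (by decide)
    obtain ⟨y, hy⟩ := C.lift h hC threeAut
    have hfy : ∀ v, fC y v = threeAut v := by
      intro v
      obtain ⟨n, hn, rfl⟩ := C.surj v
      rw [C.perm_c _ _ y hn, hy n hn]
    have hy3 : y * y * y ∈ Q := by
      refine C.mem_of_trivial h hC fun n hn => ?_
      have h2 := hC.mnormal.conj_mem n hn y
      have h3 := hC.mnormal.conj_mem _ h2 y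
      rw [show y * y * y * n * (y * y * y)⁻¹ = y * (y * (y * n * y⁻¹) * y⁻¹) * y⁻¹ by group,
        hy _ h3, hy _ h2, hy n hn, threeAut_three]
    -- `y` fixes `m` modulo `K`
    have hym : m⁻¹ * (y * m * y⁻¹) ∈ K := by
      have hr : m⁻¹ * (y * m * y⁻¹) ∈ R :=
        (C.eq_iff (hC.mnormal.conj_mem m hm y) hm).1 (by rw [hy m hm, hmc]; decide)
      rcases hRz _ hr with hk | hk
      · exact hk
      · exfalso
        let p := QuotientGroup.mk' K
        have pz : p y * p z * (p y)⁻¹ = p z := by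
          rw [← map_inv, ← map_mul, ← map_mul]
          exact (QuotientGroup.eq.2 (hzfix y)).symm
        have pm : p y * p m * (p y)⁻¹ = p m * p z := by
          rw [← map_inv, ← map_mul, ← map_mul, ← map_mul]
          refine (QuotientGroup.eq.2 ?_).symm
          rw [mul_inv_rev, mul_assoc]
          exact hk
        have p3 : p (y * y * y) * p m * (p (y * y * y))⁻¹ = p m := by
          rw [← map_inv, ← map_mul, ← map_mul]
          exact (QuotientGroup.eq.2 (htriv _ hy3 m hm)).symm
        have pz2 : p z * p z = 1 := by rw [← map_mul, hz2, map_one]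
        have : p (y * y * y) * p m * (p (y * y * y))⁻¹ = p m * p z := by
          rw [map_mul, map_mul, show p y * p y * p y * p m * (p y * p y * p y)⁻¹ =
            p y * (p y * (p y * p m * (p y)⁻¹) * (p y)⁻¹) * (p y)⁻¹ by group, pm,
            show p y * (p m * p z) * (p y)⁻¹ = (p y * p m * (p y)⁻¹) * (p y * p z * (p y)⁻¹) by group,
            pm, pz, mul_assoc (p m), pz2, mul_one, pm]
        rw [p3] at this
        exact hzK ((QuotientGroup.eq_one_iff z).1 (left_eq_mul.1 this))
    have hfixD : fD y (D.c (m * m)) = D.c (m * m) := by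
      rw [D.perm_c _ _ y (hsq m hm),
        show y * (m * m) * y⁻¹ = (y * m * y⁻¹) * (y * m * y⁻¹) by group,
        sqK (hC.mnormal.conj_mem m hm y) hym hm]
    obtain ⟨w, hw⟩ := (Finite.injective_iff_surjective.1 hφi) (D.c (m * m))
    have hw' : threeAut w = w := hφi (by rw [← hfy, heq, hw, hfixD])
    have hbm : D.c ((m * z) * (m * z)) = D.c (m * m) + φ e2 := by
      rw [← hmc, hφ hm]
      show _ = _ + D.c _
      rw [← D.mul (hsq m hm) (hbK m)]
      congr 1
      calc m * z * (m * z) = m * (z⁻¹ * (m * z * m⁻¹)) * m := by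
            rw [show z⁻¹ = z from inv_eq_of_mul_eq_one_right hz2]; group
        _ = (z⁻¹ * (m * z * m⁻¹)) * (m * m) := by
            rw [← hK2 _ (hbK m) m hm]; group
        _ = m * m * (z⁻¹ * (m * z * m⁻¹)) := hK2 _ (hbK m) _ (M.mul_mem hm hm)
    have hmzR : m * z ∉ R := fun hr => hmR (by simpa using R.mul_mem hr (R.inv_mem hzR))
    have hne2 : φ e2 ≠ 0 := hzne _ (by decide)
    have key : ∀ a b : Y, a ∈ M → b ∈ M → a ∉ R → b ∉ R → a * a = 1 → b * b = 1 := by
      intro a b' ha hb ha' hb' h1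
      obtain ⟨x, hx⟩ := htrans a ha b' hb ha' hb'
      rw [← sqK (hC.mnormal.conj_mem a ha x) hx hb,
        show x * a * x⁻¹ * (x * a * x⁻¹) = x * (a * a) * x⁻¹ by group, h1]
      group
    have hmz2 : (m * z) * (m * z) ∈ K := hsq _ (M.mul_mem hm hzM)
    rcases threeAut_fix w hw' with h0 | h0
    · rw [h0, hφ0] at hw
      have := key m (m * z) hm (M.mul_mem hm hzM) hmR hmzR
        (hinj (hsq m hm) K.one_mem (by rw [← hw, D.one]))
      rw [this, D.one, ← hw, zero_add] at hbm
      exact hne2 hbm.symm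
    · rw [h0] at hw
      have := key (m * z) m (M.mul_mem hm hzM) hm hmzR hmR
        (hinj hmz2 K.one_mem (by rw [hbm, ← hw, V3.self_add, D.one]))
      rw [this, D.one] at hw
      exact hne2 hw

end Cfsg.Agent.RadLThree
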