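import Cfsg.Agent.RadLThreeTwo.Coord

/-!
# Passing to quotients and subgroups; the modules of order 16
-/

set_option autoImplicit false
set_option linter.all false

namespace Cfsg.Agent.RadLThree

open Cfsg Cfsg.Agent

universe u v w

variable {Y : Type u} [Group Y] [Finite Y] {L : Type v} [Group L] {π : Y →* L} {Q : Subgroup Y}

theorem Rad.le_ker (h : Rad π Q) {N : Subgroup Y} (hN : N ≤ Q) : N ≤ π.ker := h.ker ▸ hN

/-- The map induced on a quotient. -/
theorem Rad.quot (h : Rad π Q) (N : Subgroup Y) [N.Normal] (hN : N ≤ Q)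
    (hNc : N ≤ (frattini ↥Q).map Q.subtype ∨ ∀ n ∈ N, ∀ y : Y, y * n = n * y) :
    Rad (QuotientGroup.lift N π (h.le_ker hN)) (Q.map (QuotientGroup.mk' N)) where
  simple := h.simple
  card := h.card
  surj l := by obtain ⟨y, rfl⟩ := h.surj l; exact ⟨QuotientGroup.mk y, rfl⟩
  ker := by
    ext x
    obtain ⟨y, rfl⟩ := QuotientGroup.mk'_surjective N x
    constructor
    · intro hx
      exact ⟨y, h.mem_iff.2 hx, rfl⟩
    · rintro ⟨q, hq, hqy⟩
      show π y = 1
      rw [← h.mem_iff]
      have : q⁻¹ * y ∈ N := QuotientGroup.eq.1 hqy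
      have := Q.mul_mem hq (hN this)
      rwa [mul_inv_cancel_left] at this
  two := h.two.map _
  rank := TwoAut.OrderFive.sectional_of_surjective _ (QuotientGroup.mk'_surjective N) h.rank
  act := by
    intro x hx hc
    obtain ⟨s, rfl⟩ := QuotientGroup.mk'_surjective N x
    rw [← map_pow] at hx
    have hs : s ^ 7 ∈ N := (QuotientGroup.eq_one_iff _).1 hx
    obtain ⟨k, hk⟩ := h.two ⟨_, hN hs⟩
    have hk' : (s ^ 7) ^ 2 ^ k = 1 := congrArg Subtype.val hk
    have ht : (s ^ 2 ^ k) ^ 7 = 1 := by rw [← pow_mul, mul_comm, pow_mul]; exact hk'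
    have h1 := h.act_mod N hN hNc ht fun q hq => by
      rw [← QuotientGroup.eq_one_iff]
      show QuotientGroup.mk' N _ = 1
      have hcm : Commute (QuotientGroup.mk' N s) (QuotientGroup.mk' N q) := hc _ ⟨q, hq, rfl⟩
      rw [map_mul, map_inv, map_mul, map_mul, map_inv, map_pow, (hcm.pow_left _).eq,
        mul_inv_cancel_right, inv_mul_cancel]
    have h2 : (QuotientGroup.mk' N s) ^ Nat.gcd (2 ^ k) 7 = 1 :=
      pow_gcd_eq_one.2 ⟨by rw [← map_pow, h1, map_one], by rw [← map_pow]; exact hx⟩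
    rwa [Nat.Coprime.gcd_eq_one (Nat.Coprime.pow_left k (by norm_num : Nat.Coprime 2 7)),
      pow_one] at h2

/-- A subgroup mapping onto the quotient. -/
theorem Rad.sub (h : Rad π Q) (Y0 : Subgroup Y) (hY : ∀ l, ∃ y ∈ Y0, π y = l)
    (hact : ∀ s ∈ Y0, s ^ 7 = 1 → (∀ q ∈ Q ⊓ Y0, s * q = q * s) → s = 1) :
    Rad (π.comp Y0.subtype) (Q.subgroupOf Y0) where
  simple := h.simple
  card := h.card
  surj l := by obtain ⟨y, hy, rfl⟩ := hY l; exact ⟨⟨y, hy⟩, rfl⟩
  ker := by ext x; exact h.mem_iff.symm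
  two := h.two.comap_subtype
  rank := TwoGroups.sectional_of_injective Y0.subtype Subtype.val_injective h.rank
  act := by
    intro s hs hc
    refine Subtype.ext (hact s s.2 (congrArg Subtype.val hs) fun q hq => ?_)
    exact congrArg Subtype.val (hc ⟨q, hq.2⟩ hq.1)

theorem pow_fix_of_pow {s w : Y} (hs : s ^ 7 = 1) {i j : ℕ} (hij : i < j) (hj : j < 7)
    (h : s ^ i * w * (s ^ i)⁻¹ = s ^ j * w * (s ^ j)⁻¹) : s * w * s⁻¹ = w := by
  obtain ⟨d, hd, hd7, rfl⟩ : ∃ d, 0 < d ∧ d < 7 ∧ j = i + d := ⟨j - i, by omega, by omega, by omega⟩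
  have hd' : s ^ d ∈ Subgroup.centralizer ({w} : Set Y) := by
    rw [Subgroup.mem_centralizer_singleton_iff]
    rw [pow_add] at h
    have h' : w = s ^ d * w * (s ^ d)⁻¹ := by
      have := congrArg (fun x => (s ^ i)⁻¹ * x * s ^ i) h
      simpa [mul_assoc] using this
    calc s ^ d * w = (s ^ d * w * (s ^ d)⁻¹) * s ^ d := by group
      _ = w * s ^ d := by rw [← h']
  obtain ⟨k, hk⟩ : ∃ k, d * k % 7 = 1 := by
    interval_cases d
    exacts [⟨1, rfl⟩, ⟨4, rfl⟩, ⟨5, rfl⟩, ⟨2, rfl⟩, ⟨3, rfl⟩, ⟨6, rfl⟩]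
  have hs1 : s ∈ Subgroup.centralizer ({w} : Set Y) := by
    have := Subgroup.pow_mem _ hd' k
    rwa [← pow_mul, ← pow_mod_orderOf, ← Nat.mod_mod_of_dvd _ (orderOf_dvd_of_pow_eq_one hs),
      hk, pow_mod_orderOf, pow_one] at this
  rw [Subgroup.mem_centralizer_singleton_iff] at hs1
  rw [hs1, mul_inv_cancel_right]

/-- Fixed points of an element of order dividing seven. -/
theorem card_mod_seven {α : Type w} [Finite α] (p : Equiv.Perm α) (hp : p ^ 7 = 1) :
    Nat.card α % 7 = Nat.card {a // p a = a} % 7 := by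
  haveI : Fact (Nat.Prime 7) := ⟨by norm_num⟩
  have hP : IsPGroup 7 (Subgroup.zpowers p) := fun x => by
    obtain ⟨x, n, rfl⟩ := x
    refine ⟨1, Subtype.ext ?_⟩
    show (p ^ n) ^ (7 ^ 1) = 1
    rw [pow_one, ← zpow_natCast, ← zpow_mul, mul_comm, zpow_mul, zpow_natCast, hp, one_zpow]
  refine (hP.card_modEq_card_fixedPoints α).trans (congrArg (· % 7) (Nat.card_congr ?_))
  refine Equiv.subtypeEquivRight fun a => ⟨fun h => h ⟨p, Subgroup.mem_zpowers p⟩, ?_⟩
  rintro h ⟨x, n, rfl⟩
  exact Equiv.Perm.zpow_apply_eq_self_of_apply_eq_self h n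

/-- The conjugation action. -/
def conjPerm (Y : Type u) [Group Y] : Y →* Equiv.Perm Y :=
  (MulAut.toPerm Y).comp MulAut.conj

@[simp] theorem conjPerm_apply (y m : Y) : conjPerm Y y m = y * m * y⁻¹ := rfl

/-- The seven conjugates under an element of order seven and their product. -/
theorem sixteen (h : Rad π Q) (M : Subgroup Y) [hM : M.Normal] (h2 : ∀ m ∈ M, m * m = 1)
    (hc : Nat.card M = 16) (htriv : ∀ q ∈ Q, ∀ m ∈ M, q * m * q⁻¹ = m)
    (hmove : ∃ y, ∃ m ∈ M, y * m * y⁻¹ ≠ m) :
    (∃ S : Subgroup Y, S.Normal ∧ S ≤ M ∧ Nat.card S = 8 ∧ ∃ y, ∃ m ∈ S, y * m * y⁻¹ ≠ m) ∨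
      (∃ z ∈ M, z ≠ 1 ∧ (∀ y, y * z * y⁻¹ = z) ∧
        ∀ u ∈ M, ∀ v ∈ M, u ≠ 1 → u ≠ z → v ≠ 1 → v ≠ z → ∃ y, y * u * y⁻¹ = v) := by
  classical
  letI : CommGroup M := { (inferInstance : Group M) with
    mul_comm := fun a b => by
      have hi : ∀ a : M, a⁻¹ = a := fun a => inv_eq_of_mul_eq_one_right (Subtype.ext (h2 a a.2))
      rw [← hi (a * b), mul_inv_rev, hi, hi] }
  letI : Fintype M := Fintype.ofFinite M
  let f : Y →* MulAut M := MulAut.conjNormal
  have hf : ∀ y (m : M), (f y m : Y) = y * m * y⁻¹ := fun y m => MulAut.conjNormal_apply y m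
  obtain ⟨s, hs7, hsQ⟩ := h.exists_seven
  have hs7' : f s ^ 7 = 1 := by rw [← map_pow, hs7, map_one]
  have hsne : f s ≠ 1 := by
    rcases h.ker_eq f (fun q hq => MulEquiv.ext fun m => Subtype.ext (by
      rw [hf]; exact htriv q hq m m.2)) with hall | hk
    · obtain ⟨y, m, hm, hy⟩ := hmove
      exfalso; apply hy
      have := hf y ⟨m, hm⟩
      rw [hall y] at this
      exact this.symm
    · intro h1; exact hsQ (hk ▸ (h1 : s ∈ f.ker))
  have hM16 : Nat.card M = 16 := hc
  -- the fixed subgroup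
  let F : Subgroup M :=
    { carrier := {m | f s m = m}
      mul_mem' := fun {a b} ha hb => by
        show f s (a * b) = a * b
        rw [map_mul]; exact congrArg₂ (· * ·) ha hb
      one_mem' := map_one _
      inv_mem' := fun {a} ha => by show f s a⁻¹ = a⁻¹; rw [map_inv]; exact congrArg _ ha }
  have hF2 : Nat.card F = 2 := by
    have hd : Nat.card F ∣ 16 := hM16 ▸ F.card_subgroup_dvd_card
    have hmod := card_mod_seven ((MulAut.toPerm M) (f s)) (by rw [← map_pow, hs7', map_one])
    rw [hM16] at hmod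
    have e : Nat.card {a // (MulAut.toPerm M) (f s) a = a} = Nat.card F := rfl
    rw [e] at hmod
    have hne : Nat.card F ≠ 16 := fun h16 => hsne (by
      have htop : F = ⊤ := Subgroup.eq_top_of_card_eq _ (h16.trans hM16.symm)
      ext1 m
      exact (show m ∈ F from htop ▸ Subgroup.mem_top m))
    obtain ⟨k, hk, hk'⟩ := (Nat.dvd_prime_pow Nat.prime_two).1 (show Nat.card F ∣ 2 ^ 4 from hd)
    interval_cases k <;> omega
  obtain ⟨z, hzF, hz1⟩ : ∃ z ∈ F, z ≠ (1 : M) :=
    F.bot_or_exists_ne_one.resolve_left ((Subgroup.one_lt_card_iff_ne_bot F).1 (by omega))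
  have hFz : ∀ m : M, f s m = m → m = 1 ∨ m = z := by
    intro m hm
    have hcl : ({1, z} : Set M) = (F : Set M) := by
      refine Set.eq_of_subset_of_ncard_le ?_ ?_
      · rintro x (rfl | rfl)
        · exact F.one_mem
        · exact hzF
      · rw [Set.ncard_pair (Ne.symm hz1), ← Nat.card_coe_set_eq]
        exact hF2.le
    have : m ∈ ({1, z} : Set M) := hcl ▸ hm
    simpa using this
  -- σ
  let σ : M →* M := ∏ i ∈ Finset.range 7, (f s ^ i).toMonoidHom
  have hσ : ∀ m, σ m = ∏ i ∈ Finset.range 7, (f s ^ i) m := fun m => by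
    simp only [σ, MonoidHom.finsetProd_apply]; rfl
  have hσz : σ z = z := by
    have hz' : ∀ i, (f s ^ i) z = z := by
      intro i
      induction i with
      | zero => rfl
      | succ i ih => rw [pow_succ, MulAut.mul_apply, show f s z = z from hzF, ih]
    rw [hσ, Finset.prod_congr rfl fun i _ => hz' i, Finset.prod_const, Finset.card_range]
    have : z ^ 2 = 1 := Subtype.ext (by rw [sq]; exact h2 _ z.2)
    rw [show 7 = 2 * 3 + 1 from rfl, pow_succ, pow_mul, this, one_pow, one_mul]
  -- invariant sets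
  have seven : ∀ C : Finset M, (∀ y, ∀ m ∈ C, f y m ∈ C) → C.card = 7 →
      ∀ w ∈ C, f s w ≠ w → σ w = ∏ m ∈ C, m ∧ ∀ y, f y (σ w) = σ w := by
    intro C hC h7 w hw hsw
    have heq : (Finset.range 7).image (fun i => (f s ^ i) w) = C := by
      refine Finset.eq_of_subset_of_card_le ?_ ?_
      · intro x hx
        obtain ⟨i, -, rfl⟩ := Finset.mem_image.1 hx
        rw [← map_pow]; exact hC _ _ hw
      · rw [h7, Finset.card_image_of_injOn, Finset.card_range]
        intro i hi j hj hij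
        simp only [Finset.coe_range, Set.mem_Iio] at hi hj
        simp only [← map_pow] at hij
        have hij' : s ^ i * w * (s ^ i)⁻¹ = s ^ j * w * (s ^ j)⁻¹ := by
          rw [← hf, ← hf]; exact congrArg Subtype.val hij
        rcases lt_trichotomy i j with hl | hl | hl
        · exact absurd (Subtype.ext ((hf s w).trans (pow_fix_of_pow hs7 hl hj hij'))) hsw
        · exact hl
        · exact absurd (Subtype.ext ((hf s w).trans (pow_fix_of_pow hs7 hl hi hij'.symm))) hsw
    have hp : σ w = ∏ m ∈ C, m := by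
      rw [hσ]
      conv_rhs => rw [← heq]
      rw [Finset.prod_image]
      intro i hi j hj hij
      by_contra hne
      have := Finset.card_image_iff.1 (by rw [heq, h7, Finset.card_range]) hi hj hij
      exact hne this
    refine ⟨hp, fun y => ?_⟩
    rw [hp, map_prod]
    refine Finset.prod_bij (fun m _ => f y m) (fun m hm => hC y m hm) (fun a _ b _ hab => (f y).injective hab)
      (fun b hb => ⟨f y⁻¹ b, hC _ _ hb, by rw [map_inv]; exact (f y).apply_symm_apply b⟩) (fun m _ => rfl)
  -- building the invariant subgroup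
  have build : ∀ C : Finset M, (∀ y, ∀ m ∈ C, f y m ∈ C) → C.card = 7 → (∀ w ∈ C, f s w ≠ w) →
      (∏ m ∈ C, m) = 1 →
      ∃ S : Subgroup Y, S.Normal ∧ S ≤ M ∧ Nat.card S = 8 ∧ ∃ y, ∃ m ∈ S, y * m * y⁻¹ ≠ m := by
    intro C hC h7 hne hp
    have hsub : ∀ w ∈ C, σ w = 1 := fun w hw => by rw [(seven C hC h7 w hw (hne w hw)).1, hp]
    have hk8 : Nat.card σ.ker ≤ 8 := by
      have hm := σ.ker.card_mul_index
      rw [Subgroup.index_ker, hM16] at hm
      have : 2 ≤ Nat.card σ.range := by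
        rw [Nat.succ_le_iff, Subgroup.one_lt_card_iff_ne_bot]
        intro hb
        have hzr : σ z ∈ σ.range := ⟨z, rfl⟩
        rw [hb, Subgroup.mem_bot, hσz] at hzr
        exact hz1 hzr
      nlinarith
    have h1C : (1 : M) ∉ C := fun h1 => hne 1 h1 (map_one _)
    have heq : (σ.ker : Set M) = ↑(insert 1 C) := by
      symm
      refine Set.eq_of_subset_of_ncard_le ?_ ?_
      · intro x hx
        rcases Finset.mem_insert.1 (Finset.mem_coe.1 hx) with rfl | hx
        · exact σ.ker.one_mem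
        · exact hsub x hx
      · rw [Set.ncard_coe_finset, Finset.card_insert_of_notMem h1C, h7, ← Nat.card_coe_set_eq]
        exact hk8
    refine ⟨σ.ker.map M.subtype, ⟨?_⟩, Subgroup.map_subtype_le _, ?_, ?_⟩
    · rintro _ ⟨m, hm, rfl⟩ y
      refine ⟨f y m, ?_, hf y m⟩
      have hm' : m ∈ (↑(insert 1 C) : Set M) := heq ▸ hm
      have : f y m ∈ (↑(insert 1 C) : Set M) := by
        rcases Finset.mem_insert.1 (Finset.mem_coe.1 hm') with rfl | hm'
        · rw [map_one]; simp
        · simp [hC y m hm']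
      rw [← heq] at this; exact this
    · rw [Subgroup.card_subtype]
      show Nat.card (σ.ker : Set M) = 8
      rw [Nat.card_coe_set_eq, heq, Set.ncard_coe_finset, Finset.card_insert_of_notMem h1C, h7]
    · obtain ⟨w, hw⟩ := Finset.card_pos.1 (by omega : 0 < C.card)
      exact ⟨s, w, ⟨w, hsub w hw, rfl⟩, fun h' => hne w hw (Subtype.ext ((hf s w).trans h'))⟩
  -- orbits
  let g : Y →* Equiv.Perm M := (MulAut.toPerm M).comp f
  have hg : ∀ q ∈ Q, g q = 1 := fun q hq => Equiv.ext fun m => Subtype.ext (by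
    show (f q m : Y) = m
    rw [hf]; exact htriv q hq m m.2)
  let orb : M → Finset M := fun m => Finset.univ.filter fun n => ∃ y, f y m = n
  have horb : ∀ m, m ∈ orb m := fun m => Finset.mem_filter.2 ⟨Finset.mem_univ _, 1, by rw [map_one]; rfl⟩
  have hinv : ∀ m y, ∀ n ∈ orb m, f y n ∈ orb m := by
    intro m y n hn
    obtain ⟨x, rfl⟩ := (Finset.mem_filter.1 hn).2
    exact Finset.mem_filter.2 ⟨Finset.mem_univ _, y * x, by rw [map_mul]; rfl⟩
  have hdvd : ∀ m, (orb m).card ∣ 168 := by
    intro m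
    have := h.orbit_card g hg m
    have e : (Set.range fun y => g y m) = ↑(orb m) := by
      ext n
      simp only [orb, g, Set.mem_range, Finset.coe_filter, Finset.mem_univ, true_and, MonoidHom.comp_apply]
      rfl
    rwa [e, Set.ncard_coe_finset] at this
  have hone : ∀ m, m ≠ 1 → (1 : M) ∉ orb m := by
    intro m hm h1
    obtain ⟨y, hy⟩ := (Finset.mem_filter.1 h1).2
    exact hm ((f y).map_eq_one_iff.1 hy)
  have hmod : ∀ C : Finset M, (∀ y, ∀ m ∈ C, f y m ∈ C) → (∀ m ∈ C, m ≠ 1) →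
      (C.card : ℕ) % 7 = (if z ∈ C then 1 else 0) := by
    intro C hC h1
    let p : Equiv.Perm (C : Set M) := setHom g (C : Set M) (fun y m hm => hC y m hm) s
    have hp : p ^ 7 = 1 := by
      show (setHom g (C : Set M) _ s) ^ 7 = 1
      rw [← map_pow, hs7, map_one]
    have := card_mod_seven p hp
    rw [Nat.card_coe_set_eq, Set.ncard_coe_finset] at this
    rw [this]
    have hiff : ∀ a : (C : Set M), p a = a ↔ (a : M) = z := by
      intro a
      constructor
      · intro ha
        exact (hFz a (congrArg Subtype.val ha)).resolve_left (h1 a a.2)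
      · intro ha
        refine Subtype.ext ?_
        show f s (a : M) = a
        rw [ha]; exact hzF
    rw [Nat.card_congr (Equiv.subtypeEquivRight hiff)]
    split_ifs with hz
    · haveI : Unique {a : (C : Set M) // (a : M) = z} :=
        ⟨⟨⟨⟨z, hz⟩, rfl⟩⟩, fun a => Subtype.ext (Subtype.ext a.2)⟩
      rw [Nat.card_unique]
    · haveI : IsEmpty {a : (C : Set M) // (a : M) = z} := ⟨fun a => hz (a.2 ▸ a.1.2)⟩
      rw [Nat.card_of_isEmpty]
  have hle : ∀ C : Finset M, (∀ m ∈ C, m ≠ 1) → C.card ≤ 15 := by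
    intro C h1
    have : C ⊆ Finset.univ.erase 1 := fun m hm => Finset.mem_erase.2 ⟨h1 m hm, Finset.mem_univ _⟩
    have := Finset.card_le_card this
    rw [Finset.card_erase_of_mem (Finset.mem_univ _), Finset.card_univ, ← Nat.card_eq_fintype_card,
      hM16] at this
    exact this
  have hO1 : ∀ m ∈ orb z, m ≠ 1 := fun m hm h1 => hone z hz1 (h1 ▸ hm)
  have hzc : (orb z).card % 7 = 1 := by rw [hmod _ (hinv z) hO1, if_pos (horb z)]
  have hz18 : (orb z).card = 1 ∨ (orb z).card = 8 := by
    have hl := hle _ hO1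
    have hd := hdvd z
    generalize hn : (orb z).card = n at hl hd hzc
    interval_cases n <;> omega
  rcases hz18 with hcz | hcz
  · have hzfix : ∀ y, f y z = z := by
      intro y
      obtain ⟨a, ha⟩ := Finset.card_eq_one.1 hcz
      have h1 := hinv z y z (horb z)
      have h2 := horb z
      rw [ha, Finset.mem_singleton] at h1 h2
      rw [h1, h2]
    by_cases hall : ∀ w : M, w ≠ 1 → w ≠ z → (orb w).card = 14
    · right
      refine ⟨z, z.2, fun h1 => hz1 (Subtype.ext h1), fun y => by rw [← hf, hzfix], ?_⟩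
      intro u hu v hv hu1 huz hv1 hvz
      have hu1' : (⟨u, hu⟩ : M) ≠ 1 := fun h => hu1 (congrArg Subtype.val h)
      have huz' : (⟨u, hu⟩ : M) ≠ z := fun h => huz (congrArg Subtype.val h)
      have hsub : orb ⟨u, hu⟩ = (Finset.univ.erase 1).erase z := by
        refine Finset.eq_of_subset_of_card_le ?_ ?_
        · intro m hm
          refine Finset.mem_erase.2 ⟨fun hmz => huz' ?_, Finset.mem_erase.2 ⟨fun h1 => hone _ hu1' (h1 ▸ hm), Finset.mem_univ _⟩⟩
          obtain ⟨y, hy⟩ := (Finset.mem_filter.1 hm).2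
          rw [hmz, ← hzfix y] at hy
          exact (f y).injective hy
        · rw [hall _ hu1' huz', Finset.card_erase_of_mem (Finset.mem_erase.2 ⟨hz1, Finset.mem_univ _⟩),
            Finset.card_erase_of_mem (Finset.mem_univ _), Finset.card_univ, ← Nat.card_eq_fintype_card, hM16]
      have hv' : (⟨v, hv⟩ : M) ∈ orb ⟨u, hu⟩ := by
        rw [hsub]
        exact Finset.mem_erase.2 ⟨fun h => hvz (congrArg Subtype.val h),
          Finset.mem_erase.2 ⟨fun h => hv1 (congrArg Subtype.val h), Finset.mem_univ _⟩⟩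
      obtain ⟨y, hy⟩ := (Finset.mem_filter.1 hv').2
      exact ⟨y, (hf y ⟨u, hu⟩).symm.trans (congrArg Subtype.val hy)⟩
    · push Not at hall
      obtain ⟨w, hw1, hwz, hw14⟩ := hall
      left
      have nz : ∀ m ∈ orb w, m ≠ z := by
        intro m hm hmz
        obtain ⟨y, hy⟩ := (Finset.mem_filter.1 hm).2
        rw [hmz, ← hzfix y] at hy
        exact hwz ((f y).injective hy)
      have n1 : ∀ m ∈ orb w, m ≠ 1 := fun m hm h1 => hone w hw1 (h1 ▸ hm)
      have hw7 : (orb w).card = 7 := by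
        have hm7 := hmod _ (hinv w) n1
        rw [if_neg (fun hz' => nz z hz' rfl)] at hm7
        have hl := hle _ n1
        have hd := hdvd w
        have hpos : 0 < (orb w).card := Finset.card_pos.2 ⟨w, horb w⟩
        generalize hn : (orb w).card = n at hl hd hm7 hw14 hpos
        interval_cases n <;> omega
      have hns : ∀ m ∈ orb w, f s m ≠ m := fun m hm hfix =>
        (hFz m hfix).elim (n1 m hm) (nz m hm)
      obtain ⟨hp, hpf⟩ := seven _ (hinv w) hw7 w (horb w) (hns w (horb w))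
      rcases hFz _ (hpf s) with hp1 | hpz
      · exact build _ (hinv w) hw7 hns (hp.symm.trans hp1)
      · let C : Finset M := (orb w).image (· * z)
        have hCi : ∀ y, ∀ m ∈ C, f y m ∈ C := by
          intro y m hm
          obtain ⟨n, hn, rfl⟩ := Finset.mem_image.1 hm
          exact Finset.mem_image.2 ⟨f y n, hinv w y n hn, by rw [map_mul, hzfix]⟩
        have hC7 : C.card = 7 := by
          rw [Finset.card_image_of_injective _ (mul_left_injective z), hw7]
        have hCns : ∀ m ∈ C, f s m ≠ m := by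
          intro m hm hfix
          obtain ⟨n, hn, rfl⟩ := Finset.mem_image.1 hm
          rw [map_mul, hzfix] at hfix
          exact hns n hn (mul_right_cancel hfix)
        have hwC : w * z ∈ C := Finset.mem_image_of_mem _ (horb w)
        refine build C hCi hC7 hCns ?_
        rw [← (seven C hCi hC7 _ hwC (hCns _ hwC)).1, map_mul, hσz, hpz]
        exact Subtype.ext (h2 _ z.2)
  · left
    let C : Finset M := (Finset.univ.erase 1) \ orb z
    have hCi : ∀ y, ∀ m ∈ C, f y m ∈ C := by
      intro y m hm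
      obtain ⟨hm1, hmz⟩ := Finset.mem_sdiff.1 hm
      refine Finset.mem_sdiff.2 ⟨Finset.mem_erase.2 ⟨fun h' => (Finset.mem_erase.1 hm1).1 ((f y).map_eq_one_iff.1 h'), Finset.mem_univ _⟩, fun h' => hmz ?_⟩
      have := hinv z y⁻¹ _ h'
      rw [map_inv] at this
      simpa using this
    have hC7 : C.card = 7 := by
      rw [Finset.card_sdiff_of_subset (fun m hm => Finset.mem_erase.2 ⟨hO1 m hm, Finset.mem_univ _⟩),
        Finset.card_erase_of_mem (Finset.mem_univ _), Finset.card_univ, ← Nat.card_eq_fintype_card, hM16, hcz]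
    have hCns : ∀ m ∈ C, f s m ≠ m := by
      intro m hm hfix
      obtain ⟨hm1, hmz⟩ := Finset.mem_sdiff.1 hm
      exact (hFz m hfix).elim (Finset.mem_erase.1 hm1).1 (fun h' => hmz (h' ▸ horb z))
    obtain ⟨w, hw⟩ := Finset.card_pos.1 (by omega : 0 < C.card)
    obtain ⟨hp, hpf⟩ := seven C hCi hC7 w hw (hCns w hw)
    rcases hFz _ (hpf s) with hp1 | hpz
    · exact build C hCi hC7 hCns (hp.symm.trans hp1)
    · exfalso
      have : orb z = {z} := by
        refine Finset.eq_singleton_iff_unique_mem.2 ⟨horb z, fun m hm => ?_⟩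
        obtain ⟨y, hy⟩ := (Finset.mem_filter.1 hm).2
        rw [← hy, ← hpz]; exact hpf y
      rw [this, Finset.card_singleton] at hcz
      omega

end Cfsg.Agent.RadLThree
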