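import Cfsg.Agent.RadLThreeTwo.CyclicEight
import Cfsg.Agent.TwoGroups.UniqueInvolution

/-!
# The inductive step: minimal modules, sections and their elementary consequences
-/

set_option autoImplicit false
set_option linter.all false

namespace Cfsg.Agent.RadLThree

open Cfsg Cfsg.Agent

universe u v w

variable {Y : Type u} [Group Y] [Finite Y] {L : Type v} [Group L] {π : Y →* L} {Q : Subgroup Y}

/-- A small invariant set centralised by `Q` is fixed pointwise. -/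
theorem Rad.small_set (h : Rad π Q) (S : Set Y) (hQS : ∀ q ∈ Q, ∀ a ∈ S, q * a * q⁻¹ = a)
    (hinv : ∀ y, ∀ a ∈ S, y * a * y⁻¹ ∈ S) (hc : S.ncard < 7) : ∀ y, ∀ a ∈ S, y * a * y⁻¹ = a := by
  intro y a ha
  have := h.small_fixed (setHom (conjPerm Y) S hinv)
    (fun q hq => Equiv.ext fun b => Subtype.ext (hQS q hq b b.2)) Set.univ (fun _ _ _ => Set.mem_univ _)
    (by rw [Nat.card_congr (Equiv.Set.univ S), Nat.card_coe_set_eq]; exact hc) y ⟨a, ha⟩ (Set.mem_univ _)
  exact congrArg Subtype.val this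

/-- An element of order seven fixing the displacement of `q` centralises `q`. -/
theorem Rad.seven_fix (h : Rad π Q) {s q : Y} (hs : s ^ 7 = 1) (hn : q⁻¹ * (s * q * s⁻¹) ∈ Q)
    (hfix : s * (q⁻¹ * (s * q * s⁻¹)) = q⁻¹ * (s * q * s⁻¹) * s) : s * q = q * s := by
  set n := q⁻¹ * (s * q * s⁻¹) with hndef
  have hsq : s * q * s⁻¹ = q * n := by rw [hndef]; group
  have hk : ∀ k : ℕ, s ^ k * q * (s ^ k)⁻¹ = q * n ^ k := by
    intro k
    induction k with
    | zero => simp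
    | succ k ih =>
      have hf : s * n ^ k * s⁻¹ = n ^ k := by
        rw [(Commute.pow_right (hfix : Commute s n) k).eq, mul_inv_cancel_right]
      calc s ^ (k + 1) * q * (s ^ (k + 1))⁻¹ = s * (s ^ k * q * (s ^ k)⁻¹) * s⁻¹ := by
            rw [pow_succ']; group
        _ = (s * q * s⁻¹) * (s * n ^ k * s⁻¹) := by rw [ih]; group
        _ = q * n ^ (k + 1) := by rw [hsq, hf, mul_assoc, ← pow_succ']
  have h7 := hk 7
  rw [hs] at h7
  simp only [one_mul, inv_one, mul_one] at h7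
  have := h.eq_one_of_pow_seven hn (left_eq_mul.1 h7)
  calc s * q = (s * q * s⁻¹) * s := by group
    _ = q * s := by rw [hsq, this, mul_one]

theorem Rad.seven_ne (h : Rad π Q) : ∃ s : Y, s ^ 7 = 1 ∧ s ≠ 1 := by
  obtain ⟨s, hs, hsQ⟩ := h.exists_seven
  exact ⟨s, hs, fun h1 => hsQ (h1 ▸ Q.one_mem)⟩

theorem Rad.moved (h : Rad π Q) : ∃ y, ∃ q ∈ Q, y * q * y⁻¹ ≠ q := by
  obtain ⟨s, hs, hne⟩ := h.seven_ne
  by_contra hcon
  push Not at hcon
  exact hne (h.act s hs fun q hq => by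
    conv_rhs => rw [← hcon s q hq]
    group)

theorem comm_of_sq {A : Subgroup Y} (hA : ∀ a ∈ A, a * a = 1) : ∀ a ∈ A, ∀ b ∈ A, a * b = b * a := by
  intro a ha b hb
  have hi : ∀ a ∈ A, a⁻¹ = a := fun a ha => inv_eq_of_mul_eq_one_right (hA a ha)
  rw [← hi _ (A.mul_mem ha hb), mul_inv_rev, hi a ha, hi b hb]

/-- An elementary radical has order 8 or 16. -/
theorem Rad.elem_card (h : Rad π Q) (hel : ∀ q ∈ Q, q * q = 1) : Nat.card Q = 8 ∨ Nat.card Q = 16 := by
  haveI : Fact (Nat.Prime 2) := ⟨Nat.prime_two⟩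
  have hle := h.card_le Q hel
  obtain ⟨k, hk⟩ := h.two.exists_card_eq
  have h7 : ¬ Nat.card Q < 7 := by
    intro hlt
    have hab := comm_of_sq hel
    obtain ⟨y, q, hq, hy⟩ := h.moved
    refine hy (h.small_set (Q : Set Y) (fun a ha b hb => by rw [hab a ha b hb, mul_inv_cancel_right])
      (fun y b hb => h.normal.conj_mem b hb y) ?_ y q hq)
    rwa [← Nat.card_coe_set_eq]
  rw [hk] at hle h7 ⊢
  have : k ≤ 4 := (Nat.pow_le_pow_iff_right (le_refl 2)).1 (by simpa using hle)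
  revert h7
  interval_cases k <;> norm_num

/-- A minimal module in the centre of `Q` inside its Frattini subgroup. -/
theorem Rad.exists_module (h : Rad π Q) (hne : ¬ ∀ q ∈ Q, q * q = 1) :
    ∃ K : Subgroup Y, K.Normal ∧ K ≤ (frattini ↥Q).map Q.subtype ∧ K ≤ Q ∧
      (∀ k ∈ K, ∀ q ∈ Q, k * q = q * k) ∧ (∀ k ∈ K, k * k = 1) ∧
      ((Nat.card K = 2 ∧ ∀ k ∈ K, ∀ y, y * k = k * y) ∨
        (Nat.card K = 8 ∧ ∃ D : Coord K ⊥, Natural π Q K ⊥)) := by
  classical
  haveI : Fact (Nat.Prime 2) := ⟨Nat.prime_two⟩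
  haveI := h.normal
  set Φ := (frattini ↥Q).map Q.subtype with hΦdef
  have hΦn : Φ.Normal := inferInstanceAs ((frattini ↥Q).map Q.subtype).Normal
  haveI := hΦn
  have hsqΦ : ∀ q ∈ Q, q * q ∈ Φ := fun q hq =>
    ⟨⟨q, hq⟩ ^ 2, PGroup.pow_mem_frattini h.two ⟨q, hq⟩, by rw [sq]; rfl⟩
  have hfne : frattini ↥Q ≠ ⊥ := by
    intro hb
    apply hne
    intro q hq
    obtain ⟨a, ha, hae⟩ := hsqΦ q hq
    rw [hb] at ha
    rw [← hae, Subgroup.mem_bot.1 ha]
    rfl
  obtain ⟨z, hzF, hzc, hz2⟩ := TwoGroups.exists_central_involution_of_normal h.two (frattini ↥Q) hfne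
  let K0 : Subgroup Y :=
    { carrier := {k | k ∈ Φ ∧ (∀ q ∈ Q, k * q = q * k) ∧ k * k = 1}
      one_mem' := ⟨Φ.one_mem, fun q _ => by simp, one_mul 1⟩
      mul_mem' := by
        rintro a b ⟨ha, hac, ha1⟩ ⟨hb, hbc, hb1⟩
        refine ⟨Φ.mul_mem ha hb, fun q hq => ?_, ?_⟩
        · rw [mul_assoc, hbc q hq, ← mul_assoc, hac q hq, mul_assoc]
        · have hbQ : b ∈ Q := Subgroup.map_subtype_le _ hb
          rw [show a * b * (a * b) = a * (b * a) * b by group, ← hac b hbQ,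
            show a * (a * b) * b = a * a * (b * b) by group, ha1, hb1, one_mul]
      inv_mem' := by
        rintro a ⟨ha, hac, ha1⟩
        rw [inv_eq_of_mul_eq_one_right ha1]
        exact ⟨ha, hac, ha1⟩ }
  have hK0n : K0.Normal := ⟨by
    rintro k ⟨hk, hkc, hk1⟩ y
    refine ⟨hΦn.conj_mem k hk y, fun q hq => ?_, ?_⟩
    · have hq' : y⁻¹ * q * y ∈ Q := by simpa using h.normal.conj_mem q hq y⁻¹
      calc y * k * y⁻¹ * q = y * (k * (y⁻¹ * q * y)) * y⁻¹ := by group
        _ = y * ((y⁻¹ * q * y) * k) * y⁻¹ := by rw [hkc _ hq']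
        _ = q * (y * k * y⁻¹) := by group
    · rw [show y * k * y⁻¹ * (y * k * y⁻¹) = y * (k * k) * y⁻¹ by group, hk1, mul_one, mul_inv_cancel]⟩
  have hK0ne : K0 ≠ ⊥ := by
    intro hb
    have hz : (z : Y) ∈ K0 := by
      refine ⟨⟨z, hzF, rfl⟩, fun q hq => congrArg Subtype.val (Subgroup.mem_center_iff.1 hzc ⟨q, hq⟩).symm, ?_⟩
      have : z ^ 2 = 1 := by rw [← hz2, pow_orderOf_eq_one]
      rw [sq] at this
      exact congrArg Subtype.val this
    rw [hb, Subgroup.mem_bot] at hz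
    have : z = 1 := Subtype.ext hz
    rw [this, orderOf_one] at hz2
    norm_num at hz2
  obtain ⟨K, ⟨hKn, hK0, hKne⟩, hmin⟩ :=
    (Set.toFinite {K : Subgroup Y | K.Normal ∧ K ≤ K0 ∧ K ≠ ⊥}).exists_minimal ⟨K0, hK0n, le_rfl, hK0ne⟩
  have hKQ : K ≤ Q := fun k hk => Subgroup.map_subtype_le _ (hK0 hk).1
  have hKc : ∀ k ∈ K, ∀ q ∈ Q, k * q = q * k := fun k hk => (hK0 hk).2.1
  have hK1 : ∀ k ∈ K, k * k = 1 := fun k hk => (hK0 hk).2.2
  refine ⟨K, hKn, fun k hk => (hK0 hk).1, hKQ, hKc, hK1, ?_⟩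
  have hQK : ∀ q ∈ Q, ∀ k ∈ K, q * k * q⁻¹ = k := fun q hq k hk => by
    rw [← hKc k hk q hq, mul_inv_cancel_right]
  -- the subgroup generated by a fixed point
  have hfixgen : ∀ k ∈ K, k ≠ 1 → (∀ y, y * k * y⁻¹ = k) → Nat.card K = 2 := by
    intro k hk hk1 hfix
    have hle : Subgroup.zpowers k ≤ K := Subgroup.zpowers_le.2 hk
    have hn : (Subgroup.zpowers k).Normal := ⟨by
      rintro _ ⟨i, rfl⟩ y
      refine ⟨i, ?_⟩
      show k ^ i = y * k ^ i * y⁻¹
      rw [← conj_zpow, hfix]⟩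
    have heq : Subgroup.zpowers k = K := le_antisymm hle
      (hmin ⟨hn, hle.trans hK0, Subgroup.zpowers_ne_bot.2 hk1⟩ hle)
    rw [← heq, Nat.card_zpowers]
    exact orderOf_eq_prime (by rw [sq]; exact hK1 k hk) hk1
  obtain ⟨k0, hk0, hk01⟩ := K.bot_or_exists_ne_one.resolve_left hKne
  by_cases hall : ∀ k ∈ K, ∀ y, y * k * y⁻¹ = k
  · exact Or.inl ⟨hfixgen k0 hk0 hk01 (hall k0 hk0), fun k hk y => by
      conv_rhs => rw [← hall k hk y]
      group⟩
  · right
    push Not at hall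
    obtain ⟨k, hk, y, hy⟩ := hall
    have hle := h.card_le K hK1
    obtain ⟨j, hj⟩ := (h.two.to_le hKQ).exists_card_eq
    have h7 : ¬ Nat.card K < 7 := fun hlt => hy (h.small_set (K : Set Y) hQK
      (fun y b hb => hKn.conj_mem b hb y) (by rwa [← Nat.card_coe_set_eq]) y k hk)
    have h8 : Nat.card K = 8 := by
      rw [hj] at hle h7 ⊢
      have : j ≤ 4 := (Nat.pow_le_pow_iff_right (le_refl 2)).1 (by simpa using hle)
      revert h7
      interval_cases j <;> norm_num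
      exfalso
      rcases sixteen h K hK1 (by rw [hj]; norm_num) hQK ⟨y, k, hk, hy⟩ with
        ⟨S, hSn, hSK, hS8, -⟩ | ⟨z', hz', hz'1, hzfix, -⟩
      · have hSb : S ≠ ⊥ := by intro hb; rw [hb, Subgroup.card_bot] at hS8; norm_num at hS8
        have := Subgroup.card_le_of_le (hmin ⟨hSn, hSK.trans hK0, hSb⟩ hSK)
        rw [hj, hS8] at this
        norm_num at this
      · have := hfixgen z' hz' hz'1 hzfix
        rw [hj] at this
        norm_num at this
    obtain ⟨D⟩ := exists_coord (M := K) (K := ⊥) inferInstance bot_le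
      (fun k hk => by rw [hK1 k hk]; exact Subgroup.one_mem _) (by rw [h8, Subgroup.card_bot])
    exact ⟨h8, D, hKn, inferInstance, fun q hq m hm => by
      rw [hQK q hq m hm, inv_mul_cancel]; exact Subgroup.one_mem _,
      y, k, hk, fun hh => hy (inv_mul_eq_one.1 (Subgroup.mem_bot.1 hh)).symm⟩

/-! ## Transfer from a quotient -/

theorem mk_eq_mk {K : Subgroup Y} [K.Normal] {a b : Y} :
    QuotientGroup.mk' K a = QuotientGroup.mk' K b ↔ a⁻¹ * b ∈ K := QuotientGroup.eq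

theorem mk_eq_one {K : Subgroup Y} [K.Normal] {a : Y} : QuotientGroup.mk' K a = 1 ↔ a ∈ K :=
  QuotientGroup.eq_one_iff a

theorem card_map_mk {K H : Subgroup Y} [K.Normal] (hKH : K ≤ H) :
    Nat.card (H.map (QuotientGroup.mk' K)) * Nat.card K = Nat.card H := by
  let f := (QuotientGroup.mk' K).comp H.subtype
  have hker : f.ker = K.subgroupOf H := by
    ext a; exact mk_eq_one
  have hr : f.range = H.map (QuotientGroup.mk' K) := by
    rw [MonoidHom.range_comp, Subgroup.range_subtype]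
  have := f.ker.card_mul_index
  rw [Subgroup.index_ker, hker, hr, Nat.card_congr (Subgroup.subgroupOfEquivOfLe hKH).toEquiv] at this
  rw [mul_comm]; exact this

theorem mem_map_mk {K H : Subgroup Y} [K.Normal] (hKH : K ≤ H) {y : Y} :
    QuotientGroup.mk' K y ∈ H.map (QuotientGroup.mk' K) ↔ y ∈ H := by
  refine ⟨?_, fun hy => ⟨y, hy, rfl⟩⟩
  rintro ⟨a, ha, hay⟩
  have := H.mul_mem ha (hKH (mk_eq_mk.1 hay))
  rwa [mul_inv_cancel_left] at this

/-- The preimage of a subgroup of the quotient. -/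
theorem preimage_facts {K : Subgroup Y} [K.Normal] (hKQ : K ≤ Q) {S : Subgroup (Y ⧸ K)}
    (hS : S ≤ Q.map (QuotientGroup.mk' K)) :
    K ≤ S.comap (QuotientGroup.mk' K) ∧ S.comap (QuotientGroup.mk' K) ≤ Q ∧
      Nat.card (S.comap (QuotientGroup.mk' K)) = Nat.card S * Nat.card K := by
  have h1 : K ≤ S.comap (QuotientGroup.mk' K) := fun k hk => by
    rw [Subgroup.mem_comap, mk_eq_one.2 hk]; exact S.one_mem
  refine ⟨h1, fun y hy => (mem_map_mk hKQ).1 (hS hy), ?_⟩
  have := card_map_mk h1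
  rw [Subgroup.map_comap_eq_self_of_surjective (QuotientGroup.mk'_surjective K)] at this
  exact this.symm

/-! ## Squares and commutators of natural sections over a central subgroup -/

theorem squares_const (h : Rad π Q) {M R K : Subgroup Y} (C : Coord M R) (hR : R ≤ M)
    (hK1 : ∀ k ∈ K, k * k = 1) (hKc : ∀ k ∈ K, ∀ y, y * k = k * y)
    (hsq : ∀ m ∈ M, m * m ∈ K)
    (htrans : ∀ u ∈ M, ∀ v ∈ M, u ∉ R → v ∉ R → ∃ y, v⁻¹ * (y * u * y⁻¹) ∈ K) :
    ∀ m ∈ M, m * m = 1 := by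
  obtain ⟨u, hu, huc⟩ := C.surj e0
  have huR : u ∉ R := fun hh => absurd (huc.symm.trans ((C.eq_zero hu).2 hh)) (by decide)
  refine elementary_of_const C hR (hK1 _ (hsq u hu)) (fun m _ => hKc _ (hsq u hu) m) fun v hv hvR => ?_
  obtain ⟨y, hy⟩ := htrans u hu v hv huR hvR
  have e : y * u * y⁻¹ = v * (v⁻¹ * (y * u * y⁻¹)) := (mul_inv_cancel_left _ _).symm
  generalize v⁻¹ * (y * u * y⁻¹) = k at hy e
  have h1 : y * (u * u) * y⁻¹ = u * u := by rw [hKc _ (hsq u hu) y, mul_inv_cancel_right]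
  calc v * v = v * v * (k * k) := by rw [hK1 k hy, mul_one]
    _ = v * k * (v * k) := by
      rw [show v * k * (v * k) = v * (k * v) * k by group, ← hKc k hy v]; group
    _ = y * (u * u) * y⁻¹ := by rw [← e]; group
    _ = u * u := h1

/-- An element whose displacements centralise a natural section centralises it. -/
theorem commute_of_const (h : Rad π Q) {M K : Subgroup Y} (C : Coord M K) (hC : Natural π Q M K)
    (hK1 : ∀ k ∈ K, k * k = 1) (hKc : ∀ k ∈ K, ∀ y, y * k = k * y)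
    {q : Y} (hq : q ∈ Q) (hmov : ∀ y, ∀ m ∈ M, q⁻¹ * (y * q * y⁻¹) * m = m * (q⁻¹ * (y * q * y⁻¹))) :
    ∀ m ∈ M, q * m = m * q := by
  classical
  let β : Y → Y := fun m => m⁻¹ * (q * m * q⁻¹)
  have hβK : ∀ m ∈ M, β m ∈ K := hC.triv q hq
  have hmul : ∀ {m n : Y}, m ∈ M → n ∈ M → β (m * n) = β m * β n := by
    intro m n hm hn
    calc β (m * n) = n⁻¹ * β m * (q * n * q⁻¹) := by simp only [β]; group
      _ = β m * n⁻¹ * (q * n * q⁻¹) := by rw [hKc _ (hβK m hm) n⁻¹]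
      _ = β m * β n := by simp only [β]; group
  have hconj : ∀ y, ∀ m ∈ M, β (y * m * y⁻¹) = β m := by
    intro y m hm
    set c := q⁻¹ * (y⁻¹ * q * y) with hcdef
    have hc : c * m = m * c := by simpa using hmov y⁻¹ m hm
    have hq' : y⁻¹ * q * y = q * c := by rw [hcdef]; group
    calc β (y * m * y⁻¹) = y * (m⁻¹ * ((y⁻¹ * q * y) * m * (y⁻¹ * q * y)⁻¹)) * y⁻¹ := by
          simp only [β]; group
      _ = y * β m * y⁻¹ := by
          rw [hq', show q * c * m * (q * c)⁻¹ = q * (c * m * c⁻¹) * q⁻¹ by group, hc,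
            mul_inv_cancel_right]
      _ = β m := by rw [hKc _ (hβK m hm) y, mul_inv_cancel_right]
  have hβ0 : ∀ m ∈ M, m ∈ K → β m = 1 := fun m _ hk => by
    show m⁻¹ * (q * m * q⁻¹) = 1
    rw [hKc m hk q, mul_inv_cancel_right, inv_mul_cancel]
  have hsame : ∀ {a b : Y}, a ∈ M → b ∈ M → a ∉ K → b ∉ K → β a = β b := by
    intro a b ha hb ha0 hb0
    obtain ⟨y, hy⟩ := C.trans_mem h hC ha hb ha0 hb0
    have hca := hC.mnormal.conj_mem a ha y
    have e : β (y * a * y⁻¹) = β b * β (b⁻¹ * (y * a * y⁻¹)) := by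
      rw [← hmul hb (M.mul_mem (M.inv_mem hb) hca), mul_inv_cancel_left]
    rw [hconj y a ha, hβ0 _ (M.mul_mem (M.inv_mem hb) hca) hy, mul_one] at e
    exact e
  obtain ⟨u, hu, huc⟩ := C.surj e0
  obtain ⟨v, hv, hvc⟩ := C.surj e1
  have hout : ∀ {a : Y} {x : V3}, a ∈ M → C.c a = x → x ≠ 0 → a ∉ K := fun {a x} ha hx hx0 hk =>
    hx0 (hx.symm.trans ((C.eq_zero ha).2 hk))
  have huK := hout hu huc (by decide)
  have huv := hsame (M.mul_mem hu hv) hu (hout (M.mul_mem hu hv) ((C.mul hu hv).trans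
    (by rw [huc, hvc])) (by decide)) huK
  rw [hmul hu hv, hsame hv hu (hout hv hvc (by decide)) huK] at huv
  have h1 : β u = 1 := left_eq_mul.1 huv.symm
  intro m hm
  have hm1 : β m = 1 := by
    by_cases hk : m ∈ K
    · exact hβ0 m hm hk
    · rw [hsame hm hu hk huK, h1]
  have h2 : q * m * q⁻¹ = m := (inv_mul_eq_one.1 hm1).symm
  calc q * m = (q * m * q⁻¹) * q := by group
    _ = m * q := by rw [h2]

/-- An equivariant endomorphism of a natural module is a scalar. -/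
theorem scalar_of_equivariant (h : Rad π Q) {M K : Subgroup Y} (C : Coord M K) (hC : Natural π Q M K)
    (g : V3 → V3) (hadd : ∀ a b, g (a + b) = g a + g b)
    (heq : ∀ y v, g (C.perm hC.mnormal hC.knormal y v) = C.perm hC.mnormal hC.knormal y (g v)) :
    (∀ v, g v = 0) ∨ ∀ v, g v = v := by
  classical
  let f := C.perm hC.mnormal hC.knormal
  have hg0 : g 0 = 0 := by
    have := hadd 0 0
    rw [add_zero] at this
    exact left_eq_add.1 this
  have real : ∀ σ : V3 ≃+ V3, ∃ y, ∀ v, f y v = σ v := by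
    intro σ
    obtain ⟨y, hy⟩ := C.lift h hC σ
    refine ⟨y, fun v => ?_⟩
    obtain ⟨m, hm, rfl⟩ := C.surj v
    rw [C.perm_c _ _ y hm, hy m hm]
  let t1 : V3 ≃+ V3 := involAut (fun w => (w.1 + w.2.1, w.2.1, w.2.2)) (by decide) (by decide)
  let t2 : V3 ≃+ V3 := involAut (fun w => (w.1 + w.2.2, w.2.1, w.2.2)) (by decide) (by decide)
  obtain ⟨y1, hy1⟩ := real t1
  obtain ⟨y2, hy2⟩ := real t2
  have k1 := heq y1 e0
  have k2 := heq y2 e0
  simp only [show C.perm hC.mnormal hC.knormal = f from rfl, hy1, hy2] at k1 k2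
  have key : ∀ v : V3, t1 v = v → t2 v = v → v = 0 ∨ v = e0 := by decide
  have hfix1 : t1 e0 = e0 := by decide
  have hfix2 : t2 e0 = e0 := by decide
  rw [hfix1] at k1
  rw [hfix2] at k2
  have hzero : ∀ y, f y 0 = 0 := fun y => by
    have := C.actFun_add hC.mnormal hC.knormal y 0 0
    rw [add_zero] at this
    exact left_eq_add.1 this
  rcases key _ k1.symm k2.symm with h0 | h0
  · left
    intro v
    by_cases hv : v = 0
    · rw [hv, hg0]
    · obtain ⟨y, rfl⟩ := C.trans h hC (show e0 ≠ 0 by decide) hv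
      rw [heq, h0]; exact hzero y
  · right
    intro v
    by_cases hv : v = 0
    · rw [hv, hg0]
    · obtain ⟨y, rfl⟩ := C.trans h hC (show e0 ≠ 0 by decide) hv
      rw [heq, h0]

end Cfsg.Agent.RadLThree
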